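/-
Project LQ (S1769): the model of a Sylow 2-subgroup of `PSL (n + 2) F`.
`⟨u, g, w, c⟩` stands for the block matrix `[[1, u, c], [0, g, w], [0, 0, 1]]`.
-/
import Cfsg.Agent.Loc.FusChain

set_option autoImplicit false
open Matrix
open scoped commutatorElement

namespace CL.LQ

universe v

variable {n : ℕ} {F : Type v} [Field F]

/-- upper unitriangular matrices -/
structure IsUT (g : Matrix (Fin n) (Fin n) F) : Prop where
  diag : ∀ i, g i i = 1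
  low : ∀ i j, j < i → g i j = 0

theorem IsUT.one : IsUT (1 : Matrix (Fin n) (Fin n) F) :=
  ⟨fun i => one_apply_eq i, fun _ _ h => one_apply_ne h.ne'⟩

theorem IsUT.bt {g : Matrix (Fin n) (Fin n) F} (h : IsUT g) : g.BlockTriangular id := fun i j hij => h.low i j hij

theorem mul_diag {g g' : Matrix (Fin n) (Fin n) F} (h : ∀ i j, j < i → g i j = 0) (h' : ∀ i j, j < i → g' i j = 0)
    (i : Fin n) : (g * g') i i = g i i * g' i i := by
  rw [mul_apply, Finset.sum_eq_single i _ (by simp)]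
  intro k _ hk
  rcases lt_or_gt_of_ne hk with e | e
  · rw [h i k e, zero_mul]
  · rw [h' k i e, mul_zero]

theorem IsUT.mul {g g' : Matrix (Fin n) (Fin n) F} (h : IsUT g) (h' : IsUT g') : IsUT (g * g') :=
  ⟨fun i => by rw [mul_diag h.low h'.low, h.diag, h'.diag, one_mul], fun _ _ hij => (h.bt.mul h'.bt) hij⟩

theorem IsUT.det {g : Matrix (Fin n) (Fin n) F} (h : IsUT g) : g.det = 1 := by
  rw [det_of_upperTriangular h.bt]; simp [h.diag]

theorem IsUT.isUnit {g : Matrix (Fin n) (Fin n) F} (h : IsUT g) : IsUnit g.det := h.det ▸ isUnit_one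

theorem IsUT.mul_inv {g : Matrix (Fin n) (Fin n) F} (h : IsUT g) : g * g⁻¹ = 1 := mul_nonsing_inv g h.isUnit

theorem IsUT.inv_mul {g : Matrix (Fin n) (Fin n) F} (h : IsUT g) : g⁻¹ * g = 1 := nonsing_inv_mul g h.isUnit

theorem IsUT.inv {g : Matrix (Fin n) (Fin n) F} (h : IsUT g) : IsUT g⁻¹ := by
  letI := g.invertibleOfIsUnitDet h.isUnit
  have h1 : ∀ i j, j < i → g⁻¹ i j = 0 := fun i j hij => blockTriangular_inv_of_blockTriangular h.bt hij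
  refine ⟨fun i => ?_, h1⟩
  have := mul_diag h.low h1 i
  rwa [h.mul_inv, one_apply_eq, h.diag, one_mul, eq_comm] at this

/-- `1 + N` with `N` strictly upper triangular -/
theorem IsUT.one_add {N : Matrix (Fin n) (Fin n) F} (h : ∀ i j, j ≤ i → N i j = 0) : IsUT (1 + N) :=
  ⟨fun i => by simp [h i i le_rfl], fun i j hij => by simp [h i j hij.le, one_apply_ne hij.ne']⟩

/-- the upper unitriangular group of degree `n + 2` in block form -/
@[ext] structure U (n : ℕ) (F : Type v) [Field F] where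
  u : Fin n → F
  g : Matrix (Fin n) (Fin n) F
  w : Fin n → F
  c : F
  ut : IsUT g

namespace U

instance : Mul (U n F) :=
  ⟨fun x y => ⟨y.u + x.u ᵥ* y.g, x.g * y.g, x.g *ᵥ y.w + x.w, x.c + y.c + x.u ⬝ᵥ y.w, x.ut.mul y.ut⟩⟩
instance : One (U n F) := ⟨⟨0, 1, 0, 0, .one⟩⟩
noncomputable instance : Inv (U n F) :=
  ⟨fun x => ⟨-(x.u ᵥ* x.g⁻¹), x.g⁻¹, -(x.g⁻¹ *ᵥ x.w), -x.c + (x.u ᵥ* x.g⁻¹) ⬝ᵥ x.w, x.ut.inv⟩⟩

@[simp] theorem mul_u (x y : U n F) : (x * y).u = y.u + x.u ᵥ* y.g := rfl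
@[simp] theorem mul_g (x y : U n F) : (x * y).g = x.g * y.g := rfl
@[simp] theorem mul_w (x y : U n F) : (x * y).w = x.g *ᵥ y.w + x.w := rfl
@[simp] theorem mul_c (x y : U n F) : (x * y).c = x.c + y.c + x.u ⬝ᵥ y.w := rfl
@[simp] theorem one_u : (1 : U n F).u = 0 := rfl
@[simp] theorem one_g : (1 : U n F).g = 1 := rfl
@[simp] theorem one_w : (1 : U n F).w = 0 := rfl
@[simp] theorem one_c : (1 : U n F).c = 0 := rfl
@[simp] theorem inv_u (x : U n F) : x⁻¹.u = -(x.u ᵥ* x.g⁻¹) := rfl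
@[simp] theorem inv_g (x : U n F) : x⁻¹.g = x.g⁻¹ := rfl
@[simp] theorem inv_w (x : U n F) : x⁻¹.w = -(x.g⁻¹ *ᵥ x.w) := rfl
@[simp] theorem inv_c (x : U n F) : x⁻¹.c = -x.c + (x.u ᵥ* x.g⁻¹) ⬝ᵥ x.w := rfl
@[simp] theorem g_mul_inv (x : U n F) : x.g * x.g⁻¹ = 1 := x.ut.mul_inv
@[simp] theorem g_inv_mul (x : U n F) : x.g⁻¹ * x.g = 1 := x.ut.inv_mul

noncomputable instance : Group (U n F) := Group.ofLeftAxioms
  (fun x y z => U.ext (by simp [add_vecMul, add_assoc]) (by simp [mul_assoc]) (by simp [mulVec_add, add_assoc])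
    (by simp [dotProduct_mulVec]; ring))
  (fun x => U.ext (by simp) (by simp) (by simp) (by simp))
  (fun x => U.ext (by simp [neg_vecMul]) (by simp) (by simp) (by simp))

instance [Finite F] : Finite (U n F) :=
  Finite.of_injective (fun x : U n F => (x.u, x.g, x.w, x.c)) fun x y h => by
    simp only [Prod.mk.injEq] at h
    exact U.ext h.1 h.2.1 h.2.2.1 h.2.2.2

/-- the elements of `Q` -/
def q (u w : Fin n → F) (c : F) : U n F := ⟨u, 1, w, c, .one⟩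
/-- the elements of the Levi complement -/
def l (g : Matrix (Fin n) (Fin n) F) (h : IsUT g) : U n F := ⟨0, g, 0, 0, h⟩

@[simp] theorem q_u (u w : Fin n → F) (c : F) : (q u w c).u = u := rfl
@[simp] theorem q_g (u w : Fin n → F) (c : F) : (q u w c).g = 1 := rfl
@[simp] theorem q_w (u w : Fin n → F) (c : F) : (q u w c).w = w := rfl
@[simp] theorem q_c (u w : Fin n → F) (c : F) : (q u w c).c = c := rfl
@[simp] theorem l_u (g : Matrix (Fin n) (Fin n) F) (h : IsUT g) : (l g h).u = 0 := rfl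
@[simp] theorem l_g (g : Matrix (Fin n) (Fin n) F) (h : IsUT g) : (l g h).g = g := rfl
@[simp] theorem l_w (g : Matrix (Fin n) (Fin n) F) (h : IsUT g) : (l g h).w = 0 := rfl
@[simp] theorem l_c (g : Matrix (Fin n) (Fin n) F) (h : IsUT g) : (l g h).c = 0 := rfl

theorem q_inj {u w u' w' : Fin n → F} {c c' : F} : q u w c = q u' w' c' ↔ u = u' ∧ w = w' ∧ c = c' :=
  ⟨fun h => ⟨congrArg U.u h, congrArg U.w h, congrArg U.c h⟩, fun ⟨a, b, d⟩ => by rw [a, b, d]⟩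
theorem q_zero : q 0 0 0 = (1 : U n F) := rfl
theorem q_eq_one {u w : Fin n → F} {c : F} : q u w c = 1 ↔ u = 0 ∧ w = 0 ∧ c = 0 := q_inj
theorem eq_q {x : U n F} (h : x.g = 1) : x = q x.u x.w x.c := U.ext rfl h rfl rfl
theorem q_mul (u w u' w' : Fin n → F) (c c' : F) : q u w c * q u' w' c' = q (u + u') (w + w') (c + c' + u ⬝ᵥ w') :=
  U.ext (by simp [add_comm]) (by simp) (by simp [add_comm]) rfl
theorem q_inv (u w : Fin n → F) (c : F) : (q u w c)⁻¹ = q (-u) (-w) (-c + u ⬝ᵥ w) :=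
  U.ext (by simp) (by simp) (by simp) (by simp)
theorem conj_q (s : U n F) (u w : Fin n → F) (c : F) :
    s * q u w c * s⁻¹ = q (u ᵥ* s.g⁻¹) (s.g *ᵥ w) (c + s.u ⬝ᵥ w - (u ᵥ* s.g⁻¹) ⬝ᵥ s.w) :=
  U.ext (by simp [add_vecMul]) (by simp) (by simp [mulVec_neg]) (by simp [dotProduct_mulVec, add_vecMul]; ring)
/-- the commutator of an arbitrary element and an element of `Q` -/
theorem comm_q (s : U n F) (u w : Fin n → F) (c : F) :
    ⁅s, q u w c⁆ = q (u ᵥ* s.g⁻¹ - u) (s.g *ᵥ w - w)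
      (s.u ⬝ᵥ w - (u ᵥ* s.g⁻¹) ⬝ᵥ s.w + u ⬝ᵥ w - (u ᵥ* s.g⁻¹) ⬝ᵥ w) := by
  rw [commutatorElement_def, conj_q, q_inv, q_mul, q_inj]
  refine ⟨by abel, by abel, ?_⟩
  rw [dotProduct_neg]; ring
theorem comm_qq (u w u' w' : Fin n → F) (c c' : F) : ⁅q u w c, q u' w' c'⁆ = q 0 0 (u ⬝ᵥ w' - u' ⬝ᵥ w) := by
  rw [comm_q, q_inj]; simp

/-- `O₂` of the normaliser of the root group -/
def Q (n : ℕ) (F : Type v) [Field F] : Subgroup (U n F) where
  carrier := {x | x.g = 1}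
  one_mem' := rfl
  mul_mem' := fun {a b} (ha : _ = _) (hb : _ = _) => show _ = _ by simp [ha, hb]
  inv_mem' := fun {a} (ha : _ = _) => show _ = _ by simp [ha]

/-- the part `u i = 0` for `i < k` of the first row -/
def Vk (n : ℕ) (F : Type v) [Field F] (k : ℕ) : Subgroup (U n F) where
  carrier := {x | x.g = 1 ∧ x.w = 0 ∧ ∀ i : Fin n, (i : ℕ) < k → x.u i = 0}
  one_mem' := ⟨rfl, rfl, fun _ _ => rfl⟩
  mul_mem' := fun {a b} ha hb => ⟨by simp [ha.1, hb.1], by simp [ha.2.1, hb.2.1], fun i hi => by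
    simp [hb.1, ha.2.2 i hi, hb.2.2 i hi]⟩
  inv_mem' := fun {a} ha => ⟨by simp [ha.1], by simp [ha.2.1], fun i hi => by simp [ha.1, ha.2.2 i hi]⟩

/-- the part `w i = 0` for `k ≤ i` of the last column -/
def Wk (n : ℕ) (F : Type v) [Field F] (k : ℕ) : Subgroup (U n F) where
  carrier := {x | x.g = 1 ∧ x.u = 0 ∧ ∀ i : Fin n, k ≤ (i : ℕ) → x.w i = 0}
  one_mem' := ⟨rfl, rfl, fun _ _ => rfl⟩
  mul_mem' := fun {a b} ha hb => ⟨by simp [ha.1, hb.1], by simp [ha.2.1, hb.2.1], fun i hi => by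
    simp [ha.1, ha.2.2 i hi, hb.2.2 i hi]⟩
  inv_mem' := fun {a} ha => ⟨by simp [ha.1], by simp [ha.2.1], fun i hi => by simp [ha.1, ha.2.2 i hi]⟩

/-- the first row -/
def V (n : ℕ) (F : Type v) [Field F] : Subgroup (U n F) where
  carrier := {x | x.g = 1 ∧ x.w = 0}
  one_mem' := ⟨rfl, rfl⟩
  mul_mem' := fun {a b} ha hb => ⟨by simp [ha.1, hb.1], by simp [ha.2, hb.2]⟩
  inv_mem' := fun {a} ha => ⟨by simp [ha.1], by simp [ha.2]⟩

/-- the last column -/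
def W (n : ℕ) (F : Type v) [Field F] : Subgroup (U n F) where
  carrier := {x | x.g = 1 ∧ x.u = 0}
  one_mem' := ⟨rfl, rfl⟩
  mul_mem' := fun {a b} ha hb => ⟨by simp [ha.1, hb.1], by simp [ha.2, hb.2]⟩
  inv_mem' := fun {a} ha => ⟨by simp [ha.1], by simp [ha.2]⟩

/-- the centre -/
def Z (n : ℕ) (F : Type v) [Field F] : Subgroup (U n F) where
  carrier := {x | x.g = 1 ∧ x.u = 0 ∧ x.w = 0}
  one_mem' := ⟨rfl, rfl, rfl⟩
  mul_mem' := fun {a b} ha hb => ⟨by simp [ha.1, hb.1], by simp [ha.2, hb.2], by simp [ha.2, hb.2]⟩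
  inv_mem' := fun {a} ha => ⟨by simp [ha.1], by simp [ha.2], by simp [ha.2]⟩

/-- the point of `Q / Z` spanned by `(a, b)` -/
def Pt (a b : Fin n → F) : Subgroup (U n F) where
  carrier := {x | x.g = 1 ∧ ∃ t : F, x.u = t • a ∧ x.w = t • b}
  one_mem' := ⟨rfl, 0, by simp, by simp⟩
  mul_mem' := fun {x y} ⟨h1, t, h2, h3⟩ ⟨k1, t', k2, k3⟩ =>
    ⟨by simp [h1, k1], t + t', by simp [k1, h2, k2, add_smul, add_comm], by simp [h1, h3, k3, add_smul, add_comm]⟩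
  inv_mem' := fun {x} ⟨h1, t, h2, h3⟩ => ⟨by simp [h1], -t, by simp [h1, h2], by simp [h1, h3]⟩

theorem smul_dot_eq_zero {s φ : Fin n → F} {t : F} (h : IsUT (1 + t • vecMulVec s φ)) : t * (φ ⬝ᵥ s) = 0 := by
  rw [dotProduct, Finset.mul_sum]
  refine Finset.sum_eq_zero fun i _ => ?_
  have := h.diag i
  simp only [Matrix.add_apply, one_apply_eq, Matrix.smul_apply, vecMulVec_apply, smul_eq_mul, add_eq_left] at this
  rw [mul_comm (φ i), this]

theorem one_add_mul {s φ : Fin n → F} {t : F} (t' : F) (h : IsUT (1 + t • vecMulVec s φ)) :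
    (1 + t • vecMulVec s φ) * (1 + t' • vecMulVec s φ) = 1 + (t + t') • vecMulVec s φ := by
  have e : (t • vecMulVec s φ) * (t' • vecMulVec s φ) = 0 := by
    rw [smul_mul_assoc, mul_smul_comm, vecMulVec_mul_vecMulVec, vecMulVec_smul, smul_smul, smul_smul,
      mul_right_comm, smul_dot_eq_zero h, zero_mul, zero_smul]
  rw [add_mul, mul_add, mul_add, e, add_smul]; simp only [one_mul, mul_one]; abel

/-- the preimage of the transvection group `1 + t • s ⊗ φ` -/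
def XX (s φ : Fin n → F) : Subgroup (U n F) where
  carrier := {x | ∃ t : F, x.g = 1 + t • vecMulVec s φ}
  one_mem' := ⟨0, by simp⟩
  mul_mem' := fun {x y} ⟨t, h⟩ ⟨t', k⟩ => ⟨t + t', by rw [mul_g, h, k, one_add_mul t' (h ▸ x.ut)]⟩
  inv_mem' := fun {x} ⟨t, h⟩ => ⟨-t, by
    rw [inv_g, h]; exact inv_eq_right_inv (by rw [one_add_mul (-t) (h ▸ x.ut)]; simp)⟩

/-- `s ⊗ φ` is non-zero and strictly upper triangular -/
structure Adm (s φ : Fin n → F) : Prop where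
  s0 : s ≠ 0
  φ0 : φ ≠ 0
  up : ∀ i j, j ≤ i → s i * φ j = 0

theorem Adm.ut {s φ : Fin n → F} (h : Adm s φ) (t : F) : IsUT (1 + t • vecMulVec s φ) :=
  .one_add fun i j hij => by simp [vecMulVec_apply, h.up i j hij]

theorem vecMul_inv_of {x : U n F} {a : Fin n → F} (h : a ᵥ* x.g = a) : a ᵥ* x.g⁻¹ = a := by
  conv_lhs => rw [← h]
  simp

theorem inv_mulVec_of {x : U n F} {b : Fin n → F} (h : x.g *ᵥ b = b) : x.g⁻¹ *ᵥ b = b := by
  conv_lhs => rw [← h]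
  simp

/-- the upper right block cut at `k` (`g - 1` lives in the rows `< k` and the columns `≥ k`) -/
def Ak (n : ℕ) (F : Type v) [Field F] (k : ℕ) : Subgroup (U n F) where
  carrier := {x | (∀ i : Fin n, (i : ℕ) < k → x.u i = 0) ∧ (∀ i : Fin n, k ≤ (i : ℕ) → x.w i = 0) ∧
    (∀ a : Fin n → F, (∀ i : Fin n, (i : ℕ) < k → a i = 0) → a ᵥ* x.g = a) ∧
    ∀ b : Fin n → F, (∀ i : Fin n, k ≤ (i : ℕ) → b i = 0) → x.g *ᵥ b = b}
  one_mem' := ⟨fun _ _ => rfl, fun _ _ => rfl, fun _ _ => by simp, fun _ _ => by simp⟩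
  mul_mem' := fun {x y} ⟨h1, h2, h3, h4⟩ ⟨k1, k2, k3, k4⟩ =>
    ⟨fun i hi => by simp [k3 _ h1, h1 i hi, k1 i hi], fun i hi => by simp [h4 _ k2, h2 i hi, k2 i hi],
      fun a ha => by rw [mul_g, ← vecMul_vecMul, h3 a ha, k3 a ha],
      fun b hb => by rw [mul_g, ← mulVec_mulVec, k4 b hb, h4 b hb]⟩
  inv_mem' := fun {x} ⟨h1, h2, h3, h4⟩ =>
    ⟨fun i hi => by simp [vecMul_inv_of (h3 _ h1), h1 i hi], fun i hi => by simp [inv_mulVec_of (h4 _ h2), h2 i hi],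
      fun a ha => vecMul_inv_of (h3 a ha), fun b hb => inv_mulVec_of (h4 b hb)⟩

theorem mem_Ak {k : ℕ} {x : U n F} : x ∈ Ak n F k ↔ (∀ i : Fin n, (i : ℕ) < k → x.u i = 0) ∧
    (∀ i : Fin n, k ≤ (i : ℕ) → x.w i = 0) ∧
    (∀ a : Fin n → F, (∀ i : Fin n, (i : ℕ) < k → a i = 0) → a ᵥ* x.g = a) ∧
    ∀ b : Fin n → F, (∀ i : Fin n, k ≤ (i : ℕ) → b i = 0) → x.g *ᵥ b = b := Iff.rfl
theorem mem_Q {x : U n F} : x ∈ Q n F ↔ x.g = 1 := Iff.rfl
theorem mem_V {x : U n F} : x ∈ V n F ↔ x.g = 1 ∧ x.w = 0 := Iff.rfl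
theorem mem_W {x : U n F} : x ∈ W n F ↔ x.g = 1 ∧ x.u = 0 := Iff.rfl
theorem mem_Z {x : U n F} : x ∈ Z n F ↔ x.g = 1 ∧ x.u = 0 ∧ x.w = 0 := Iff.rfl
theorem mem_Vk {k : ℕ} {x : U n F} : x ∈ Vk n F k ↔ x.g = 1 ∧ x.w = 0 ∧ ∀ i : Fin n, (i : ℕ) < k → x.u i = 0 :=
  Iff.rfl
theorem mem_Wk {k : ℕ} {x : U n F} : x ∈ Wk n F k ↔ x.g = 1 ∧ x.u = 0 ∧ ∀ i : Fin n, k ≤ (i : ℕ) → x.w i = 0 :=
  Iff.rfl
theorem mem_Pt {a b : Fin n → F} {x : U n F} : x ∈ Pt a b ↔ x.g = 1 ∧ ∃ t : F, x.u = t • a ∧ x.w = t • b := Iff.rfl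
theorem mem_XX {s φ : Fin n → F} {x : U n F} : x ∈ XX s φ ↔ ∃ t : F, x.g = 1 + t • vecMulVec s φ := Iff.rfl

end U

end CL.LQ
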