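/-
Project LQ (S1769): basic facts on the model, and the graph automorphism.
-/
import Cfsg.Agent.LQ.Model

set_option autoImplicit false
open Matrix
open scoped commutatorElement

namespace CL.LQ

universe v

variable {n : ℕ} {F : Type v} [Field F]

theorem IsUT.vecMul_apply {g : Matrix (Fin n) (Fin n) F} (h : IsUT g) {a : Fin n → F} {j : Fin n}
    (ha : ∀ i, i < j → a i = 0) : (a ᵥ* g) j = a j := by
  rw [vecMul, dotProduct, Finset.sum_eq_single j _ (by simp)]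
  · simp [h.diag]
  · intro i _ hi
    rcases lt_or_gt_of_ne hi with e | e
    · simp [ha i e]
    · simp [h.low i j e]

theorem IsUT.mulVec_apply {g : Matrix (Fin n) (Fin n) F} (h : IsUT g) {b : Fin n → F} {i : Fin n}
    (hb : ∀ j, i < j → b j = 0) : (g *ᵥ b) i = b i := by
  rw [mulVec, dotProduct, Finset.sum_eq_single i _ (by simp)]
  · simp [h.diag]
  · intro j _ hj
    rcases lt_or_gt_of_ne hj with e | e
    · simp [h.low i j e]
    · simp [hb j e]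

theorem IsUT.vecMul_low {g : Matrix (Fin n) (Fin n) F} (h : IsUT g) {k : ℕ} {a : Fin n → F}
    (ha : ∀ i : Fin n, (i : ℕ) < k → a i = 0) (j : Fin n) (hj : (j : ℕ) < k) : (a ᵥ* g) j = 0 := by
  rw [h.vecMul_apply fun i hi => ha i (lt_trans hi hj), ha j hj]

theorem IsUT.mulVec_high {g : Matrix (Fin n) (Fin n) F} (h : IsUT g) {k : ℕ} {b : Fin n → F}
    (hb : ∀ i : Fin n, k ≤ (i : ℕ) → b i = 0) (j : Fin n) (hj : k ≤ (j : ℕ)) : (g *ᵥ b) j = 0 := by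
  rw [h.mulVec_apply fun i hi => hb i (hj.trans hi.le), hb j hj]

theorem eq_one_of_vecMul {g : Matrix (Fin n) (Fin n) F} (h : ∀ a, a ᵥ* g = a) : g = 1 := by
  ext i j
  have := congrFun (h (Pi.single i 1)) j
  rw [single_one_vecMul, row_apply] at this
  rw [this, one_apply, Pi.single_apply]; simp only [eq_comm]

theorem eq_one_of_mulVec {g : Matrix (Fin n) (Fin n) F} (h : ∀ b, g *ᵥ b = b) : g = 1 := by
  ext i j
  have := congrFun (h (Pi.single j 1)) i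
  rw [mulVec_single_one, col_apply] at this
  rw [this, one_apply, Pi.single_apply]

theorem eq_zero_of_dot {b : Fin n → F} (h : ∀ a, a ⬝ᵥ b = 0) : b = 0 :=
  funext fun i => by simpa using h (Pi.single i 1)

theorem exists_dot {b : Fin n → F} (hb : b ≠ 0) (c : F) : ∃ a, a ⬝ᵥ b = c := by
  obtain ⟨i, hi⟩ := Function.ne_iff.1 hb
  exact ⟨Pi.single i (c * (b i)⁻¹), by simp [mul_assoc, inv_mul_cancel₀ (show b i ≠ 0 from hi)]⟩

namespace U

theorem g_eq_one_of_inv {x : U n F} (h : x.g⁻¹ = 1) : x.g = 1 := by rw [← x.g_mul_inv, h, mul_one]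

instance : (Q n F).Normal := ⟨fun x (h : _ = _) s => show _ = _ by simp [h]⟩
instance : (V n F).Normal := ⟨fun x h s => by rw [eq_q h.1, h.2, conj_q]; exact ⟨rfl, by simp⟩⟩
instance : (W n F).Normal := ⟨fun x h s => by rw [eq_q h.1, h.2, conj_q]; exact ⟨rfl, by simp⟩⟩
instance (k : ℕ) : (Vk n F k).Normal :=
  ⟨fun x h s => by rw [eq_q h.1, h.2.1, conj_q]; exact ⟨rfl, by simp, s.ut.inv.vecMul_low h.2.2⟩⟩
instance (k : ℕ) : (Wk n F k).Normal :=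
  ⟨fun x h s => by rw [eq_q h.1, h.2.1, conj_q]; exact ⟨rfl, by simp, s.ut.mulVec_high h.2.2⟩⟩

theorem z_comm {z : U n F} (h : z ∈ Z n F) (s : U n F) : s * z = z * s := by
  rw [← mul_inv_eq_iff_eq_mul, eq_q h.1, h.2.1, h.2.2, conj_q]; simp

instance : (Z n F).Normal := ⟨fun x h s => by rwa [z_comm h, mul_inv_cancel_right]⟩

instance (k : ℕ) : (Ak n F k).Normal := ⟨fun x ⟨h1, h2, h3, h4⟩ s => by
  have e1 : ∀ a : Fin n → F, ∀ i : Fin n, (i : ℕ) < k → (a ᵥ* x.g - a) i = 0 := fun a i hi => by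
    have := h4 (Pi.single i 1) fun j hj => Pi.single_eq_of_ne (by rintro rfl; omega) _
    rw [Pi.sub_apply, sub_eq_zero, ← dotProduct_single_one (a ᵥ* x.g), ← dotProduct_mulVec, this, dotProduct_single_one]
  have e2 : ∀ b : Fin n → F, ∀ i : Fin n, k ≤ (i : ℕ) → (x.g *ᵥ b - b) i = 0 := fun b i hi => by
    have := h3 (Pi.single i 1) fun j hj => Pi.single_eq_of_ne (by rintro rfl; omega) _
    rw [Pi.sub_apply, sub_eq_zero, ← single_one_dotProduct i (x.g *ᵥ b), dotProduct_mulVec, this, single_one_dotProduct]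
  refine ⟨fun i hi => ?_, fun i hi => ?_, fun a ha => ?_, fun b hb => ?_⟩
  · have : (s * x * s⁻¹).u = (x.u + (s.u ᵥ* x.g - s.u)) ᵥ* s.g⁻¹ := by simp [add_vecMul, sub_vecMul]; abel
    rw [this]
    exact s.ut.inv.vecMul_low (fun j hj => by rw [Pi.add_apply, h1 j hj, e1 _ j hj, add_zero]) i hi
  · have : (s * x * s⁻¹).w = s.g *ᵥ (x.w - (x.g *ᵥ (s.g⁻¹ *ᵥ s.w) - s.g⁻¹ *ᵥ s.w)) := by
      simp [mulVec_sub, mulVec_add, mulVec_neg, mul_assoc]; abel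
    rw [this]
    exact s.ut.mulVec_high (fun j hj => by rw [Pi.sub_apply, h2 j hj, e2 _ j hj, sub_zero]) i hi
  · rw [mul_g, mul_g, inv_g, ← vecMul_vecMul, ← vecMul_vecMul, h3 _ (s.ut.vecMul_low ha)]; simp
  · rw [mul_g, mul_g, inv_g, ← mulVec_mulVec, ← mulVec_mulVec, h4 _ (s.ut.inv.mulVec_high hb)]; simp⟩

theorem V_inf_W : V n F ⊓ W n F = Z n F :=
  Subgroup.ext fun _ => ⟨fun h => ⟨h.1.1, h.2.2, h.1.2⟩, fun h => ⟨⟨h.1, h.2.2⟩, h.1, h.2.1⟩⟩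
theorem exists_VW {x : U n F} (h : x ∈ Q n F) : ∃ v ∈ V n F, ∃ w ∈ W n F, v * w = x :=
  ⟨q x.u 0 (x.c - x.u ⬝ᵥ x.w), ⟨rfl, rfl⟩, q 0 x.w 0, ⟨rfl, rfl⟩, by rw [q_mul, eq_q h]; simp⟩
theorem V_comm {x y : U n F} (hx : x ∈ V n F) (hy : y ∈ V n F) : x * y = y * x := by
  rw [eq_q hx.1, eq_q hy.1, hx.2, hy.2, q_mul, q_mul]; simp [add_comm]
theorem W_comm {x y : U n F} (hx : x ∈ W n F) (hy : y ∈ W n F) : x * y = y * x := by
  rw [eq_q hx.1, eq_q hy.1, hx.2, hy.2, q_mul, q_mul]; simp [add_comm]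
theorem comm_Q {x y : U n F} (hx : x ∈ Q n F) (hy : y ∈ Q n F) : ⁅x, y⁆ ∈ Z n F := by
  rw [eq_q hx, eq_q hy, comm_qq]; exact ⟨rfl, rfl, rfl⟩
theorem sq_q [CharP F 2] (u w : Fin n → F) (c : F) : q u w c * q u w c = q 0 0 (u ⬝ᵥ w) := by
  rw [q_mul, q_inj]
  exact ⟨funext fun _ => CharTwo.add_self_eq_zero _, funext fun _ => CharTwo.add_self_eq_zero _, by
    rw [CharTwo.add_self_eq_zero, zero_add]⟩
theorem V_sq [CharP F 2] {x : U n F} (hx : x ∈ V n F) : x * x = 1 := by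
  rw [eq_q hx.1, hx.2, sq_q, dotProduct_zero, q_zero]
theorem W_sq [CharP F 2] {x : U n F} (hx : x ∈ W n F) : x * x = 1 := by
  rw [eq_q hx.1, hx.2, sq_q, zero_dotProduct, q_zero]
theorem Q_sq [CharP F 2] {x : U n F} (hx : x ∈ Q n F) : x * x ∈ Z n F := by
  rw [eq_q hx, sq_q]; exact ⟨rfl, rfl, rfl⟩

theorem mem_Q_of_V {x : U n F} (h : ∀ v ∈ V n F, ⁅x, v⁆ ∈ Z n F) : x ∈ Q n F :=
  g_eq_one_of_inv (eq_one_of_vecMul fun a => by
    have := (h (q a 0 0) ⟨rfl, rfl⟩).2.1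
    rwa [comm_q, q_u, sub_eq_zero] at this)
theorem mem_Q_of_W {x : U n F} (h : ∀ w ∈ W n F, ⁅x, w⁆ ∈ Z n F) : x ∈ Q n F :=
  eq_one_of_mulVec fun b => by
    have := (h (q 0 b 0) ⟨rfl, rfl⟩).2.2
    rwa [comm_q, q_w, sub_eq_zero] at this
theorem mem_V_of_comm {x : U n F} (h : ∀ v ∈ V n F, ⁅x, v⁆ = 1) : x ∈ V n F := by
  have hx : x.g = 1 := mem_Q_of_V fun v hv => h v hv ▸ one_mem _
  refine ⟨hx, eq_zero_of_dot fun a => ?_⟩
  have := h (q a 0 0) ⟨rfl, rfl⟩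
  rw [eq_q hx, comm_qq, q_eq_one] at this
  simpa using this.2.2
theorem mem_W_of_comm {x : U n F} (h : ∀ w ∈ W n F, ⁅x, w⁆ = 1) : x ∈ W n F := by
  have hx : x.g = 1 := mem_Q_of_W fun v hv => h v hv ▸ one_mem _
  refine ⟨hx, eq_zero_of_dot fun a => ?_⟩
  have := h (q 0 a 0) ⟨rfl, rfl⟩
  rw [eq_q hx, comm_qq, q_eq_one] at this
  simpa [dotProduct_comm] using this.2.2

/-- the anti-transpose, an anti-automorphism -/
def sg (x : U n F) : U n F := ⟨x.w ∘ Fin.rev, x.gᵀ.submatrix Fin.rev Fin.rev, x.u ∘ Fin.rev, x.c,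
  ⟨fun _ => x.ut.diag _, fun _ _ h => x.ut.low _ _ (Fin.rev_lt_rev.2 h)⟩⟩

theorem sg_sg (x : U n F) : sg (sg x) = x :=
  U.ext (funext fun i => by simp [sg]) (by ext i j; simp [sg]) (funext fun i => by simp [sg]) rfl

theorem dot_rev (a b : Fin n → F) : (a ∘ Fin.rev) ⬝ᵥ (b ∘ Fin.rev) = a ⬝ᵥ b :=
  comp_equiv_dotProduct_comp_equiv a b Fin.revPerm

theorem rev_vecMul (g : Matrix (Fin n) (Fin n) F) (b : Fin n → F) :
    (b ∘ Fin.rev) ᵥ* gᵀ.submatrix Fin.rev Fin.rev = (g *ᵥ b) ∘ Fin.rev :=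
  funext fun i => (dotProduct_comm _ _).trans (dot_rev (g i.rev) b)

theorem rev_mulVec (g : Matrix (Fin n) (Fin n) F) (a : Fin n → F) :
    gᵀ.submatrix Fin.rev Fin.rev *ᵥ (a ∘ Fin.rev) = (a ᵥ* g) ∘ Fin.rev :=
  funext fun i => (dotProduct_comm _ _).trans (dot_rev a fun k => g k i.rev)

theorem sg_mul (x y : U n F) : sg (x * y) = sg y * sg x := by
  refine U.ext ?_ ?_ ?_ ?_
  · simp only [sg, mul_u, mul_w, rev_vecMul]; exact funext fun i => add_comm _ _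
  · simp only [sg, mul_g, transpose_mul]
    exact (submatrix_mul_equiv _ _ _ Fin.revPerm _).symm
  · simp only [sg, mul_u, mul_w, rev_mulVec]; exact funext fun i => add_comm _ _
  · simp only [sg, mul_c, dot_rev, dotProduct_comm y.w]; ring

theorem sg_inv (x : U n F) : sg x⁻¹ = (sg x)⁻¹ := by
  have h1 : sg (1 : U n F) = 1 := by
    have := sg_mul (1 : U n F) 1
    rw [one_mul] at this
    exact (mul_eq_left.1 this.symm)
  exact eq_inv_of_mul_eq_one_left (by rw [← sg_mul, mul_inv_cancel, h1])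

/-- the graph automorphism -/
noncomputable def tau (n : ℕ) (F : Type v) [Field F] : U n F ≃* U n F where
  toFun x := (sg x)⁻¹
  invFun x := (sg x)⁻¹
  left_inv x := by simp only [sg_inv, sg_sg, inv_inv]
  right_inv x := by simp only [sg_inv, sg_sg, inv_inv]
  map_mul' x y := by rw [sg_mul, _root_.mul_inv_rev]

theorem map_tau {H K : Subgroup (U n F)} (h : ∀ x ∈ H, sg x ∈ K) (h' : ∀ x ∈ K, sg x ∈ H) :
    H.map (tau n F).toMonoidHom = K := by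
  refine le_antisymm (Subgroup.map_le_iff_le_comap.2 fun x hx => inv_mem (h x hx)) fun x hx => ?_
  exact ⟨(sg x)⁻¹, inv_mem (h' x hx), (tau n F).right_inv x⟩

theorem sg_g {x : U n F} (h : x.g = 1) : (sg x).g = 1 := by
  simp only [sg, h, transpose_one]; exact submatrix_one_equiv Fin.revPerm

theorem sg_V {x : U n F} (h : x ∈ V n F) : sg x ∈ W n F := ⟨sg_g h.1, by simp [sg, h.2]⟩
theorem sg_W {x : U n F} (h : x ∈ W n F) : sg x ∈ V n F := ⟨sg_g h.1, by simp [sg, h.2]⟩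
theorem sg_Z {x : U n F} (h : x ∈ Z n F) : sg x ∈ Z n F := ⟨sg_g h.1, by simp [sg, h.2], by simp [sg, h.2]⟩
theorem sg_Vk {k k' : ℕ} (e : k + k' = n) {x : U n F} (h : x ∈ Vk n F k) : sg x ∈ Wk n F k' :=
  ⟨sg_g h.1, by simp [sg, h.2.1], fun i hi => h.2.2 _ (by rw [Fin.val_rev]; omega)⟩
theorem sg_Wk {k k' : ℕ} (e : k + k' = n) {x : U n F} (h : x ∈ Wk n F k) : sg x ∈ Vk n F k' :=
  ⟨sg_g h.1, by simp [sg, h.2.1], fun i hi => h.2.2 _ (by rw [Fin.val_rev]; omega)⟩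
theorem sg_Pt {a b : Fin n → F} {x : U n F} (h : x ∈ Pt a b) : sg x ∈ Pt (b ∘ Fin.rev) (a ∘ Fin.rev) := by
  obtain ⟨h1, t, h2, h3⟩ := h
  exact ⟨sg_g h1, t, by simp only [sg, h3]; rfl, by simp only [sg, h2]; rfl⟩
theorem sg_XX {s φ : Fin n → F} {x : U n F} (h : x ∈ XX s φ) : sg x ∈ XX (φ ∘ Fin.rev) (s ∘ Fin.rev) := by
  obtain ⟨t, h⟩ := h
  refine ⟨t, ?_⟩
  ext i j
  simp [sg, h, one_apply, vecMulVec_apply, mul_comm, eq_comm]
theorem rev_rev (a : Fin n → F) : (a ∘ Fin.rev) ∘ Fin.rev = a := funext fun i => by simp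
theorem sg_Ak {k k' : ℕ} (e : k + k' = n) {x : U n F} (h : x ∈ Ak n F k) : sg x ∈ Ak n F k' := by
  obtain ⟨h1, h2, h3, h4⟩ := h
  refine ⟨fun i hi => h2 _ (by rw [Fin.val_rev]; omega), fun i hi => h1 _ (by rw [Fin.val_rev]; omega),
    fun a ha => ?_, fun b hb => ?_⟩
  · rw [← rev_rev a]
    simp only [sg, rev_vecMul]
    rw [h4 (a ∘ Fin.rev) fun i hi => ha i.rev (by rw [Fin.val_rev]; omega)]
  · rw [← rev_rev b]
    simp only [sg, rev_mulVec]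
    rw [h3 (b ∘ Fin.rev) fun i hi => hb i.rev (by rw [Fin.val_rev]; omega)]

theorem Adm.rev {s φ : Fin n → F} (h : Adm s φ) : Adm (φ ∘ Fin.rev) (s ∘ Fin.rev) :=
  ⟨fun e => h.φ0 (by rw [← rev_rev φ, e]; rfl), fun e => h.s0 (by rw [← rev_rev s, e]; rfl),
    fun i j hij => (mul_comm _ _).trans (h.up _ _ (Fin.rev_le_rev.2 hij))⟩

end U

end CL.LQ
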