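/-
Project LQ (S1769): a finite group `G` with a Sylow 2-subgroup `e.range ≅ U n F`.
-/
import Cfsg.Agent.LQ.Model2

set_option autoImplicit false
open Matrix Subgroup CL.Grp CL.Even
open scoped commutatorElement

namespace CL.LQ

universe v

variable {G : Type*} [Group G] {n : ℕ} {F : Type v} [Field F]

/-- the Sylow subgroup -/
noncomputable def S (e : U n F →* G) : Subgroup G := e.range
/-- image of `U.Q` -/
noncomputable def Q (e : U n F →* G) : Subgroup G := (U.Q n F).map e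
/-- image of `U.V` -/
noncomputable def V (e : U n F →* G) : Subgroup G := (U.V n F).map e
/-- image of `U.W` -/
noncomputable def W (e : U n F →* G) : Subgroup G := (U.W n F).map e
/-- image of `U.Z` -/
noncomputable def Z (e : U n F →* G) : Subgroup G := (U.Z n F).map e
/-- image of `U.Vk` -/
noncomputable def Vk (e : U n F →* G) (k : ℕ) : Subgroup G := (U.Vk n F k).map e
/-- image of `U.Wk` -/
noncomputable def Wk (e : U n F →* G) (k : ℕ) : Subgroup G := (U.Wk n F k).map e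
/-- image of `U.Ak` -/
noncomputable def Ak (e : U n F →* G) (k : ℕ) : Subgroup G := (U.Ak n F k).map e
/-- image of `U.Pt` -/
noncomputable def Pt (e : U n F →* G) (a b : Fin n → F) : Subgroup G := (U.Pt a b).map e
/-- image of `U.XX` -/
noncomputable def XX (e : U n F →* G) (s φ : Fin n → F) : Subgroup G := (U.XX s φ).map e

/-- the standing hypothesis -/
structure St (e : U n F →* G) : Prop where
  inj : Function.Injective e
  syl : IsSylowIn 2 (S e) ⊤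
  four : 4 ≤ Nat.card F

/-- the embedding twisted by the graph automorphism -/
noncomputable def sy (e : U n F →* G) : U n F →* G := e.comp (U.tau n F).toMonoidHom

section Sym

variable (e : U n F →* G)

theorem map_sy {H K : Subgroup (U n F)} (h : ∀ x ∈ H, U.sg x ∈ K) (h' : ∀ x ∈ K, U.sg x ∈ H) :
    H.map (sy e) = K.map e := by rw [sy, ← Subgroup.map_map, U.map_tau h h']

@[simp] theorem S_sy : S (sy e) = S e := by
  simp only [S, MonoidHom.range_eq_map]; exact map_sy e (fun _ _ => trivial) fun _ _ => trivial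
@[simp] theorem Q_sy : Q (sy e) = Q e := map_sy e (fun _ => U.sg_g) fun _ => U.sg_g
@[simp] theorem V_sy : V (sy e) = W e := map_sy e (fun _ => U.sg_V) fun _ => U.sg_W
@[simp] theorem W_sy : W (sy e) = V e := map_sy e (fun _ => U.sg_W) fun _ => U.sg_V
@[simp] theorem Z_sy : Z (sy e) = Z e := map_sy e (fun _ => U.sg_Z) fun _ => U.sg_Z
theorem Vk_sy {k k' : ℕ} (h : k + k' = n) : Vk (sy e) k = Wk e k' :=
  map_sy e (fun _ => U.sg_Vk h) fun _ => U.sg_Wk (by omega)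
theorem Wk_sy {k k' : ℕ} (h : k + k' = n) : Wk (sy e) k = Vk e k' :=
  map_sy e (fun _ => U.sg_Wk h) fun _ => U.sg_Vk (by omega)
theorem Ak_sy {k k' : ℕ} (h : k + k' = n) : Ak (sy e) k = Ak e k' :=
  map_sy e (fun _ => U.sg_Ak h) fun _ => U.sg_Ak (by omega)
theorem Pt_sy (a b : Fin n → F) : Pt (sy e) a b = Pt e (b ∘ Fin.rev) (a ∘ Fin.rev) :=
  map_sy e (fun _ => U.sg_Pt) fun _ h => by simpa only [U.rev_rev] using U.sg_Pt h
theorem XX_sy (s φ : Fin n → F) : XX (sy e) s φ = XX e (φ ∘ Fin.rev) (s ∘ Fin.rev) :=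
  map_sy e (fun _ => U.sg_XX) fun _ h => by simpa only [U.rev_rev] using U.sg_XX h

theorem mem_S {x : G} : x ∈ S e ↔ ∃ s, e s = x := Iff.rfl
theorem apply_mem_S (s : U n F) : e s ∈ S e := ⟨s, rfl⟩
theorem map_le_S (H : Subgroup (U n F)) : H.map e ≤ S e := map_le_range e H
theorem S_le_norm (H : Subgroup (U n F)) [hH : H.Normal] : S e ≤ 𝒩(H.map e) :=
  le_norm_of_cj_le fun _ ⟨s, hs⟩ _ ⟨_, ⟨x, hx, e1⟩, e2⟩ =>
    ⟨s * x * s⁻¹, hH.conj_mem x hx s, by rw [← e2, ← e1, ← hs]; simp⟩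

theorem Q_le_S : Q e ≤ S e := map_le_S e _
theorem V_le_Q : V e ≤ Q e := map_mono fun _ h => h.1
theorem W_le_Q : W e ≤ Q e := map_mono fun _ h => h.1
theorem Z_le_V : Z e ≤ V e := map_mono fun _ h => ⟨h.1, h.2.2⟩
theorem Z_le_W : Z e ≤ W e := map_mono fun _ h => ⟨h.1, h.2.1⟩
theorem V_le_S : V e ≤ S e := map_le_S e _
theorem W_le_S : W e ≤ S e := map_le_S e _
theorem Z_le_S : Z e ≤ S e := map_le_S e _
theorem Vk_le_V (k : ℕ) : Vk e k ≤ V e := map_mono fun _ h => ⟨h.1, h.2.1⟩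
theorem Wk_le_W (k : ℕ) : Wk e k ≤ W e := map_mono fun _ h => ⟨h.1, h.2.1⟩
theorem Z_le_Vk (k : ℕ) : Z e ≤ Vk e k := map_mono fun _ h => ⟨h.1, h.2.2, fun i _ => congrFun h.2.1 i⟩
theorem Z_le_Wk (k : ℕ) : Z e ≤ Wk e k := map_mono fun _ h => ⟨h.1, h.2.1, fun i _ => congrFun h.2.2 i⟩
theorem S_le_NQ : S e ≤ 𝒩(Q e) := S_le_norm e _
theorem S_le_NV : S e ≤ 𝒩(V e) := S_le_norm e _
theorem S_le_NW : S e ≤ 𝒩(W e) := S_le_norm e _
theorem S_le_NVk (k : ℕ) : S e ≤ 𝒩(Vk e k) := S_le_norm e _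
theorem S_le_NWk (k : ℕ) : S e ≤ 𝒩(Wk e k) := S_le_norm e _
theorem S_le_NAk (k : ℕ) : S e ≤ 𝒩(Ak e k) := S_le_norm e _
theorem S_le_CZ : S e ≤ 𝒞(Z e) := fun _ ⟨s, hs⟩ => mem_centralizer_iff.2 fun _ ⟨z, hz, e1⟩ => by
  rw [← hs, ← e1, ← map_mul, ← map_mul, U.z_comm hz]

variable {e}

theorem mem_Q {x : G} : x ∈ Q e ↔ ∃ u w c, e (U.q u w c) = x :=
  ⟨fun ⟨s, hs, h⟩ => ⟨_, _, _, U.eq_q hs ▸ h⟩, fun ⟨_, _, _, h⟩ => ⟨_, rfl, h⟩⟩
theorem mem_V {x : G} : x ∈ V e ↔ ∃ u c, e (U.q u 0 c) = x :=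
  ⟨fun ⟨s, hs, h⟩ => ⟨s.u, s.c, by rw [← hs.2, ← U.eq_q hs.1, h]⟩, fun ⟨_, _, h⟩ => ⟨_, ⟨rfl, rfl⟩, h⟩⟩
theorem mem_W {x : G} : x ∈ W e ↔ ∃ w c, e (U.q 0 w c) = x :=
  ⟨fun ⟨s, hs, h⟩ => ⟨s.w, s.c, by rw [← hs.2, ← U.eq_q hs.1, h]⟩, fun ⟨_, _, h⟩ => ⟨_, ⟨rfl, rfl⟩, h⟩⟩
theorem mem_Z {x : G} : x ∈ Z e ↔ ∃ c, e (U.q 0 0 c) = x :=
  ⟨fun ⟨s, hs, h⟩ => ⟨s.c, by rw [← h]; congr 1; exact U.ext hs.2.1.symm hs.1.symm hs.2.2.symm rfl⟩,
    fun ⟨_, h⟩ => ⟨_, ⟨rfl, rfl, rfl⟩, h⟩⟩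

theorem exists_VW {x : G} (h : x ∈ Q e) : ∃ v ∈ V e, ∃ w ∈ W e, v * w = x := by
  obtain ⟨s, hs, rfl⟩ := h
  obtain ⟨v, hv, w, hw, rfl⟩ := U.exists_VW hs
  exact ⟨_, mem_map_of_mem e hv, _, mem_map_of_mem e hw, (map_mul e v w).symm⟩
theorem V_sup_W : V e ⊔ W e = Q e := le_antisymm (sup_le (V_le_Q e) (W_le_Q e)) fun _ h => by
  obtain ⟨v, hv, w, hw, rfl⟩ := exists_VW h
  exact mul_mem_sup hv hw
theorem V_comm {x y : G} (hx : x ∈ V e) (hy : y ∈ V e) : x * y = y * x := by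
  obtain ⟨s, hs, rfl⟩ := hx
  obtain ⟨t, ht, rfl⟩ := hy
  rw [← map_mul, ← map_mul, U.V_comm hs ht]
theorem W_comm {x y : G} (hx : x ∈ W e) (hy : y ∈ W e) : x * y = y * x := by
  obtain ⟨s, hs, rfl⟩ := hx
  obtain ⟨t, ht, rfl⟩ := hy
  rw [← map_mul, ← map_mul, U.W_comm hs ht]
theorem Z_comm {z x : G} (hz : z ∈ Z e) (hx : x ∈ S e) : z * x = x * z := comm_of_mem (S_le_CZ e hx) hz
theorem V_sq [CharP F 2] {x : G} (hx : x ∈ V e) : x * x = 1 := by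
  obtain ⟨s, hs, rfl⟩ := hx
  rw [← map_mul, U.V_sq hs, map_one]
theorem W_sq [CharP F 2] {x : G} (hx : x ∈ W e) : x * x = 1 := by
  obtain ⟨s, hs, rfl⟩ := hx
  rw [← map_mul, U.W_sq hs, map_one]
theorem Q_sq [CharP F 2] {x : G} (hx : x ∈ Q e) : x * x ∈ Z e := by
  obtain ⟨s, hs, rfl⟩ := hx
  exact ⟨_, U.Q_sq hs, map_mul e s s⟩
theorem comm_Q {x y : G} (hx : x ∈ Q e) (hy : y ∈ Q e) : ⁅x, y⁆ ∈ Z e := by
  obtain ⟨s, hs, rfl⟩ := hx
  obtain ⟨t, ht, rfl⟩ := hy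
  exact ⟨_, U.comm_Q hs ht, map_commutatorElement e s t⟩

/-- restriction of the target to a subgroup containing `S` -/
noncomputable def rs (e : U n F →* G) (H : Subgroup G) (h : S e ≤ H) : U n F →* H := e.codRestrict H fun s => h ⟨s, rfl⟩

theorem map_rs {H : Subgroup G} (h : S e ≤ H) (X : Subgroup (U n F)) : X.map (rs e H h) = (X.map e).subgroupOf H :=
  Subgroup.ext fun _ => ⟨fun ⟨s, hs, e1⟩ => ⟨s, hs, congrArg Subtype.val e1⟩, fun ⟨s, hs, e1⟩ => ⟨s, hs, Subtype.ext e1⟩⟩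
theorem S_rs {H : Subgroup G} (h : S e ≤ H) : S (rs e H h) = (S e).subgroupOf H := by
  simp only [S, MonoidHom.range_eq_map]; exact map_rs h ⊤
theorem Q_rs {H : Subgroup G} (h : S e ≤ H) : Q (rs e H h) = (Q e).subgroupOf H := map_rs h _
theorem V_rs {H : Subgroup G} (h : S e ≤ H) : V (rs e H h) = (V e).subgroupOf H := map_rs h _
theorem W_rs {H : Subgroup G} (h : S e ≤ H) : W (rs e H h) = (W e).subgroupOf H := map_rs h _
theorem Z_rs {H : Subgroup G} (h : S e ≤ H) : Z (rs e H h) = (Z e).subgroupOf H := map_rs h _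

end Sym

namespace St

variable {e : U n F →* G} (h : St e)
include h

theorem symm : St (sy e) := ⟨h.inj.comp (U.tau n F).injective, (S_sy e).symm ▸ h.syl, h.four⟩

theorem res {H : Subgroup G} (hH : S e ≤ H) : St (rs e H hH) := by
  refine ⟨fun a b hab => h.inj (congrArg Subtype.val hab), ?_, h.four⟩
  rw [S_rs]
  have := h.syl.of_le hH le_top
  exact ⟨le_top, this.isPGroup.comap_subtype, by rw [relIndex_top_right]; exact this.2.2⟩

theorem isP : IsPGroup 2 (S e) := h.syl.isPGroup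
theorem mem_map {X : Subgroup (U n F)} {x : U n F} : e x ∈ X.map e ↔ x ∈ X := mem_map_iff_mem h.inj
theorem eq_one {x : U n F} : e x = 1 ↔ x = 1 := map_eq_one_iff e h.inj
theorem card_map (X : Subgroup (U n F)) : Nat.card (X.map e) = Nat.card X := card_map_of_injective h.inj
theorem V_inf_W : V e ⊓ W e = Z e := by rw [V, W, ← map_inf _ _ _ h.inj, U.V_inf_W, Z]
theorem mem_Z_of {x : G} (h1 : x ∈ V e) (h2 : x ∈ W e) : x ∈ Z e := h.V_inf_W.le ⟨h1, h2⟩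

theorem mem_Q_of_V {x : G} (hx : x ∈ S e) (k : ∀ v ∈ V e, ⁅x, v⁆ ∈ Z e) : x ∈ Q e := by
  obtain ⟨s, rfl⟩ := hx
  exact mem_map_of_mem e (U.mem_Q_of_V fun v hv =>
    h.mem_map.1 (map_commutatorElement e s v ▸ k _ (mem_map_of_mem e hv)))
theorem mem_Q_of_W {x : G} (hx : x ∈ S e) (k : ∀ w ∈ W e, ⁅x, w⁆ ∈ Z e) : x ∈ Q e := by
  obtain ⟨s, rfl⟩ := hx
  exact mem_map_of_mem e (U.mem_Q_of_W fun v hv =>
    h.mem_map.1 (map_commutatorElement e s v ▸ k _ (mem_map_of_mem e hv)))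
theorem mem_V_of_cent {x : G} (hx : x ∈ S e) (k : x ∈ 𝒞(V e)) : x ∈ V e := by
  obtain ⟨s, rfl⟩ := hx
  exact mem_map_of_mem e (U.mem_V_of_comm fun v hv => h.eq_one.1 (by
    rw [map_commutatorElement, commutatorElement_eq_one_iff_mul_comm, comm_of_mem k (mem_map_of_mem e hv)]))
theorem mem_W_of_cent {x : G} (hx : x ∈ S e) (k : x ∈ 𝒞(W e)) : x ∈ W e := by
  obtain ⟨s, rfl⟩ := hx
  exact mem_map_of_mem e (U.mem_W_of_comm fun v hv => h.eq_one.1 (by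
    rw [map_commutatorElement, commutatorElement_eq_one_iff_mul_comm, comm_of_mem k (mem_map_of_mem e hv)]))
theorem mem_Z_of_cent {x : G} (hx : x ∈ S e) (k : x ∈ 𝒞(Q e)) : x ∈ Z e :=
  h.mem_Z_of (h.mem_V_of_cent hx (cent_mono (V_le_Q e) k)) (h.mem_W_of_cent hx (cent_mono (W_le_Q e) k))

theorem card_Z : Nat.card (Z e) = Nat.card F := (h.card_map _).trans (Nat.card_congr
  ⟨fun x => x.1.c, fun c => ⟨U.q 0 0 c, rfl, rfl, rfl⟩,
    fun x => Subtype.ext (U.ext x.2.2.1.symm x.2.1.symm x.2.2.2.symm rfl), fun _ => rfl⟩)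
theorem card_V : Nat.card (V e) = Nat.card F ^ (n + 1) := by
  rw [V, h.card_map, Nat.card_congr (show U.V n F ≃ (Fin n → F) × F from
    ⟨fun x => (x.1.u, x.1.c), fun c => ⟨U.q c.1 0 c.2, rfl, rfl⟩,
      fun x => Subtype.ext (U.ext rfl x.2.1.symm x.2.2.symm rfl), fun _ => rfl⟩)]
  simp [Nat.card_prod, Nat.card_fun, pow_succ]
theorem card_W : Nat.card (W e) = Nat.card F ^ (n + 1) := by
  simpa using h.symm.card_V

/-- there is a scalar different from `0` and `1` -/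
theorem exists_ne [Finite F] : ∃ t : F, t ≠ 0 ∧ t ≠ 1 := by
  by_contra hn
  push Not at hn
  have : (Set.univ : Set F) ⊆ {0, 1} := fun t _ => or_iff_not_imp_left.2 (hn t)
  have h1 := Set.ncard_le_ncard this
  have h2 := Set.ncard_pair (zero_ne_one' F)
  have := h.four
  rw [Set.ncard_univ] at h1
  omega

end St

end CL.LQ
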