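/-
Project LQ (S1769): the steps of the proof as propositions.
-/
import Cfsg.Agent.LQ.Api
import Cfsg.Agent.Timm.W2
import Cfsg.Agent.Grp.CoresPi

set_option autoImplicit false
open Cfsg Matrix Subgroup CL.Grp CL.Even CL.Loc
open scoped commutatorElement

namespace CL.LQ

universe u v

section Pure

variable {G : Type*} [Group G]

/-- a candidate `E` for an essential subgroup; `K` is the part of `N(E)` already under control -/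
structure Loc (S E K : Subgroup G) : Prop where
  isP : IsPGroup 2 S
  lt : E < S
  syl : IsSylowIn 2 (S ⊓ 𝒩(E)) 𝒩(E)
  le : K ≤ 𝒩(E)
  ne : ¬ 𝒩(E) ≤ K
  cent : 𝒞(E) ≤ K
  ext : ∀ T, E < T → T ≤ S → ∀ g ∈ 𝒩(E), cj g T ≤ S → g ∈ K

/-- `x ∈ N_S(E) \ E` with `x ^ 2 ∈ E` -/
structure Out (S E : Subgroup G) (x : G) : Prop where
  mS : x ∈ S
  mN : x ∈ 𝒩(E)
  nE : x ∉ E
  sq : x * x ∈ E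

/-- the consequences of strong embedding -/
structure Loc' (S E K : Subgroup G) : Prop extends Loc S E K where
  P_le : S ⊓ 𝒩(E) ≤ K
  centric : S ⊓ 𝒞(E) ≤ E
  se1 : ∀ x ∈ S, x ∈ 𝒩(E) → x ∉ E → ∀ g ∈ 𝒩(E), g * x * g⁻¹ ∈ K → g ∈ K
  se2 : ∀ x x', Out S E x → Out S E x' → ∀ g ∈ 𝒩(E), g ∉ K →
    ∃ h ∈ zpowers (x * (g * x' * g⁻¹)), ∃ r ∈ E ⊔ 𝒞(E), g * x' * g⁻¹ = h * x * h⁻¹ * r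
  se3 : ∀ v, Out S E v → v * v = 1 → ∀ H : Subgroup G, v ∈ H → ∀ g ∈ 𝒩(E), g ∈ H → g ∉ K →
    ∃ y ∈ 𝒩(E), y ∈ H ∧ y ∉ K ∧ Odd (orderOf y) ∧ v * y * v⁻¹ = y⁻¹
  opp : ∀ x x', Out S E x → Out S E x' → ∀ g ∈ 𝒩(E), g ∉ K → ∀ m ∈ E ⊓ 𝒞(E), m * m = 1 →
    Commute (g * x' * g⁻¹) m → Commute (g * x' * g⁻¹) ⁅x, m⁆ → ⁅x, m⁆ = 1

/-- an involution `v` acting almost quadratically on `E` and inverting `y` -/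
structure BLh (E I Z0 : Subgroup G) (v y : G) : Prop where
  isP : IsPGroup 2 E
  le : I ≤ E
  nI : E ≤ 𝒩(I)
  vN : v ∈ 𝒩(E)
  yN : y ∈ 𝒩(E)
  vv : v * v = 1
  odd : Odd (orderOf y)
  inv : v * y * v⁻¹ = y⁻¹
  Ev : ∀ x ∈ E, ⁅x, v⁆ ∈ I
  Z0le : Z0 ≤ I ⊓ centralizer {y}
  Iv : ∀ i ∈ I, ⁅i, v⁆ ∈ Z0
  II : ∀ i ∈ I, ∀ i' ∈ I, ⁅i, i'⁆ ∈ Z0

/-- conclusions, with `J = cj y I` and `D = I ⊓ J` -/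
structure BLc (E I Z0 : Subgroup G) (v y : G) : Prop where
  cent : I ⊓ cj y I = I ⊓ centralizer {y}
  cIJ : (I ⊔ cj y I) ⊓ centralizer {y} ≤ I
  inj : ∀ j ∈ cj y I, ⁅j, v⁆ ∈ cj y I → j ∈ I
  inj' : ∀ i ∈ I, ⁅i, y * v * y⁻¹⁆ ∈ I → i ∈ cj y I
  surj : ∀ i ∈ I, ∃ j ∈ cj y I, ∃ d ∈ I ⊓ cj y I, i = ⁅j, v⁆ * d
  gen : ∀ x : G, (∀ a ∈ E, ⁅a, x⁆ ∈ I) → (∀ i ∈ I, ⁅i, x⁆ ∈ Z0) → (∀ j ∈ cj y I, ⁅j, x⁆ ∈ cj y I → j ∈ I) →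
    ∀ i ∈ I, ∃ j ∈ cj y I, ∃ d ∈ I ⊓ cj y I, i = ⁅j, x⁆ * d
  norm : y ∈ 𝒩(I ⊔ cj y I)
  prod : ∀ x ∈ E, ∃ c ∈ E ⊓ centralizer {y}, ∃ i ∈ I, ∃ j ∈ cj y I, x = c * i * j
  cv : ∀ c ∈ E ⊓ centralizer {y}, ⁅c, v⁆ ∈ I ⊓ cj y I

end Pure

def SE : Prop := ∀ {G : Type u} [Group G] [Finite G] {S E K : Subgroup G}, Loc S E K → Loc' S E K

def BL : Prop := ∀ {G : Type u} [Group G] [Finite G] {E I Z0 : Subgroup G} {v y : G}, BLh E I Z0 v y → BLc E I Z0 v y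

def STAR : Prop := ∀ {G : Type u} [Group G] [Finite G] {S E K I Z0 : Subgroup G} {v y : G}, Loc' S E K →
  BLh E I Z0 v y → Out S E v → y ∉ K → ∀ x, Out S E x → (∀ a ∈ E, ⁅a, x⁆ ∈ I) → (∀ i ∈ I, ⁅i, x⁆ ∈ Z0) →
    ∀ j ∈ cj y I, ⁅j, x⁆ ∈ cj y I → j ∈ I

def H1 : Prop := ∀ {F : Type v} [Field F] [CharP F 2] {n : ℕ} (C : Subgroup (U (n + 2) F)), (∃ t : F, t ≠ 0 ∧ t ≠ 1) →
  (∀ c ∈ C, c.u 0 = 0) → (∀ x : U (n + 2) F, Pi.single 0 1 ᵥ* x.g = Pi.single 0 1 → x.w 0 = 0 →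
    ∃ c ∈ C, c.g = x.g ∧ c.w = x.w) → (∀ c ∈ C, c.g = 1 → c.w = 0 → c = 1) → ∀ c ∈ C, c.g = 1 → c.u = 0

def ND3 : Prop := ∀ {F : Type v} [Field F] [CharP F 2] {n : ℕ} (j m : U n F), j * j = 1 →
  (∀ v ∈ U.V n F, ⁅j, v⁆ ∈ U.Z n F → ⁅j, v⁆ = 1) → (∀ w ∈ U.W n F, ⁅j, w⁆ ∈ U.Z n F → ⁅j, w⁆ = 1) →
  m ∈ centralizer {j} ⊓ 𝒞(centralizer ({j} : Set (U n F))) →
  ∀ x ∈ ⁅centralizer {j}, U.V n F⁆ ⊔ (U.V n F ⊓ centralizer {j}), ⁅m, x⁆ ∈ U.Z n F → ⁅m, x⁆ = 1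

def CARD : Prop := ∀ {F : Type v} [Field F] [Finite F] (n : ℕ), Nat.card (U n F) = Nat.card F ^ ((n + 2) * (n + 1) / 2)

def SYL : Prop := ∀ {F : Type v} [Field F] [Finite F] [CharP F 2] (n : ℕ),
  ∃ e : U n F →* ProjectiveSpecialLinearGroup (Fin (n + 2)) F, Function.Injective e ∧ IsSylowIn 2 (S e) ⊤

def M3 : Prop := ∀ {G : Type u} [Group G] [Finite G] [IsSimpleGroup G] {F : Type v} [Field F] [Finite F] [CharP F 2]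
  (e : U 1 F →* G), St e → Nonempty (G ≃* ProjectiveSpecialLinearGroup (Fin 3) F)

def FIN2 : Prop := ∀ {G : Type u} [Group G] [Finite G] {F : Type v} [Field F] [Finite F] [CharP F 2] {n : ℕ}
  (e : U n F →* G), St e → CL.WTI.L2c G → Nonempty (G ≃* ProjectiveSpecialLinearGroup (Fin (n + 2)) F)

/-- `P` holds in every configuration -/
def All (P : ∀ {G : Type u} [Group G] {n : ℕ} {F : Type v} [Field F], (U (n + 2) F →* G) → Prop) : Prop :=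
  ∀ {G : Type u} [Group G] [Finite G] {n : ℕ} {F : Type v} [Field F] [Finite F] [CharP F 2]
    (e : U (n + 2) F →* G), St e → P e

section Conf

variable {G : Type u} [Group G] {n : ℕ} {F : Type v} [Field F] (e : U (n + 2) F →* G)

/-- duality -/
structure DU : Prop where
  du1 : ∀ s ∈ S e, ∀ p ∈ V e, (∀ w ∈ W e, ⁅s, w⁆ ∈ Z e → Commute p w) → ∃ u ∈ V e, ∃ z ∈ Z e, p = ⁅s, u⁆ * z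
  du2 : ∀ X ≤ S e, ∀ p ∈ V e, (∀ w ∈ W e, (∀ x ∈ X, ⁅x, w⁆ ∈ Z e) → Commute p w) → p ∈ ⁅X, V e⁆ ⊔ Z e
  du3 : ∀ X ≤ S e, ∀ j ∈ S e, ∀ p ∈ V e, (∀ w ∈ W e, (∀ v ∈ V e, ⁅j, v⁆ ∈ Z e → Commute v w) →
    (∀ x ∈ X, ⁅x, w⁆ ∈ Z e) → Commute p w) → ∃ a ∈ ⁅X, V e⁆, ∃ k ∈ V e, ⁅j, k⁆ ∈ Z e ∧ p = a * k

/-- points and invariant subspaces -/
structure PT : Prop where
  nz : 𝒩(Q e) ≤ 𝒩(Z e)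
  pt : ∀ a b c, a ≠ 0 ∨ b ≠ 0 → Q e ⊓ 𝒞(Q e ⊓ centralizer {e (U.q a b c)}) = Pt e a b
  pt2 : ∀ g ∈ 𝒩(Q e), ∀ a b c a' b' c', a ≠ 0 ∨ b ≠ 0 → g * e (U.q a b c) * g⁻¹ = e (U.q a' b' c') →
    (a' ≠ 0 ∨ b' ≠ 0) ∧ cj g (Pt e a b) = Pt e a' b'
  rV : Vk e (n + 1) = Pt e (Pi.single (Fin.last (n + 1)) 1) 0
  rW : Wk e 1 = Pt e 0 (Pi.single 0 1)
  cVk : ∀ k, W e ⊓ 𝒞(Vk e k) = Wk e k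
  uni : ∀ Y : Subgroup G, Z e ≤ Y → Y ≤ W e → S e ≤ 𝒩(Y) → (∀ b c, e (U.q 0 b c) ∈ Y → Pt e 0 b ≤ Y) →
    ∃ k ≤ n + 2, Y = Wk e k
  cen : ∀ x ∈ S e, x ∈ XX e (Pi.single 0 1) (Pi.single (Fin.last (n + 1)) 1) ↔ ∀ s ∈ S e, ⁅x, s⁆ ∈ Q e

/-- case (I): `D` is maximal in `Z` subject to `C_{N(E)}(D) ≰ K`, and `D ≠ Z` -/
structure Loc0 (E K D : Subgroup G) : Prop extends Loc' (S e) E K where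
  leZ : D ≤ Z e
  neZ : ∃ z ∈ Z e, z ∉ D
  ex : ∃ g ∈ 𝒩(E), g ∈ 𝒞(D) ∧ g ∉ K
  cz : ∀ g ∈ 𝒩(E), g ∈ 𝒞(D) → g ∉ K → ∀ z ∈ Z e, z ∉ D → S e ⊓ centralizer {g * z * g⁻¹} = E

/-- a diagonal element -/
structure Diag (E : Subgroup G) (u w : G) : Prop where
  uV : u ∈ V e
  wW : w ∈ W e
  uN : u ∈ 𝒩(E)
  uE : u ∉ E
  uw : u * w ∈ E

def II : Prop := ∀ E K : Subgroup G, Loc' (S e) E K → ¬ V e ≤ E → ∀ g ∈ 𝒩(E), g ∈ 𝒞(Z e) → g ∈ K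

def BA : Prop := ∀ E K : Subgroup G, Loc0 e E K ⊥ → V e ⊓ E ⊓ 𝒞(E) ≤ Z e → ∀ v ∈ V e, v ∈ 𝒩(E) → v ∉ E →
  V e ⊓ E ≤ Vk e 1 ∧ (V e ⊓ E = Vk e 1 → Ak e 1 ≤ E → ∃ y ∈ 𝒩(E), y ∉ K ∧ y ∈ 𝒩(Ak e 1) ∧
    (∀ x ∈ E, ∃ c ∈ E ⊓ centralizer {y}, ∃ a ∈ Ak e 1, c * a = x) ∧ E ⊓ centralizer {y} ⊓ Ak e 1 = ⊥ ∧
    E ⊓ centralizer {y} ≤ centralizer {v})

def IB : Prop := ∀ E K D : Subgroup G, Loc0 e E K D → W e ≤ E → ¬ V e ≤ E → ¬ 𝒩(E) ⊓ 𝒩(W e) ≤ K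

def DG1 : Prop := ∀ E K D : Subgroup G, Loc0 e E K D → (∃ v ∈ V e, ∃ w ∈ W e, v * w ∈ E ∧ v ∉ E) →
  Loc0 e E K ⊥ ∧ (∃ u w, Diag e E u w) ∧ ∃ x ∈ E, ∃ x' ∈ E, ⁅x, x'⁆ ∈ Z e ∧ ⁅x, x'⁆ ≠ 1

def DG2 : Prop := ∀ (E K : Subgroup G) (u w : G), Loc0 e E K ⊥ → Diag e E u w →
  (∃ x ∈ E, ∃ x' ∈ E, ⁅x, x'⁆ ∈ Z e ∧ ⁅x, x'⁆ ≠ 1) → ∃ j ∈ Q e, S e ⊓ centralizer {j} = E

def DG3 : Prop := ∀ (y : G) (κ : F), κ ≠ 0 → y ∈ 𝒩(Ak e 1) →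
  (∀ t : F, ∃ a ∈ Ak e 1, Commute y (e (U.q (Pi.single 0 t) (Pi.single (Fin.last (n + 1)) (κ * t)) 0) * a)) →
    y ∈ 𝒩(Z e)

def DG4 : Prop := ∀ (E K : Subgroup G) (u w : G), Loc0 e E K ⊥ → Diag e E u w →
  ∀ j ∈ Q e, S e ⊓ centralizer {j} ≠ E

def ND : Prop := ∀ E K D : Subgroup G, Loc0 e E K D → ¬ W e ≤ E → (∀ v ∈ V e, ∀ w ∈ W e, v * w ∈ E → v ∈ E) →
  V e ≤ 𝒩(E)

def NARG : Prop := ∀ E K : Subgroup G, Loc' (S e) E K → Q e ≤ 𝒩(E) → ¬ V e ≤ E → ¬ W e ≤ E →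
  ∃ v ∈ V e, ∃ w ∈ W e, v * w ∈ E ∧ v ∉ E

def C1 : Prop := ∀ E : Subgroup G, Q e ≤ E → E ≤ S e → 𝒩(E) ≤ 𝒩(Q e)

def F3a : Prop := ∀ s φ, U.Adm s φ → ∀ g ∈ 𝒩(Q e), cj g (XX e s φ) ≤ S e →
  ∃ s' φ', U.Adm s' φ' ∧ cj g (XX e s φ) = XX e s' φ'

def F3b : Prop := ∀ s φ s' φ', U.Adm s φ → U.Adm s' φ' → ∀ g ∈ 𝒩(Q e), cj g (XX e s φ) = XX e s' φ' →
  (cj g (Pt e φ 0) ≤ V e ∧ cj g (Pt e 0 s) ≤ W e) ∨ (cj g (Pt e φ 0) ≤ W e ∧ cj g (Pt e 0 s) ≤ V e)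

def F3 : Prop := ∀ s φ, U.Adm s φ → ∀ g ∈ 𝒩(Q e), cj g (XX e s φ) ≤ S e →
  (cj g (Pt e φ 0) ≤ V e ∧ cj g (Pt e 0 s) ≤ W e) ∨ (cj g (Pt e φ 0) ≤ W e ∧ cj g (Pt e 0 s) ≤ V e)

def F1 : Prop := 𝒩(Q e) ⊓ 𝒩(Vk e (n + 1)) ≤ 𝒩(W e)

def NS : Prop := 𝒩(S e) ≤ 𝒩(V e) ⊓ 𝒩(W e)

def C4W : Prop := (∀ g, g ∈ 𝒩(W e)) → (∀ g, g ∈ 𝒩(Q e)) → ∀ E : Subgroup G, Q e ≤ E →
  ¬ Loc' (S e) E (𝒩(E) ⊓ 𝒩(V e))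

def F2 : Prop := 𝒩(Q e) ⊓ 𝒩(W e) ≤ 𝒩(V e)

def C4 : Prop := ∀ E : Subgroup G, Q e ≤ E → ¬ Loc' (S e) E (𝒩(E) ⊓ 𝒩(V e))

def NQ : Prop := ∀ g : G, cj g (Q e) ≤ S e → g ∈ 𝒩(V e) ⊓ 𝒩(W e)

/-- fusion in `S` is controlled by `N(V)`, `N(W)` and centralisers -/
def ML : Prop := ∀ R : Subgroup G → G → Prop, FusRel R → (∀ T, R T 1) →
  (∀ T ≤ S e, ∀ g ∈ 𝒩(T), g ∈ 𝒩(V e) ∨ g ∈ 𝒩(W e) ∨ g ∈ 𝒞(T) → R T g) →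
  ∀ T ≤ S e, ∀ g : G, cj g T ≤ S e → R T g

/-- a Frattini argument modulo `O(C(V))` -/
def FR : Prop := ∀ V0 T : Subgroup G, V0 ≤ V e → S e ≤ 𝒩(V0) →
  (∀ x, x ∈ T ↔ x ∈ S e ∧ (∀ v ∈ V e, ⁅x, v⁆ ∈ V0) ∧ ∀ v ∈ V0, ⁅x, v⁆ = 1) →
  ∀ g ∈ 𝒩(V e) ⊓ 𝒩(V0), ∃ m ∈ 𝒩(V e) ⊓ 𝒩(V0) ⊓ 𝒩(T), (∀ v ∈ V e, g * v * g⁻¹ = m * v * m⁻¹) ∧
    ∀ t ∈ T, g * t * g⁻¹ ∈ S e → g * t * g⁻¹ = m * t * m⁻¹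

/-- the conjugates of `Z` under `N(W)` -/
structure PTS : Prop where
  ti : ∀ g ∈ 𝒩(W e), cj g (Z e) = Z e ∨ cj g (Z e) ⊓ Z e = ⊥
  line : ∀ g ∈ 𝒩(W e), ∀ b c, b ≠ 0 → e (U.q 0 b c) ∈ cj g (Z e) → Z e ⊔ cj g (Z e) = Pt e 0 b
  ex : ∃ k ≤ n + 2, ∀ x, x ∈ Wk e k ↔ ∃ g ∈ 𝒩(W e), x ∈ cj g (Z e)

def PTS2 : Prop := ∀ k, 1 ≤ k → 𝒩(V e) ≤ 𝒩(Vk e k) → 𝒩(W e) ≤ 𝒩(Wk e k)

def BLK : Prop := ∀ k ≤ n + 2, 𝒩(V e) ≤ 𝒩(Vk e k) → ∀ g ∈ 𝒩(V e), ∀ t ∈ Ak e k, g * t * g⁻¹ ∈ S e →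
  g * t * g⁻¹ ∈ Ak e k

def PV : Prop := IsSimpleGroup G → ∀ x ∈ V e, ∃ g ∈ 𝒩(V e), x ∈ cj g (Z e)

def STA1 : Prop := ∀ z ∈ Z e, z ≠ 1 → ∀ g ∈ centralizer {z}, ∀ v ∈ V e, g * v * g⁻¹ ∈ S e → g * v * g⁻¹ ∈ V e

def STA : Prop := ∀ z ∈ Z e, z ≠ 1 → IsPConstrained 2 (centralizer {z} : Subgroup G) ∧
  centralizer {z} ≤ pPrimeCoreOf 2 (centralizer {z}) ⊔ (centralizer {z} ⊓ 𝒩(V e))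

def STB : Prop := IsSimpleGroup G → ∀ z ∈ Z e, z ≠ 1 → centralizer {z} ≤ 𝒩(V e)

def FIN1 : Prop := IsSimpleGroup G → CL.WTI.L2c G

end Conf

theorem f3 (h1 : All.{u, v} @F3a) (h2 : All.{u, v} @F3b) : All.{u, v} @F3 := fun e he s φ h g hg hS =>
  let ⟨s', φ', h', k⟩ := h1 e he s φ h g hg hS
  h2 e he s φ s' φ' h h' g hg k

theorem Loc0.symm {G : Type u} [Group G] {n : ℕ} {F : Type v} [Field F] {e : U (n + 2) F →* G} {E K D : Subgroup G}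
    (h : Loc0 e E K D) : Loc0 (sy e) E K D :=
  ⟨(S_sy e).symm ▸ h.toLoc', (Z_sy e).symm ▸ h.leZ, (Z_sy e).symm ▸ h.neZ, h.ex, by
    rw [S_sy, Z_sy]; exact h.cz⟩

/-- the symmetric form of `F1` -/
theorem F1.sym (h : All.{u, v} @F1) {G : Type u} [Group G] [Finite G] {n : ℕ} {F : Type v} [Field F] [Finite F]
    [CharP F 2] {e : U (n + 2) F →* G} (he : St e) : 𝒩(Q e) ⊓ 𝒩(Wk e 1) ≤ 𝒩(V e) := by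
  have := h (sy e) he.symm
  rwa [F1, Q_sy, W_sy, Vk_sy e (k' := 1) rfl] at this

/-- an `E`-invariant subgroup of the 2-group `S` outside `E` has a normalising element outside `E` -/
theorem exists_norm_not_mem {G : Type*} [Group G] [Finite G] {S E Y : Subgroup G} (hS : IsPGroup 2 S) (hE : E ≤ S)
    (hY : Y ≤ S) (hn : E ≤ 𝒩(Y)) (h : ¬ Y ≤ E) : ∃ x ∈ Y, x ∈ 𝒩(E) ∧ x ∉ E := by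
  obtain ⟨x, ⟨hx, hxn⟩, hxE⟩ := SetLike.exists_of_lt (lt_inf_normalizer_of_isPGroup (D := E) (P := E ⊔ Y)
    (hS.to_le (sup_le hE hY)) (lt_of_le_of_ne le_sup_left fun e => h (e ▸ le_sup_right)))
  obtain ⟨a, ha, y, hy, rfl⟩ := (mem_sup_nr hn).1 hx
  exact ⟨y, hy, (mul_mem_cancel_left (le_normalizer ha)).1 hxn, fun k => hxE (mul_mem ha k)⟩

end CL.LQ
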