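/-
Project LQ (S1769): reduction of the statement to the model.
-/
import Cfsg.Agent.LQ.Defs

set_option autoImplicit false
open Cfsg Matrix Subgroup CL.Grp CL.Even CL.Loc

namespace CL.LQ

universe u v

theorem main_of (h0 : SYL.{v}) (h1 : M3.{u, v}) (h3 : FIN2.{u, v})
    (h2 : ∀ {G : Type u} [Group G] [Finite G] [IsSimpleGroup G] {n : ℕ} {F : Type v} [Field F] [Finite F] [CharP F 2]
      (e : U (n + 2) F →* G), St e → CL.WTI.L2c G)
    {G : Type u} [Group G] [Finite G] [IsSimpleGroup G] {F : Type v} [Field F] [Fintype F] (r : ℕ) (hr : 2 ≤ r)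
    (hF : Fintype.card F = 2 ^ r) (m : ℕ) (hm : 3 ≤ m) (T : Sylow 2 G)
    (P : Sylow 2 (ProjectiveSpecialLinearGroup (Fin m) F))
    (hS : Nonempty (↥(T : Subgroup G) ≃* ↥(P : Subgroup (ProjectiveSpecialLinearGroup (Fin m) F)))) :
    Nonempty (G ≃* ProjectiveSpecialLinearGroup (Fin m) F) := by
  obtain ⟨n, rfl⟩ : ∃ n, m = n + 1 + 2 := ⟨m - 3, by omega⟩
  haveI : CharP F 2 := by
    obtain ⟨p, hp⟩ := CharP.exists F
    obtain ⟨k, hk, e⟩ := FiniteField.card F p
    have : p ∣ 2 ^ r := hF ▸ e ▸ dvd_pow_self p k.ne_zero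
    exact (Nat.prime_dvd_prime_iff_eq hk Nat.prime_two).1 (hk.dvd_of_dvd_pow this) ▸ hp
  obtain ⟨i⟩ := hS
  obtain ⟨e0, he0, hs0⟩ := h0 (F := F) (n + 1)
  obtain ⟨g, -, hg⟩ := syl_conj hs0 (isSylowIn_top P)
  let j : U (n + 1) F ≃* (P : Subgroup (ProjectiveSpecialLinearGroup (Fin (n + 1 + 2)) F)) :=
    (MonoidHom.ofInjective he0).trans (((MulAut.conj g).subgroupMap (S e0)).trans (MulEquiv.subgroupCongr hg))
  let e : U (n + 1) F →* G := (T : Subgroup G).subtype.comp (j.trans i.symm).toMonoidHom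
  have he : St e := by
    refine ⟨Subtype.val_injective.comp (j.trans i.symm).injective, ?_, ?_⟩
    · have : S e = T := le_antisymm (fun _ ⟨s, hs⟩ => hs ▸ ((j.trans i.symm) s).2) fun x hx =>
        ⟨(j.trans i.symm).symm ⟨x, hx⟩, congrArg Subtype.val ((j.trans i.symm).apply_symm_apply ⟨x, hx⟩)⟩
      rw [this]; exact isSylowIn_top T
    · rw [Nat.card_eq_fintype_card, hF]
      exact Nat.pow_le_pow_right (n := 2) two_pos hr
  cases n with
  | zero => exact h1 e he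
  | succ n => exact h3 e he (h2 e he)

end CL.LQ
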