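/-
Project LQ (S1769): the step `BA`.
-/
import Cfsg.Agent.LQ.Defs

set_option autoImplicit false
open Cfsg Matrix Subgroup CL.Grp CL.Even CL.Loc
open scoped commutatorElement

namespace CL.LQ

universe u v

namespace BAx

variable {n : ℕ} {F : Type v} [Field F]

theorem lt1 {i : Fin (n + 2)} (h : (i : ℕ) < 1) : i = 0 := Fin.ext (by simpa using h)

theorem ge1 {i : Fin (n + 2)} (h : i ≠ 0) : 1 ≤ (i : ℕ) := Nat.one_le_iff_ne_zero.2 fun e => h (Fin.ext e)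

theorem m1 (s : U (n + 2) F) (a : Fin (n + 2) → F) (c : F) : ⁅s, U.q a 0 c⁆ ∈ U.Vk (n + 2) F 1 := by
  rw [U.comm_q]
  refine ⟨rfl, by simp, fun i hi => ?_⟩
  rw [lt1 hi, U.q_u, Pi.sub_apply, s.ut.inv.vecMul_apply fun j hj => absurd hj (Fin.not_lt_zero j), sub_self]

theorem m2 : U.Vk (n + 2) F 1 ≤ U.Ak (n + 2) F 1 := fun x h =>
  ⟨h.2.2, fun i _ => by rw [h.2.1]; rfl, fun a _ => by rw [h.1, vecMul_one], fun b _ => by rw [h.1, one_mulVec]⟩

theorem cq {x : U (n + 2) F} {a : Fin (n + 2) → F} {c : F} (h : x * U.q a 0 c = U.q a 0 c * x) :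
    a ᵥ* x.g = a ∧ a ⬝ᵥ x.w = 0 := by
  have h1 := congrArg U.u h
  have h2 := congrArg U.c h
  simp only [U.mul_u, U.q_u, U.q_g, vecMul_one, U.mul_c, U.q_c, U.q_w, dotProduct_zero, add_zero] at h1 h2
  rw [add_comm a, add_right_inj] at h1
  rw [add_comm x.c, left_eq_add] at h2
  exact ⟨h1.symm, h2⟩

theorem m3 {x : U (n + 2) F} (h : ∀ a : Fin (n + 2) → F, a 0 = 0 → x * U.q a 0 0 = U.q a 0 0 * x) :
    x * (U.q (Pi.single 0 (x.u 0)) 0 0)⁻¹ ∈ U.Ak (n + 2) F 1 := by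
  rw [U.q_inv]
  refine ⟨fun i hi => by simp [lt1 hi], fun i hi => ?_, fun a ha => ?_, fun b hb => ?_⟩
  · have := (cq (h (Pi.single i 1) (Pi.single_eq_of_ne (by rintro rfl; simp at hi) _))).2
    simpa using this
  · simpa using (cq (h a (ha 0 (by simp)))).1
  · simp only [U.mul_g, U.q_g, mul_one]
    exact funext fun _ => x.ut.mulVec_apply fun j hj => hb j (ge1 (Fin.pos_iff_ne_zero.1 ((Fin.zero_le _).trans_lt hj)))

theorem m4 {x : U (n + 2) F} (hx : x ∈ U.Ak (n + 2) F 1) {a : Fin (n + 2) → F} {c : F} (ha : a 0 ≠ 0)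
    (h : x * U.q a 0 c = U.q a 0 c * x) : x ∈ U.Vk (n + 2) F 1 := by
  obtain ⟨h1, h2⟩ := cq h
  refine ⟨eq_one_of_vecMul fun b => ?_, funext fun i => ?_, hx.1⟩
  · have := hx.2.2.1 (b - (b 0 * (a 0)⁻¹) • a) fun i hi => by simp [lt1 hi, mul_assoc, inv_mul_cancel₀ ha]
    rwa [sub_vecMul, smul_vecMul, h1, sub_left_inj] at this
  · by_cases hi : i = 0
    · rw [dotProduct, Finset.sum_eq_single 0 (fun j _ hj => by rw [hx.2.1 j (ge1 hj), mul_zero]) (by simp)] at h2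
      rw [hi]; exact (mul_eq_zero.1 h2).resolve_left ha
    · exact hx.2.1 i (ge1 hi)

end BAx

open BAx

theorem ba (h1 : BL.{u}) : All.{u, v} @BA := by
  intro G _ _ n F _ _ _ e he E K h hz v hv vN vE
  have vv := V_sq hv
  have ES : E ≤ S e := h.lt.le
  obtain ⟨g, gN, -, gK⟩ := h.ex
  obtain ⟨y, yN, -, yK, odd, inv⟩ := h.se3 v ⟨V_le_S e hv, vN, vE, vv ▸ one_mem _⟩ vv ⊤ trivial g gN trivial gK
  have nI : E ≤ 𝒩(V e ⊓ E) := le_norm_inf (ES.trans (S_le_NV e)) le_normalizer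
  have pE := he.isP.to_le ES
  have Ev : ∀ x ∈ E, ⁅x, v⁆ ∈ V e ⊓ E := fun x hx => mem_inf.2 ⟨mul_mem (conj_mem (S_le_NV e (ES hx)) hv) (inv_mem hv), by
    have := mul_mem hx (conj_mem vN (inv_mem hx))
    rwa [← mul_assoc, ← mul_assoc] at this⟩
  have c : BLc E (V e ⊓ E) ⊥ v y := h1 ⟨pE, inf_le_right, nI, vN, yN, vv, odd, inv, Ev, bot_le,
    fun i hi => mem_bot.2 (commutatorElement_eq_one_iff_mul_comm.2 (V_comm (mem_inf.1 hi).1 hv)),
    fun i hi j hj => mem_bot.2 (commutatorElement_eq_one_iff_mul_comm.2 (V_comm (mem_inf.1 hi).1 (mem_inf.1 hj).1))⟩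
  have JE : cj y (V e ⊓ E) ≤ E := cj_le_of_le inf_le_right yN
  have nJ : E ≤ 𝒩(cj y (V e ⊓ E)) := by
    rw [← cj_norm]; exact (cj_eq yN).symm.le.trans (cj_mono y nI)
  have D0 : V e ⊓ E ⊓ cj y (V e ⊓ E) = ⊥ := by
    by_contra hne
    obtain ⟨⟨d, hd⟩, d1⟩ := ne_bot_iff_exists_ne_one.1
      (inf_cent_ne_bot (pE.to_le (inf_le_left.trans inf_le_right)) pE (le_norm_inf nI nJ) hne)
    obtain ⟨d2, d3⟩ := mem_inf.1 hd
    have dZ := hz (mem_inf.2 ⟨(mem_inf.1 d2).1, d3⟩)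
    have dy := mem_centralizer_singleton_iff.1 (mem_inf.1 (c.cent.le d2)).2
    have := h.cz y yN (mem_centralizer_iff.2 fun x hx => by rw [mem_bot.1 hx, one_mul, mul_one]) yK d dZ
      fun k => d1 (Subtype.ext (mem_bot.1 k))
    rw [← dy, mul_inv_cancel_right] at this
    exact h.lt.ne' (le_antisymm (fun x hx => this.le (mem_inf.2 ⟨hx, mem_centralizer_singleton_iff.2 (Z_comm dZ hx).symm⟩)) ES)
  have sj : ∀ i ∈ V e ⊓ E, ∃ j ∈ cj y (V e ⊓ E), i = ⁅j, v⁆ := fun i hi => by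
    obtain ⟨j, hj, d, hd, e1⟩ := c.surj i hi
    rw [D0] at hd
    exact ⟨j, hj, by rw [e1, mem_bot.1 hd, mul_one]⟩
  obtain ⟨a, c0, rfl⟩ := mem_V.1 hv
  refine ⟨fun i hi => ?_, fun hI AE => ?_⟩
  · obtain ⟨j, hj, rfl⟩ := sj i hi
    obtain ⟨s, rfl⟩ := ES (JE hj)
    rw [← map_commutatorElement]
    exact mem_map_of_mem e (m1 s a c0)
  have IA : V e ⊓ E ≤ Ak e 1 := hI.le.trans (map_mono m2)
  have a0 : a 0 ≠ 0 := fun k => vE (mem_inf.1 (hI.ge (mem_map_of_mem e (x := U.q a 0 c0)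
    ⟨rfl, rfl, fun i hi => by rw [lt1 hi]; exact k⟩))).2
  have JA : cj y (V e ⊓ E) ≤ Ak e 1 := fun j hj => by
    obtain ⟨x, rfl⟩ := ES (JE hj)
    have k := m3 (x := x) fun b hb => he.inj (by
      have bI : e (U.q b 0 0) ∈ V e ⊓ E := hI.ge (mem_map_of_mem e (x := U.q b 0 0)
        ⟨rfl, rfl, fun i hi => by rw [lt1 hi]; exact hb⟩)
      have : ⁅e x, e (U.q b 0 0)⁆ ∈ V e ⊓ E ⊓ cj y (V e ⊓ E) := mem_inf.2
        ⟨mul_mem (conj_mem (nI (JE hj)) bI) (inv_mem bI), by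
          have := mul_mem hj (conj_mem (nJ (mem_inf.1 bI).2) (inv_mem hj))
          rwa [← mul_assoc, ← mul_assoc] at this⟩
      rw [D0, mem_bot, commutatorElement_eq_one_iff_mul_comm] at this
      rw [map_mul, map_mul, this])
    have k2 := AE (mem_map_of_mem e k)
    rw [map_mul, map_inv, mul_mem_cancel_left (JE hj), inv_mem_iff] at k2
    have k3 := (he.mem_map.1 (hI.le (mem_inf.2 ⟨mem_V.2 ⟨_, _, rfl⟩, k2⟩))).2.2 0 (by simp)
    rw [U.q_u, Pi.single_eq_same] at k3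
    rw [k3, Pi.single_zero, U.q_zero, inv_one, mul_one] at k
    exact mem_map_of_mem e k
  have hA : V e ⊓ E ⊔ cj y (V e ⊓ E) = Ak e 1 := le_antisymm (sup_le IA JA) fun b hb => by
    obtain ⟨j, hj, e1⟩ := sj _ (Ev b (AE hb))
    obtain ⟨x, hx, e2⟩ := mul_mem (inv_mem (JA hj)) hb
    have k : x ∈ U.Vk (n + 2) F 1 := m4 hx a0 (c := c0) (he.inj (by
      rw [map_mul, map_mul, e2]
      simp only [commutatorElement_def, mul_left_inj] at e1
      calc j⁻¹ * b * e (U.q a 0 c0) = j⁻¹ * (b * e (U.q a 0 c0) * b⁻¹) * b := by group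
        _ = _ := by rw [e1]; group))
    have := mul_mem (mem_sup_right (S := V e ⊓ E) hj) (mem_sup_left (hI.ge (e2 ▸ mem_map_of_mem e k)))
    rwa [mul_inv_cancel_left] at this
  refine ⟨y, yN, yK, hA ▸ c.norm, fun x hx => ?_, eq_bot_iff.2 fun x hx => ?_, fun x hx => ?_⟩
  · obtain ⟨k, hk, i, hi, j, hj, e1⟩ := c.prod x hx
    exact ⟨k, hk, i * j, mul_mem (IA hi) (JA hj), by rw [e1, mul_assoc]⟩
  · obtain ⟨x1, x2⟩ := mem_inf.1 hx
    have x3 := (mem_inf.1 x1).2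
    exact D0.le (c.cent.ge (mem_inf.2 ⟨c.cIJ (mem_inf.2 ⟨hA.ge x2, x3⟩), x3⟩))
  · have := c.cv x hx
    rw [D0, mem_bot, commutatorElement_eq_one_iff_mul_comm] at this
    exact mem_centralizer_singleton_iff.2 this

end CL.LQ
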