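/-
Project LQ (S1769): the step `BL` (an involution acting almost quadratically and inverting an element of odd order).
-/
import Cfsg.Agent.LQ.Defs
import Cfsg.Agent.Grp.CoprimeAct

set_option autoImplicit false
open Cfsg Matrix Subgroup CL.Grp CL.Even CL.Loc
open scoped commutatorElement

namespace CL.LQ

universe u v

namespace BLx

variable {G : Type u} [Group G] {E I Z0 N : Subgroup G} {v y a s : G}

/-- the elements of `N(N)` fixing the coset `N a` -/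
def ec (a : G) (N : Subgroup G) : Subgroup G where
  carrier := {s | s ∈ 𝒩(N) ∧ ⁅a, s⁆ ∈ N}
  one_mem' := ⟨one_mem _, by simp⟩
  mul_mem' := fun {s t} hs ht => ⟨mul_mem hs.1 ht.1, by
    have := mul_mem hs.2 (conj_mem hs.1 ht.2)
    convert this using 1
    simp only [commutatorElement_def]; group⟩
  inv_mem' := fun {s} hs => ⟨inv_mem hs.1, by
    have := conj_mem' hs.1 (inv_mem hs.2)
    convert this using 1
    simp only [commutatorElement_def]; group⟩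

theorem nrm [Finite G] (h : ∀ n ∈ N, ⁅n, s⁆ ∈ N) : s ∈ 𝒩(N) :=
  mem_normalizer_fintype fun n hn => by
    have e : s * n * s⁻¹ = ⁅n, s⁆⁻¹ * n := by simp only [commutatorElement_def]; group
    exact e ▸ N.mul_mem (inv_mem (h n hn)) hn

theorem comm_mul (a b x : G) : ⁅a * b, x⁆ = a * ⁅b, x⁆ * a⁻¹ * ⁅a, x⁆ := by
  simp only [commutatorElement_def]; group

theorem conj_comm (y x v : G) : y⁻¹ * ⁅x, y * v * y⁻¹⁆ * y = ⁅y⁻¹ * x * y, v⁆ := by
  simp only [commutatorElement_def]; group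

theorem conj_C {c : G} (h : c ∈ centralizer {y}) : y⁻¹ * c * y = c := by
  rw [mul_assoc, mem_centralizer_singleton_iff.1 h, inv_mul_cancel_left]

theorem y_mem (h : BLh E I Z0 v y) {H : Subgroup G} (h1 : v ∈ H) (h2 : y * v * y⁻¹ ∈ H) : y ∈ H := by
  refine mem_of_pow_mem_of_coprime (Nat.coprime_two_right.2 h.odd) ?_
  have e : y ^ 2 = y * v * y⁻¹ * v⁻¹ := by
    rw [mul_assoc y, mul_assoc y, ← h.inv, pow_two]
    congr 1
    calc y = (v * v) * y * (v * v)⁻¹ := by rw [h.vv]; group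
      _ = _ := by group
  exact e ▸ mul_mem h2 (inv_mem h1)

theorem cop [Finite G] (h : BLh E I Z0 v y) (hN : N ≤ E) (ha : a ∈ E) (h1 : v ∈ ec a N) (h2 : y * v * y⁻¹ ∈ ec a N) :
    ∃ c ∈ E ⊓ centralizer {y}, a * c ∈ N := by
  have hy : zpowers y ≤ ec a N := zpowers_le.2 (y_mem h h1 h2)
  have hc : ∀ K ≤ E, (Nat.card (zpowers y)).Coprime (Nat.card K) := fun K hK => by
    obtain ⟨k, hk⟩ := IsPGroup.iff_card.1 (h.isP.to_le hK)
    rw [hk, Nat.card_zpowers]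
    exact (Nat.coprime_two_right.2 h.odd).pow_right k
  obtain ⟨c, hc, e⟩ := exists_centralizer_mem_leftCoset_of_disjoint (A := zpowers y) (K := E) (zpowers_le.2 h.yN)
    (disjoint_of_coprime_natCard (hc E le_rfl)) hN (fun s hs => (hy hs).1) (hc N hN) (Or.inl inferInstance)
    (inv_mem ha) fun s hs => by
      have := (hy hs).2
      convert this using 1
      simp only [commutatorElement_def]; group
  exact ⟨c, ⟨hc.1, mem_centralizer_singleton_iff.2 (mem_centralizer_iff.1 hc.2 y (mem_zpowers y)).symm⟩,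
    by rwa [inv_inv] at e⟩

/-- the counting argument -/
theorem count [Finite G] {J D : Subgroup G} (hI : D ≤ I) (hJ : D ≤ J) (hc : Nat.card J = Nat.card I) (f : J → I)
    (hf : ∀ j j' : J, (j : G)⁻¹ * j' ∈ D ↔ (f j : G)⁻¹ * f j' ∈ D) (i : I) : ∃ j, (f j : G)⁻¹ * i ∈ D := by
  let φ : J ⧸ D.subgroupOf J → I ⧸ D.subgroupOf I := Quotient.map' f fun j j' e =>
    QuotientGroup.leftRel_apply.2 ((hf j j').1 ((QuotientGroup.leftRel_apply (s := D.subgroupOf J)).1 e))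
  have h1 : Function.Injective φ := fun a b e => by
    obtain ⟨j, rfl⟩ := QuotientGroup.mk_surjective a
    obtain ⟨j', rfl⟩ := QuotientGroup.mk_surjective b
    exact QuotientGroup.eq.2 ((hf j j').2 ((QuotientGroup.eq (s := D.subgroupOf I) (a := f j) (b := f j')).1 e))
  have h2 := card_eq_card_quotient_mul_card_subgroup (D.subgroupOf J)
  rw [hc, card_eq_card_quotient_mul_card_subgroup (D.subgroupOf I), Nat.card_congr (subgroupOfEquivOfLe hI).toEquiv,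
    Nat.card_congr (subgroupOfEquivOfLe hJ).toEquiv] at h2
  obtain ⟨a, e⟩ := ((Nat.bijective_iff_injective_and_card φ).2
    ⟨h1, (Nat.eq_of_mul_eq_mul_right Nat.card_pos h2).symm⟩).2 (i : I ⧸ D.subgroupOf I)
  obtain ⟨j, rfl⟩ := QuotientGroup.mk_surjective a
  exact ⟨j, (QuotientGroup.eq (s := D.subgroupOf I) (a := f j) (b := i)).1 e⟩

end BLx

open BLx in
theorem bl : BL.{u} := by
  intro G _ _ E I Z0 v y h
  have JE : cj y I ≤ E := cj_le_of_le h.le h.yN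
  have nJ : E ≤ 𝒩(cj y I) := by rw [← cj_norm, ← cj_eq h.yN]; exact cj_mono y h.nI
  have nD : E ≤ 𝒩(I ⊓ cj y I) := le_norm_inf h.nI nJ
  have Eb : ∀ x ∈ E, ⁅x, y * v * y⁻¹⁆ ∈ cj y I := fun x hx =>
    mem_cj.2 (by rw [conj_comm]; exact h.Ev _ (conj_mem' h.yN hx))
  have ICJ : ∀ i ∈ I, i ∈ centralizer {y} → i ∈ cj y I := fun i hi hc => mem_cj.2 (by rwa [conj_C hc])
  have ZD : Z0 ≤ I ⊓ cj y I := fun z hz => ⟨(h.Z0le hz).1, ICJ z (h.Z0le hz).1 (h.Z0le hz).2⟩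
  have Jb : ∀ j ∈ cj y I, ⁅j, y * v * y⁻¹⁆ ∈ Z0 := fun j hj => by
    have h1 := h.Iv _ (mem_cj.1 hj)
    have h2 := conj_C (h.Z0le h1).2
    rw [← conj_comm] at h1 h2
    rwa [mul_left_cancel (mul_right_cancel h2)] at h1
  have DC : I ⊓ cj y I ≤ centralizer {y} := fun d hd => by
    have h1 : y ∈ cmod (I ⊓ cj y I) Z0 := y_mem h
      ⟨nrm fun n hn => h.Iv n (ZD hn).1, fun x hx => h.Iv x hx.1⟩ ⟨nrm fun n hn => Jb n (ZD hn).2, fun x hx => Jb x hx.2⟩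
    exact mem_centralizer_singleton_iff.2 (comm_of_mem (mem_cent_of_coprime (p := 2)
      (h.isP.to_le fun z hz => h.le (ZD hz).1) (Nat.coprime_two_right.2 h.odd) h1.2
      (mem_centralizer_iff.2 fun z hz => mem_centralizer_singleton_iff.1 (h.Z0le hz).2)) hd)
  have SE : I ⊔ cj y I ≤ E := sup_le h.le JE
  have n1 : v ∈ 𝒩(I ⊔ cj y I) := nrm fun n hn => mem_sup_left (h.Ev n (SE hn))
  have n2 : y * v * y⁻¹ ∈ 𝒩(I ⊔ cj y I) := nrm fun n hn => mem_sup_right (Eb n (SE hn))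
  have cv : ∀ c ∈ E ⊓ centralizer {y}, ⁅c, v⁆ ∈ I ⊓ cj y I := fun c hc => by
    refine ⟨h.Ev c hc.1, ICJ _ (h.Ev c hc.1) ?_⟩
    have h1 : Commute c⁻¹ y⁻¹ := Commute.inv_inv (mem_centralizer_singleton_iff.1 hc.2)
    have h2 := h1.conj v
    rw [← conj_inv (a := y), h.inv, inv_inv] at h2
    have e : ⁅c, v⁆ = c * (v * c⁻¹ * v⁻¹) := by simp only [commutatorElement_def, mul_assoc]
    exact e ▸ (centralizer {y}).mul_mem hc.2 (mem_centralizer_singleton_iff.2 h2)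
  have fix : ∀ a ∈ E, ⁅a, v⁆ ∈ I ⊓ cj y I → ⁅a, y * v * y⁻¹⁆ ∈ I ⊓ cj y I → a ∈ centralizer {y} := fun a ha h1 h2 => by
    obtain ⟨c, hc, e⟩ := cop h (inf_le_left.trans h.le) ha ⟨nrm fun n hn => ZD (h.Iv n hn.1), h1⟩
      ⟨nrm fun n hn => ZD (Jb n hn.2), h2⟩
    exact ((centralizer {y}).mul_mem_cancel_right hc.2).1 (DC e)
  have inj : ∀ j ∈ cj y I, ⁅j, v⁆ ∈ cj y I → j ∈ I := fun j hj h1 => by
    have := mem_cj.1 hj
    rwa [conj_C (fix j (JE hj) ⟨h.Ev j (JE hj), h1⟩ (ZD (Jb j hj)))] at this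
  have gen : ∀ x : G, (∀ a ∈ E, ⁅a, x⁆ ∈ I) → (∀ i ∈ I, ⁅i, x⁆ ∈ Z0) → (∀ j ∈ cj y I, ⁅j, x⁆ ∈ cj y I → j ∈ I) →
      ∀ i ∈ I, ∃ j ∈ cj y I, ∃ d ∈ I ⊓ cj y I, i = ⁅j, x⁆ * d := fun x x1 x2 x3 i hi => by
    obtain ⟨j, e⟩ := count (D := I ⊓ cj y I) inf_le_left inf_le_right (card_cj y I)
      (fun j => ⟨⁅(j : G), x⁆, x1 _ (JE j.2)⟩) (fun j j' => by
        have hk : (j : G)⁻¹ * j' ∈ cj y I := mul_mem (inv_mem j.2) j'.2
        have h1 := mem_normalizer_iff.1 (nD (mul_mem (inv_mem (h.le (x1 _ (JE j.2)))) (JE j.2))) ⁅(j : G)⁻¹ * j', x⁆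
        have e : ⁅(j : G), x⁆⁻¹ * j * ⁅(j : G)⁻¹ * j', x⁆ * (⁅(j : G), x⁆⁻¹ * j)⁻¹ = ⁅(j : G), x⁆⁻¹ * ⁅(j' : G), x⁆ := by
          simp only [commutatorElement_def]; group
        rw [e] at h1
        exact ⟨fun a => h1.1 (ZD (x2 _ a.1)), fun a => ⟨x3 _ hk (h1.2 a).2, hk⟩⟩) ⟨i, hi⟩
    exact ⟨j, j.2, _, e, (mul_inv_cancel_left _ _).symm⟩
  refine ⟨le_antisymm (le_inf inf_le_left DC) fun i hi => ⟨hi.1, ICJ i hi.1 hi.2⟩, fun c hc => ?_, inj,
    fun i hi h1 => ICJ i hi (fix i (h.le hi) (ZD (h.Iv i hi)) ⟨h1, Eb i (h.le hi)⟩), gen v h.Ev h.Iv inj, gen,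
    y_mem h n1 n2, fun x hx => ?_, cv⟩
  · have h1 := (cv c ⟨SE hc.1, hc.2⟩).2
    obtain ⟨i, hi, j, hj, rfl⟩ := (mem_sup_nl (JE.trans h.nI)).1 hc.1
    rw [comm_mul] at h1
    exact mul_mem hi (inj j hj ((mem_normalizer_iff.1 (nJ (h.le hi)) _).2
      (((cj y I).mul_mem_cancel_right (ZD (h.Iv i hi)).2).1 h1)))
  · obtain ⟨c, hc, e⟩ := cop h SE (inv_mem hx) ⟨n1, mem_sup_left (h.Ev _ (inv_mem hx))⟩
      ⟨n2, mem_sup_right (Eb _ (inv_mem hx))⟩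
    obtain ⟨i, hi, j, hj, e'⟩ := (mem_sup_nl (JE.trans h.nI)).1 (inv_mem e)
    exact ⟨c, hc, i, hi, j, hj, by rw [mul_assoc, e']; group⟩

end CL.LQ
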