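/-
Project LQ (S1769): the blocks `Ak` are preserved by fusion in `N(V)`.
-/
import Cfsg.Agent.LQ.Defs

set_option autoImplicit false
open Cfsg Matrix Subgroup CL.Grp CL.Even CL.Loc
open scoped commutatorElement

namespace CL.LQ

universe u v

namespace BLK

variable {n k : ℕ} {F : Type v} [Field F]

/-- `V ⊔ Ak` -/
def T0 (n : ℕ) (F : Type v) [Field F] (k : ℕ) : Subgroup (U n F) where
  carrier := {x | (∀ i : Fin n, k ≤ (i : ℕ) → x.w i = 0) ∧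
    (∀ a : Fin n → F, (∀ i : Fin n, (i : ℕ) < k → a i = 0) → a ᵥ* x.g = a) ∧
    ∀ b : Fin n → F, (∀ i : Fin n, k ≤ (i : ℕ) → b i = 0) → x.g *ᵥ b = b}
  one_mem' := ⟨fun _ _ => rfl, fun _ _ => by simp, fun _ _ => by simp⟩
  mul_mem' := fun {x y} ⟨h2, h3, h4⟩ ⟨k2, k3, k4⟩ =>
    ⟨fun i hi => by simp [h4 _ k2, h2 i hi, k2 i hi],
      fun a ha => by rw [U.mul_g, ← vecMul_vecMul, h3 a ha, k3 a ha],
      fun b hb => by rw [U.mul_g, ← mulVec_mulVec, k4 b hb, h4 b hb]⟩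
  inv_mem' := fun {x} ⟨h2, h3, h4⟩ =>
    ⟨fun i hi => by simp [U.inv_mulVec_of (h4 _ h2), h2 i hi],
      fun a ha => U.vecMul_inv_of (h3 a ha), fun b hb => U.inv_mulVec_of (h4 b hb)⟩

theorem dot0 {a b : Fin n → F} (ha : ∀ i : Fin n, (i : ℕ) < k → a i = 0) (hb : ∀ i : Fin n, k ≤ (i : ℕ) → b i = 0) :
    a ⬝ᵥ b = 0 := Finset.sum_eq_zero fun i _ => by
  rcases lt_or_ge (i : ℕ) k with h | h
  · rw [ha i h, zero_mul]
  · rw [hb i h, mul_zero]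

theorem e1 {x : U n F} (h : x ∈ T0 n F k) (a : Fin n → F) (i : Fin n) (hi : (i : ℕ) < k) : (a ᵥ* x.g - a) i = 0 := by
  have := h.2.2 (Pi.single i 1) fun j hj => Pi.single_eq_of_ne (by rintro rfl; omega) _
  rw [Pi.sub_apply, sub_eq_zero, ← dotProduct_single_one (a ᵥ* x.g), ← dotProduct_mulVec, this, dotProduct_single_one]

theorem e2 {x : U n F} (h : x ∈ T0 n F k) (b : Fin n → F) (i : Fin n) (hi : k ≤ (i : ℕ)) : (x.g *ᵥ b - b) i = 0 := by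
  have := h.2.1 (Pi.single i 1) fun j hj => Pi.single_eq_of_ne (by rintro rfl; omega) _
  rw [Pi.sub_apply, sub_eq_zero, ← single_one_dotProduct i (x.g *ᵥ b), dotProduct_mulVec, this, single_one_dotProduct]

theorem comm {x y : U n F} (hx : x ∈ U.Ak n F k) (hy : y ∈ U.Ak n F k) : x * y = y * x := by
  refine U.ext ?_ (ext_iff_mulVec.2 fun b => ?_) ?_ ?_
  · rw [U.mul_u, U.mul_u, hy.2.2.1 _ hx.1, hx.2.2.1 _ hy.1, add_comm]
  · have a1 := hx.2.2.2 _ (e2 hy.2 b)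
    have a2 := hy.2.2.2 _ (e2 hx.2 b)
    rw [mulVec_sub, sub_eq_iff_eq_add] at a1 a2
    rw [U.mul_g, U.mul_g, ← mulVec_mulVec, ← mulVec_mulVec, a1, a2]; abel
  · rw [U.mul_w, U.mul_w, hy.2.2.2 _ hx.2.1, hx.2.2.2 _ hy.2.1, add_comm]
  · rw [U.mul_c, U.mul_c, dot0 hx.1 hy.2.1, dot0 hy.1 hx.2.1, add_comm x.c]

theorem dec {y : U n F} (h : y ∈ T0 n F k) : ∃ v ∈ U.V n F, ∃ a ∈ U.Ak n F k, v * a = y := by
  refine ⟨U.q (y.u ᵥ* y.g⁻¹) 0 0, ⟨rfl, rfl⟩, (U.q (y.u ᵥ* y.g⁻¹) 0 0)⁻¹ * y, ?_, mul_inv_cancel_left _ _⟩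
  rw [U.q_inv]
  exact ⟨fun i _ => by simp [neg_vecMul], by simpa using h.1, by simpa using h.2.1, by simpa using h.2.2⟩

theorem mem_T0 {x : U n F} : x ∈ T0 n F k ↔ (∀ v ∈ U.V n F, ⁅x, v⁆ ∈ U.Vk n F k) ∧ ∀ v ∈ U.Vk n F k, ⁅x, v⁆ = 1 := by
  refine ⟨fun h => ⟨fun v hv => ?_, fun v hv => ?_⟩, fun ⟨h1, h2⟩ => ?_⟩
  · rw [U.eq_q hv.1, hv.2, U.comm_q]
    exact ⟨rfl, by simp, e1 (inv_mem h) _⟩
  · rw [U.eq_q hv.1, hv.2.1, U.comm_q, U.q_eq_one, U.vecMul_inv_of (h.2.1 _ hv.2.2), dot0 hv.2.2 h.1]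
    simp
  · have ii : x⁻¹.g⁻¹ = x.g := congrArg U.g (inv_inv x)
    have k2 : ∀ a : Fin n → F, (∀ i : Fin n, (i : ℕ) < k → a i = 0) → a ᵥ* x.g⁻¹ = a ∧ a ⬝ᵥ x.w = 0 := fun a ha => by
      have := h2 (U.q a 0 0) ⟨rfl, rfl, ha⟩
      rw [U.comm_q, U.q_eq_one, sub_eq_zero] at this
      exact ⟨this.1, by simpa [this.1] using this.2.2⟩
    refine ⟨fun i hi => ?_, fun a ha => ii ▸ U.vecMul_inv_of (x := x⁻¹) (k2 a ha).1,
      fun b hb => ii ▸ U.inv_mulVec_of (x := x⁻¹) (sub_eq_zero.1 (eq_zero_of_dot fun a => ?_))⟩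
    · simpa using (k2 (Pi.single i 1) fun j hj => Pi.single_eq_of_ne (by rintro rfl; omega) _).2
    · have := (h1 (U.q a 0 0) ⟨rfl, rfl⟩).2.2
      rw [U.comm_q, U.q_u] at this
      rw [dotProduct_sub, dotProduct_mulVec, ← sub_dotProduct]
      exact dot0 this hb

theorem key (hk : k ≤ n + 1) {P : U (n + 2) F → Prop} (h1 : ∀ x, P x → x ∈ T0 (n + 2) F k)
    (h2 : ∀ x y, P x → P y → x * y = y * x) (h3 : ∀ a ∈ U.Ak (n + 2) F k, ∃ x, P x ∧ x.g = a.g ∧ x.w = a.w)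
    {y : U (n + 2) F} (hy : P y) : y ∈ U.Ak (n + 2) F k := by
  refine ⟨fun i hi => ?_, h1 y hy⟩
  obtain ⟨x, hx, xg, xw⟩ := h3 (U.q 0 (Pi.single i 1) 0) ⟨fun _ _ => rfl,
    fun j hj => Pi.single_eq_of_ne (by rintro rfl; omega) _, fun _ _ => by simp, fun _ _ => by simp⟩
  have xu : ∀ j : Fin (n + 2), (j : ℕ) < k → x.u j = 0 := fun j hj => by
    obtain ⟨z, hz, zg, -⟩ := h3 (U.l (1 + vecMulVec (Pi.single j 1) (Pi.single (Fin.last (n + 1)) 1))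
      (.one_add fun a b hab => by
        rw [vecMulVec_apply]
        by_cases e : a = j
        · rw [Pi.single_eq_of_ne (i' := b) (by rintro rfl; rw [e, Fin.le_def, Fin.val_last] at hab; omega), mul_zero]
        · rw [Pi.single_eq_of_ne e, zero_mul]))
      ⟨fun _ _ => rfl, fun _ _ => rfl, fun a ha => by simp [vecMul_add, vecMul_vecMulVec, ha j hj],
        fun b hb => by simp [add_mulVec, vecMulVec_mulVec, hb (Fin.last _) (by rw [Fin.val_last]; exact hk)]⟩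
    have := congrFun (congrArg U.u (h2 x z hx hz)) (Fin.last _)
    simpa [zg, xg, vecMul_add, vecMul_vecMulVec, add_comm] using this
  have := congrArg U.c (h2 x y hx hy)
  rw [U.mul_c, U.mul_c, dot0 xu (h1 y hy).1, xw, add_comm x.c, add_right_inj] at this
  simpa using this.symm

end BLK

open BLK

theorem blk (h1 : All.{u, v} @NQ) (h2 : All.{u, v} @FR) : All.{u, v} @BLK := by
  intro G _ _ n F _ _ _ e he k hk hV g hg t ht hS
  obtain ⟨m, ⟨⟨mV, -⟩, mT⟩, -, hm⟩ := h2 e he (Vk e k) ((T0 (n + 2) F k).map e) (Vk_le_V e k) (S_le_NVk e k)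
    (fun x => ⟨by
      rintro ⟨y, hy, rfl⟩
      refine ⟨⟨y, rfl⟩, ?_, ?_⟩ <;> rintro _ ⟨v, hv, rfl⟩ <;> rw [← map_commutatorElement]
      · exact mem_map_of_mem e ((mem_T0.1 hy).1 v hv)
      · rw [(mem_T0.1 hy).2 v hv, map_one], by
      rintro ⟨⟨y, rfl⟩, a, b⟩
      exact mem_map_of_mem e (mem_T0.2 ⟨fun v hv => he.mem_map.1 (map_commutatorElement e y v ▸
        a _ (mem_map_of_mem e hv)), fun v hv => he.eq_one.1 ((map_commutatorElement e y v).trans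
          (b _ (mem_map_of_mem e hv)))⟩)⟩) g ⟨hg, hV hg⟩
  have AT : Ak e k ≤ (T0 (n + 2) F k).map e := map_mono fun _ h => h.2
  rw [hm t (AT ht) hS]
  rcases hk.eq_or_lt with rfl | hk
  · have TQ : T0 (n + 2) F (n + 2) = U.Q (n + 2) F := Subgroup.ext fun x =>
      ⟨fun h => eq_one_of_mulVec fun b => h.2.2 b fun i hi => absurd i.2 (by omega), fun h : x.g = 1 =>
        ⟨fun i hi => absurd i.2 (by omega), fun _ _ => by simp [h], fun _ _ => by simp [h]⟩⟩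
    have AW : U.Ak (n + 2) F (n + 2) = U.W (n + 2) F := Subgroup.ext fun x =>
      ⟨fun h => ⟨TQ.le h.2, funext fun i => h.1 i i.2⟩, fun h => ⟨fun i _ => congrFun h.2 i, TQ.ge h.1⟩⟩
    rw [TQ] at mT
    rw [Ak, AW] at ht ⊢
    exact conj_mem (h1 e he m ((cj_eq mT).le.trans (Q_le_S e))).2 ht
  obtain ⟨y, -, hy⟩ := conj_mem mT (AT ht)
  rw [← hy]
  refine mem_map_of_mem e (key (P := fun x => e x ∈ cj m (Ak e k)) (by omega)
    (fun x hx => he.mem_map.1 (cj_le_of_le AT mT hx)) ?_ (fun a ha => ?_) (hy ▸ conj_mem_cj m ht))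
  · rintro x y ⟨_, ⟨a, ha, rfl⟩, e1⟩ ⟨_, ⟨b, hb, rfl⟩, e2⟩
    apply he.inj
    rw [map_mul, map_mul, ← e1, ← e2, ← map_mul, ← map_mul, ← map_mul, ← map_mul, BLK.comm ha hb]
  · obtain ⟨y, hy, e1⟩ := conj_mem' mT (AT (mem_map_of_mem e ha))
    obtain ⟨v, hv, b, hb, rfl⟩ := dec hy
    obtain ⟨v', hv', e2⟩ := conj_mem mV (mem_map_of_mem e hv)
    obtain ⟨x, -, e3⟩ := conj_mem mT (AT (mem_map_of_mem e hb))
    have : a = v' * x := he.inj (by rw [map_mul, e2, e3, conj_mul, ← map_mul, e1]; group)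
    exact ⟨x, e3 ▸ conj_mem_cj m (mem_map_of_mem e hb), by simp [this, hv'.1], by simp [this, hv'.1, hv'.2]⟩

end CL.LQ
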