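/-
Project LQ (S1769), step STAR.
-/
import Cfsg.Agent.LQ.Defs

set_option autoImplicit false
open Cfsg Matrix Subgroup CL.Grp CL.Even CL.Loc
open scoped commutatorElement

namespace CL.LQ

universe u v

namespace Starx

variable {G : Type*} [Group G]

theorem comm_mul_left (a b s : G) : ⁅a * b, s⁆ = a * ⁅b, s⁆ * a⁻¹ * ⁅a, s⁆ := by
  simp only [commutatorElement_def]; group

theorem comm_mul_right (m a b : G) : ⁅m, a * b⁆ = ⁅m, a⁆ * (a * ⁅m, b⁆ * a⁻¹) := by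
  simp only [commutatorElement_def]; group

theorem comm_conj (g a b : G) : ⁅a, g * b * g⁻¹⁆ = g * ⁅g⁻¹ * a * g, b⁆ * g⁻¹ := by
  simp only [commutatorElement_def]; group

theorem comm_symm {D : Subgroup G} {a b : G} (h : ⁅a, b⁆ ∈ D) : ⁅b, a⁆ ∈ D := by
  rw [← commutatorElement_inv]; exact inv_mem h

/-- the elements normalising `D` and commuting with `s` modulo `D` -/
def cs (D : Subgroup G) (s : G) : Subgroup G where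
  carrier := {m | m ∈ 𝒩(D) ∧ ⁅m, s⁆ ∈ D}
  one_mem' := ⟨one_mem _, by simp⟩
  mul_mem' := fun {a b} ha hb => ⟨mul_mem ha.1 hb.1, by
    rw [comm_mul_left]; exact mul_mem (conj_mem ha.1 hb.2) ha.2⟩
  inv_mem' := fun {a} ha => ⟨inv_mem ha.1, by
    rw [show ⁅a⁻¹, s⁆ = a⁻¹ * ⁅a, s⁆⁻¹ * a by simp only [commutatorElement_def]; group]
    exact conj_mem' ha.1 (inv_mem ha.2)⟩

theorem nrm [Finite G] {M : Subgroup G} {s : G} (h : ∀ m ∈ M, ⁅m, s⁆ ∈ M) : s ∈ 𝒩(M) :=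
  mem_norm_of_cj_le (by
    rintro _ ⟨m, hm, rfl⟩
    change s * m * s⁻¹ ∈ M
    rw [show s * m * s⁻¹ = ⁅m, s⁆⁻¹ * m by simp only [commutatorElement_def]; group]
    exact mul_mem (inv_mem (h m hm)) hm)

end Starx

open Starx

theorem star (h : BL.{u}) : STAR.{u} := by
  intro G _ _ S E K I Z0 v y L B ov hy x ox hx1 hx2 j0 hj0 hjx
  have : Fact (Nat.Prime 2) := ⟨Nat.prime_two⟩
  have c := h B
  by_contra hj0I
  set J := cj y I with hJ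
  have hZD : Z0 ≤ I ⊓ J := c.cent ▸ B.Z0le
  have hJE : J ≤ E := cj_le_of_le B.le B.yN
  have nJ : E ≤ 𝒩(J) := by
    rw [hJ, ← cj_norm, ← cj_eq B.yN]
    exact cj_mono y B.nI
  have nD : E ≤ 𝒩(I ⊓ J) := le_norm_inf B.nI nJ
  have hIJ : I ⊔ J ≤ E := sup_le B.le hJE
  have hij : ∀ i ∈ I, ∀ j ∈ J, ⁅j, i⁆ ∈ I ⊓ J := fun i hi j hj =>
    ⟨I.mul_mem (conj_mem (B.nI (hJE hj)) hi) (I.inv_mem hi),
      comm_symm (mul_mem (conj_mem (nJ (B.le hi)) hj) (inv_mem hj))⟩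
  have hb1 : ∀ a ∈ E, ⁅a, y * v * y⁻¹⁆ ∈ J := fun a ha => by
    rw [comm_conj]; exact conj_mem_cj y (B.Ev _ (conj_mem' B.yN ha))
  have hb2 : ∀ j ∈ J, ⁅j, y * v * y⁻¹⁆ ∈ Z0 := fun j hj => by
    have h1 := B.Iv _ (mem_cj.1 hj)
    rwa [comm_conj, ← mem_centralizer_singleton_iff.1 (B.Z0le h1).2, mul_inv_cancel_right]
  set M := (I ⊔ J) ⊓ cmod E (I ⊓ J) with hM
  have nM : 𝒩(E) ⊓ 𝒩(I ⊓ J) ⊓ 𝒩(I ⊔ J) ≤ 𝒩(M) :=
    le_norm_inf inf_le_right (le_norm_cmod (inf_le_left.trans inf_le_left) (inf_le_left.trans inf_le_right))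
  have nx : x ∈ 𝒩(E) ⊓ 𝒩(I ⊓ J) ⊓ 𝒩(I ⊔ J) :=
    ⟨⟨ox.mN, nrm fun d hd => hZD (hx2 d hd.1)⟩, nrm fun m hm => mem_sup_left (hx1 m (hIJ hm))⟩
  have nb : y * v * y⁻¹ ∈ 𝒩(E) ⊓ 𝒩(I ⊓ J) ⊓ 𝒩(I ⊔ J) :=
    ⟨⟨conj_mem (le_normalizer B.yN) B.vN, nrm fun d hd => hZD (hb2 d hd.2)⟩,
      nrm fun m hm => mem_sup_right (hb1 m (hIJ hm))⟩
  have ny : y ∈ 𝒩(E) ⊓ 𝒩(I ⊓ J) ⊓ 𝒩(I ⊔ J) :=
    ⟨⟨B.yN, cent_le_norm _ fun d hd => mem_centralizer_singleton_iff.1 (c.cent.le hd).2⟩, c.norm⟩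
  -- an element of `J \ D` central modulo `D`
  have nX : E ≤ 𝒩(J ⊓ cs (I ⊓ J) x) := by
    rw [le_normalizer_iff]
    rintro a ha j ⟨hj, -, hj'⟩
    have hi := hx1 _ (inv_mem ha)
    refine ⟨conj_mem (nJ ha) hj, nD (hJE (conj_mem (nJ ha) hj)), ?_⟩
    rw [show ⁅a * j * a⁻¹, x⁆ = a * ⁅j, ⁅a⁻¹, x⁆ * x⁆ * a⁻¹ by simp only [commutatorElement_def]; group,
      comm_mul_right]
    exact conj_mem (nD ha) (mul_mem (hij _ hi j hj) (conj_mem (nD (B.le hi)) hj'))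
  obtain ⟨k, k1, k2⟩ := exists_iter_not_le (A := I ⊓ J)
    (exists_iter_eq_bot (B.isP.to_le (inf_le_left.trans hJE)) B.isP nX)
    fun e => hj0I (e ⟨hj0, nD (hJE hj0), hx1 _ (hJE hj0), hjx⟩).1
  obtain ⟨j, hj, hjD⟩ := SetLike.not_le_iff_exists.1 k1
  have hj' := iter_le nX k hj
  have hlt : I ⊓ M < M ⊓ cs (I ⊓ J) x := by
    refine lt_of_le_of_ne (fun i hi => ⟨hi.2, nD (B.le hi.1), hZD (hx2 i hi.1)⟩) fun e => hjD ⟨?_, hj'.1⟩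
    exact (e.ge ⟨⟨mem_sup_right hj'.1, hj'.2.1, fun a ha => comm_symm (k2 (commutator_mem_commutator hj ha))⟩,
      hj'.2⟩).1
  obtain ⟨g, hg, r, hr, e1⟩ := L.se2 x v ox ov y B.yN hy
  have ng := zpowers_le.2 (mul_mem nx nb) hg
  have hle : cj g (M ⊓ cs (I ⊓ J) x) ≤ cj y (I ⊓ M) := by
    rw [cj_inf y, cj_eq (nM ny)]
    rintro _ ⟨m0, ⟨hm0, -, hm1⟩, rfl⟩
    change g * m0 * g⁻¹ ∈ _
    have hm := conj_mem (nM ng) hm0
    refine ⟨?_, hm⟩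
    have h1 : ⁅g * m0 * g⁻¹, g * x * g⁻¹⁆ ∈ I ⊓ J := by
      rw [← conjugate_commutatorElement]; exact conj_mem ng.1.2 hm1
    generalize g * m0 * g⁻¹ = m at hm h1
    obtain ⟨a, ha, z, hz, rfl⟩ := (mem_sup_nr (le_norm_cent le_normalizer)).1 hr
    have h2 : ⁅m, a * z⁆ ∈ I ⊓ J := by
      rw [comm_mul_right, commutatorElement_eq_one_iff_mul_comm.2 (comm_of_mem hz (hIJ hm.1)), mul_one,
        mul_inv_cancel, mul_one]
      exact comm_symm (hm.2.2 a ha)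
    have h3 : ⁅m, y * v * y⁻¹⁆ ∈ I ⊓ J := by
      rw [e1, comm_mul_right]
      exact mul_mem h1 (conj_mem (mul_mem (mul_mem ng.1.2 nx.1.2) (inv_mem ng.1.2)) h2)
    obtain ⟨i, hi, j', hj'', rfl⟩ := (mem_sup_nr (B.le.trans nJ)).1 hm.1
    rw [comm_mul_left] at h3
    exact mul_mem (c.inj' i hi ((mul_mem_cancel_left (mul_mem (mul_mem hi (hZD (hb2 j' hj'')).1) (inv_mem hi))).1
      h3.1)) hj''
  have h1 := card_le_of_le hle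
  rw [card_cj, card_cj] at h1
  exact hlt.ne (eq_of_le_of_card_ge hlt.le h1)

end CL.LQ
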