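/-
Project LQ (S1769), step C4: no essential subgroup contains `Q`.
-/
import Cfsg.Agent.LQ.Star

set_option autoImplicit false
open Cfsg Matrix Subgroup CL.Grp CL.Even CL.Loc
open scoped commutatorElement

namespace CL.LQ

universe u v

namespace C4x

open Starx

section Model

variable {n : ℕ} {F : Type v} [Field F]

/-- the stabiliser of `(a, b)` -/
def Stb (a b : Fin n → F) : Subgroup (U n F) where
  carrier := {x | a ᵥ* x.g = a ∧ x.g *ᵥ b = b}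
  one_mem' := ⟨by simp, by simp⟩
  mul_mem' := fun {x y} hx hy => ⟨by rw [U.mul_g, ← vecMul_vecMul, hx.1, hy.1],
    by rw [U.mul_g, ← mulVec_mulVec, hy.2, hx.2]⟩
  inv_mem' := fun {x} hx => ⟨U.vecMul_inv_of hx.1, U.inv_mulVec_of hx.2⟩

theorem stb_iff {a b : Fin n → F} (c : F) {x : U n F} : x ∈ Stb a b ↔ ⁅x, U.q a b c⁆ ∈ U.Z n F := by
  rw [U.comm_q, U.mem_Z, U.q_u, U.q_w, sub_eq_zero, sub_eq_zero]
  refine ⟨fun h => ⟨rfl, U.vecMul_inv_of h.1, h.2⟩, fun h => ⟨?_, h.2.2⟩⟩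
  conv_lhs => rw [← h.2.1]
  simp

theorem vecMul_T (a s φ : Fin n → F) (t : F) : a ᵥ* (1 + t • vecMulVec s φ) = a + (t * (a ⬝ᵥ s)) • φ := by
  rw [vecMul_add, vecMul_one, vecMul_smul, vecMul_vecMulVec, smul_smul]

theorem T_mulVec (b s φ : Fin n → F) (t : F) : (1 + t • vecMulVec s φ) *ᵥ b = b + (t * (φ ⬝ᵥ b)) • s := by
  rw [add_mulVec, one_mulVec, smul_mulVec, vecMulVec_mulVec, op_smul_eq_smul, smul_smul]

/-- transvections -/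
def T {s φ : Fin n → F} (h : U.Adm s φ) (t : F) : U n F := U.l _ (h.ut t)

theorem T_mem {s φ : Fin n → F} (h : U.Adm s φ) (t : F) {a b : Fin n → F} :
    T h t ∈ Stb a b ↔ t * (a ⬝ᵥ s) = 0 ∧ t * (φ ⬝ᵥ b) = 0 := by
  change a ᵥ* (1 + t • vecMulVec s φ) = a ∧ (1 + t • vecMulVec s φ) *ᵥ b = b ↔ _
  rw [vecMul_T, T_mulVec, add_eq_left, add_eq_left, smul_eq_zero_iff_left h.φ0, smul_eq_zero_iff_left h.s0]

theorem T_sq [CharP F 2] {s φ : Fin n → F} (h : U.Adm s φ) (t : F) : T h t * T h t = 1 :=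
  U.ext (by simp [T]) (by
    rw [U.mul_g, T, U.l_g, U.one_add_mul t (h.ut t), CharTwo.add_self_eq_zero, zero_smul, add_zero, U.one_g])
    (by simp [T]) (by simp [T])

theorem comm_T [CharP F 2] {s φ : Fin n → F} (h : U.Adm s φ) (t : F) (u w : Fin n → F) (c : F) :
    ∃ c', ⁅T h t, U.q u w c⁆ = U.q ((t * (u ⬝ᵥ s)) • φ) ((t * (φ ⬝ᵥ w)) • s) c' := by
  have e : (T h t).g⁻¹ = (T h t).g := by rw [← U.inv_g, inv_eq_of_mul_eq_one_left (T_sq h t)]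
  refine ⟨_, (U.comm_q _ _ _ _).trans (U.q_inj.2 ⟨?_, ?_, rfl⟩)⟩
  · rw [e, T, U.l_g, vecMul_T, add_sub_cancel_left]
  · rw [T, U.l_g, T_mulVec, add_sub_cancel_left]

theorem commute_iff {u w u' w' : Fin n → F} {c c' : F} :
    Commute (U.q u w c) (U.q u' w' c') ↔ u ⬝ᵥ w' - u' ⬝ᵥ w = 0 := by
  rw [← commutatorElement_eq_one_iff_commute, U.comm_qq, U.q_eq_one]; simp

theorem adm {s : Fin (n + 1) → F} (h : s ≠ 0) (hl : s (Fin.last n) = 0) : U.Adm s (Pi.single (Fin.last n) 1) :=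
  ⟨h, by simp, fun i j hij => by
    by_cases hj : j = Fin.last n
    · subst hj; rw [Fin.last_le_iff.1 hij, hl, zero_mul]
    · rw [Pi.single_eq_of_ne hj, mul_zero]⟩

theorem adm1 {t : Fin (n + 1)} (h : t ≠ Fin.last n) :
    U.Adm (Pi.single t 1 : Fin (n + 1) → F) (Pi.single (Fin.last n) 1) := adm (by simp) (Pi.single_eq_of_ne h.symm _)

theorem adm0 : U.Adm (Pi.single 0 1 : Fin (n + 2) → F) (Pi.single (Fin.last (n + 1)) 1) :=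
  adm1 (Fin.last_pos.ne)

theorem last_fix {a : Fin (n + 1) → F} (h : ∀ t, t ≠ Fin.last n → a t = 0) (x : U (n + 1) F) : x ∈ Stb a 0 :=
  ⟨funext fun j => x.ut.vecMul_apply fun i hi => h i (hi.trans_le (Fin.le_last j)).ne, by simp⟩

theorem zero_fix (x : U (n + 1) F) : x ∈ Stb 0 (Pi.single 0 1) :=
  ⟨by simp, funext fun j => x.ut.mulVec_apply fun i hi => Pi.single_eq_of_ne ((Fin.zero_le j).trans_lt hi).ne' _⟩

theorem two {a b : Fin (n + 2) → F} (h : ∀ x, x ∈ Stb a 0 ↔ x ∈ Stb 0 b) (h1 : ∃ x, x ∉ Stb a 0)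
    (h2 : T adm0 1 ∈ Stb a 0) : False := by
  obtain ⟨t, ht, ha⟩ : ∃ t, t ≠ Fin.last (n + 1) ∧ a t ≠ 0 := by
    by_contra! hn
    exact h1.choose_spec (last_fix hn _)
  have := (h (T (adm1 ht) 1)).2
  rw [h, T_mem] at h2
  rw [T_mem, T_mem] at this
  exact ha (by simpa using (this ⟨by simp, h2.2⟩).1)

end Model

variable {G : Type*} [Group G] {n : ℕ} {F : Type v} [Field F]

theorem q_mem (e : U n F →* G) (a b : Fin n → F) (c : F) : e (U.q a b c) ∈ Pt e a b :=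
  mem_map_of_mem e ⟨rfl, 1, by simp, by simp⟩

theorem Z_le_Pt (e : U n F →* G) (a b : Fin n → F) : Z e ≤ Pt e a b :=
  map_mono fun _ h => ⟨h.1, 0, by simp [h.2.1], by simp [h.2.2]⟩

theorem mem_Pt {e : U n F →* G} {a b : Fin n → F} {x : G} :
    x ∈ Pt e a b ↔ ∃ t c : F, e (U.q (t • a) (t • b) c) = x :=
  ⟨fun ⟨s, ⟨h1, t, h2, h3⟩, h⟩ => ⟨t, s.c, by rw [← h2, ← h3, ← U.eq_q h1, h]⟩,
    fun ⟨t, _, h⟩ => ⟨_, ⟨rfl, t, rfl, rfl⟩, h⟩⟩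

theorem lam [Finite G] [CharP F 2] {e : U n F →* G} (he : St e) {s φ : Fin n → F} (h : U.Adm s φ) (t : F) {y : G}
    (yQ : y ∈ 𝒩(Q e)) (nz : 𝒩(Q e) ≤ 𝒩(Z e)) (yo : Odd (orderOf y)) (yi : e (T h t) * y * (e (T h t))⁻¹ = y⁻¹)
    {a0 b0 : Fin n → F} (h0 : ∀ u w c, u ⬝ᵥ b0 - a0 ⬝ᵥ w = 0 → ⁅T h t, U.q u w c⁆ ∈ U.Pt a0 b0)
    {a b : Fin n → F} {c : F} (e1 : y * e (U.q a0 b0 0) * y⁻¹ = e (U.q a b c)) : a ⬝ᵥ b0 - a0 ⬝ᵥ b = 0 := by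
  set v := e (T h t) with hv
  have vv : v * v = 1 := by rw [hv, ← map_mul, T_sq, map_one]
  have cq : ∀ x ∈ Q e, Commute ⁅v, x⁆ x := fun x hx => by
    obtain ⟨u, w, c, rfl⟩ := mem_Q.1 hx
    obtain ⟨c', e2⟩ := comm_T h t u w c
    rw [hv, ← map_commutatorElement, e2]
    refine (commute_iff.2 ?_).map e
    simp only [smul_dotProduct, dotProduct_smul, smul_eq_mul]
    ring
  have bQ : y * v * y⁻¹ ∈ 𝒩(Q e) := conj_mem (le_normalizer yQ) (S_le_NQ e (apply_mem_S e _))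
  set Y := Q e ⊓ centralizer {e (U.q a0 b0 0)} with hY
  have mY : ∀ u w c, e (U.q u w c) ∈ Y ↔ u ⬝ᵥ b0 - a0 ⬝ᵥ w = 0 := fun u w c => by
    rw [← commute_iff (c := c) (c' := 0), hY, mem_inf, mem_centralizer_singleton_iff, ← map_mul, ← map_mul,
      he.inj.eq_iff]
    exact ⟨fun h => h.2, fun h => ⟨mem_Q.2 ⟨_, _, _, rfl⟩, h⟩⟩
  have RY : Pt e a0 b0 ≤ Y := fun r hr => by
    obtain ⟨t, c, rfl⟩ := mem_Pt.1 hr
    rw [mY]; simp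
  have h1 : Pt e a0 b0 ⊔ cj (y * v * y⁻¹) (Pt e a0 b0) ≤ Y := by
    refine sup_le RY ?_
    rintro _ ⟨r, hr, rfl⟩
    change y * v * y⁻¹ * r * (y * v * y⁻¹)⁻¹ ∈ Y
    have hrQ := (RY hr).1
    have h2 : Commute ⁅y * v * y⁻¹, r⁆ r := by
      have := (cq _ (conj_mem' yQ hrQ)).map (MulAut.conj y)
      simpa [commutatorElement_def, mul_assoc] using this
    obtain ⟨α, c, rfl⟩ := mem_Pt.1 hr
    by_cases hα : α = 0
    · subst hα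
      exact RY (Z_le_Pt e _ _ (conj_mem (nz bQ) (mem_Z.2 ⟨c, by simp⟩)))
    obtain ⟨u, w, c', e2⟩ := mem_Q.1 (mul_mem (conj_mem bQ hrQ) (inv_mem hrQ))
    rw [commutatorElement_def, ← e2, Commute, SemiconjBy, ← map_mul, ← map_mul, he.inj.eq_iff] at h2
    have h3 := commute_iff.1 h2
    rw [eq_mul_inv_iff_mul_eq] at e2
    rw [← e2]
    refine mul_mem ((mY _ _ _).2 (mul_left_cancel₀ hα ?_)) (RY hr)
    simp only [smul_dotProduct, dotProduct_smul, smul_eq_mul] at h3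
    linear_combination h3
  have h2 : v ∈ 𝒩(Pt e a0 b0 ⊔ cj (y * v * y⁻¹) (Pt e a0 b0)) := nrm fun m hm => mem_sup_left (comm_symm (by
    obtain ⟨u, w, c, rfl⟩ := mem_Q.1 (h1 hm).1
    rw [hv, ← map_commutatorElement]
    exact mem_map_of_mem e (h0 u w c ((mY _ _ _).1 (h1 hm)))))
  have h3 : y * v * y⁻¹ ∈ 𝒩(Pt e a0 b0 ⊔ cj (y * v * y⁻¹) (Pt e a0 b0)) := by
    rw [← cj_eq_iff_mem, cj_sup, ← cj_mul, conj_mul, vv, mul_one, mul_inv_cancel, cj_one, sup_comm]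
  have h4 : y ∈ 𝒩(Pt e a0 b0 ⊔ cj (y * v * y⁻¹) (Pt e a0 b0)) := by
    refine mem_of_pow_mem_of_coprime (n := 2) yo.coprime_two_right ?_
    have := mul_mem h3 (inv_mem h2)
    rwa [show y * v * y⁻¹ * v⁻¹ = y * (v * y * v⁻¹)⁻¹ by group, yi, inv_inv, ← pow_two] at this
  exact (mY _ _ _).1 (e1 ▸ h1 (conj_mem h4 (mem_sup_left (q_mem e _ _ _))))

end C4x

namespace C4x

open Starx

variable {G : Type u} [Group G] [Finite G] {n : ℕ} {F : Type v} [Field F] {e : U (n + 2) F →* G} {E : Subgroup G}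

theorem one (he : St e) (pt : PT e) (L : Loc' (S e) E (𝒩(E) ⊓ 𝒩(V e))) (c1 : 𝒩(E) ≤ 𝒩(Q e))
    {a0 b0 : Fin (n + 2) → F} (h0 : a0 ≠ 0 ∨ b0 ≠ 0) (hf : ∀ x, x ∈ Stb a0 b0)
    (f : 𝒩(Q e) ⊓ 𝒩(Pt e a0 b0) ≤ 𝒩(V e)) {g : G} (hg : g ∈ 𝒩(E)) (hg' : g ∉ 𝒩(E) ⊓ 𝒩(V e)) :
    ∃ a b c, g * e (U.q a0 b0 0) * g⁻¹ = e (U.q a b c) ∧ cj g (Pt e a0 b0) = Pt e a b ∧
      ∀ x, e x ∈ E ↔ x ∈ Stb a b := by
  obtain ⟨a, b, c, e1⟩ := mem_Q.1 (conj_mem (c1 hg) (mem_Q.2 ⟨a0, b0, 0, rfl⟩))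
  have e2 := (pt.pt2 g (c1 hg) _ _ _ _ _ _ h0 e1.symm).2
  have h1 : ∀ x, e x ∈ E → x ∈ Stb a b := fun x hx => by
    obtain ⟨x', e3⟩ := L.lt.le (conj_mem' hg hx)
    rw [stb_iff c, ← he.mem_map, map_commutatorElement, e1, comm_conj, ← e3, ← map_commutatorElement]
    exact conj_mem (pt.nz (c1 hg)) (mem_map_of_mem e ((stb_iff 0).1 (hf x')))
  refine ⟨a, b, c, e1.symm, e2, fun x => ⟨h1 x, fun hx => ?_⟩⟩
  by_contra hxE
  have h2 : E ≤ (Stb a b).map e := fun s hs => by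
    obtain ⟨x', rfl⟩ := L.lt.le hs
    exact mem_map_of_mem e (h1 x' hs)
  obtain ⟨_, ⟨z, hz, rfl⟩, z1, z2⟩ := exists_norm_not_mem L.isP L.lt.le (map_le_S e _) (le_norm_of_le h2)
    fun k => hxE (k (mem_map_of_mem e hx))
  have h3 : e z ∈ 𝒩(Pt e a b) := nrm fun m hm => Z_le_Pt e _ _ (comm_symm (by
    obtain ⟨t, c, rfl⟩ := mem_Pt.1 hm
    rw [← map_commutatorElement]
    exact mem_map_of_mem e ((stb_iff c).1 ⟨by rw [smul_vecMul, hz.1], by rw [mulVec_smul, hz.2]⟩)))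
  rw [← e2, ← cj_norm, mem_cj] at h3
  have h4 := conj_mem' (le_normalizer hg) z1
  exact hg' (inv_mem_iff.1 (L.se1 _ (apply_mem_S e z) z1 z2 g⁻¹ (inv_mem hg) (by
    rw [inv_inv]; exact ⟨h4, f ⟨c1 h4, h3⟩⟩)))

theorem key [CharP F 2] (he : St e) (pt : PT e) (L : Loc' (S e) E (𝒩(E) ⊓ 𝒩(V e))) (c1 : 𝒩(E) ≤ 𝒩(Q e))
    (fV : 𝒩(Q e) ⊓ 𝒩(Pt e (Pi.single (Fin.last (n + 1)) 1) 0) ≤ 𝒩(V e))
    (fW : 𝒩(Q e) ⊓ 𝒩(Pt e 0 (Pi.single 0 1)) ≤ 𝒩(V e)) {t : F} (hv : e (T adm0 t) ∉ E) {y : G} (hy : y ∈ 𝒩(E))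
    (hy' : y ∉ 𝒩(E) ⊓ 𝒩(V e)) (yo : Odd (orderOf y)) (yi : e (T adm0 t) * y * (e (T adm0 t))⁻¹ = y⁻¹) :
    V e = Pt e (Pi.single (Fin.last (n + 1)) 1) 0 ⊔ cj y (Pt e (Pi.single (Fin.last (n + 1)) 1) 0) := by
  obtain ⟨a, b, c, e1, e2, e3⟩ := one he pt L c1 (Or.inl (by simp))
    (last_fix fun t ht => Pi.single_eq_of_ne ht _) fV hy hy'
  obtain ⟨a', b', c', e4, -, e5⟩ := one he pt L c1 (Or.inr (by simp)) zero_fix fW hy hy'
  have k1 := lam he adm0 t (c1 hy) pt.nz yo yi (fun u w c h => by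
    obtain ⟨c', e6⟩ := comm_T adm0 t u w c
    rw [dotProduct_zero, zero_sub, neg_eq_zero] at h
    rw [e6, h]
    exact ⟨rfl, _, rfl, by simp⟩) e1
  have k2 := lam he adm0 t (c1 hy) pt.nz yo yi (fun u w c h => by
    obtain ⟨c', e6⟩ := comm_T adm0 t u w c
    rw [zero_dotProduct, sub_zero] at h
    rw [e6, h]
    exact ⟨rfl, _, by simp, rfl⟩) e4
  rw [dotProduct_zero, zero_sub, neg_eq_zero] at k1
  rw [zero_dotProduct, sub_zero] at k2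
  have k3 : a 0 ≠ 0 := fun h => hv ((e3 _).2 ((T_mem _ _).2 ⟨by simp [h], by rw [k1, mul_zero]⟩))
  have k4 : Pi.single (Fin.last (n + 1)) 1 ⬝ᵥ b' ≠ 0 := fun h =>
    hv ((e5 _).2 ((T_mem _ _).2 ⟨by rw [k2, mul_zero], by rw [h, mul_zero]⟩))
  by_cases hn : n = 0
  · subst hn
    have k5 : a ⬝ᵥ b = 0 := by
      have h1 : e (U.q a b c * U.q a b c) = 1 := by
        rw [map_mul, ← e1, conj_mul, ← map_mul, U.sq_q, dotProduct_zero, U.q_zero, map_one, mul_one, mul_inv_cancel]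
      rw [he.eq_one, U.sq_q, U.q_eq_one] at h1
      exact h1.2.2
    have k6 : b 1 = 0 := by simpa using k1
    obtain rfl : b = 0 := by
      rw [dotProduct, Fin.sum_univ_two, k6, mul_zero, add_zero] at k5
      exact funext (Fin.forall_fin_two.2 ⟨(mul_eq_zero.1 k5).resolve_left k3, k6⟩)
    have hle : ∀ a : Fin (0 + 2) → F, Pt e a 0 ≤ V e := fun a => map_mono fun x ⟨h1, t, _, h2⟩ => ⟨h1, by simp [h2]⟩
    rw [e2]
    refine le_antisymm (fun x hx => ?_) (sup_le (hle _) (hle _))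
    obtain ⟨u, c, rfl⟩ := mem_V.1 hx
    have := mul_mem_sup (mem_Pt.2 ⟨u 1 - u 0 / a 0 * a 1, c, rfl⟩ : _ ∈ Pt e (Pi.single (Fin.last 1) 1) 0)
      (mem_Pt.2 ⟨u 0 / a 0, 0, rfl⟩ : _ ∈ Pt e a 0)
    rw [← map_mul, U.q_mul] at this
    convert this using 3
    · exact funext (Fin.forall_fin_two.2 ⟨by simp [k3], by simp⟩)
    · simp
    · simp
  · exfalso
    have h1 : (1 : Fin (n + 2)) ≠ Fin.last (n + 1) := fun h => hn (by simpa using (congrArg Fin.val h).symm)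
    have hs : U.Adm (a 1 • Pi.single 0 1 - a 0 • Pi.single 1 1 : Fin (n + 2) → F) (Pi.single (Fin.last (n + 1)) 1) :=
      adm (fun h => k3 (by simpa using congrFun h 1)) (by simp [h1.symm, Fin.last_pos.ne'])
    have h2 := (e5 _).1 ((e3 _).2 ((T_mem hs 1).2 ⟨by simp [mul_comm], by rw [k1, mul_zero]⟩))
    exact k4 (by simpa using ((T_mem hs 1).1 h2).2)

end C4x

open C4x

theorem c4 (h0 : All.{u, v} @PT) (h1 : All.{u, v} @C1) (h2 : All.{u, v} @F1) (h3 : All.{u, v} @F2)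
    (h4 : All.{u, v} @F3) : All.{u, v} @C4 := by
  intro G _ _ n F _ _ _ e he E hQ L
  have pt := h0 e he
  have c1 := h1 e he E hQ L.lt.le
  have fV : 𝒩(Q e) ⊓ 𝒩(Pt e (Pi.single (Fin.last (n + 1)) 1) 0) ≤ 𝒩(V e) := fun x hx =>
    h3 e he ⟨hx.1, h2 e he (pt.rV ▸ hx)⟩
  have fW : 𝒩(Q e) ⊓ 𝒩(Pt e 0 (Pi.single 0 1)) ≤ 𝒩(V e) := pt.rW ▸ F1.sym h2 he
  obtain ⟨g, hg, hg'⟩ := SetLike.not_le_iff_exists.1 L.ne
  obtain ⟨t, hv⟩ : ∃ t : F, e (T adm0 t) ∉ E := by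
    by_contra! hn
    have hX : XX e (Pi.single 0 1) (Pi.single (Fin.last (n + 1)) 1) ≤ E := by
      rintro _ ⟨x, ⟨t, hx⟩, rfl⟩
      rw [← mul_inv_cancel_left (T adm0 t) x, map_mul]
      refine mul_mem (hn t) (hQ (mem_map_of_mem e ?_))
      rw [U.mem_Q, U.mul_g, U.inv_g, hx]
      exact (T adm0 t).g_inv_mul
    obtain ⟨a, b, c, -, e2, e3⟩ := one he pt L c1 (Or.inl (by simp))
      (last_fix fun t ht => Pi.single_eq_of_ne ht _) fV hg hg'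
    obtain ⟨a', b', c', -, e4, e5⟩ := one he pt L c1 (Or.inr (by simp)) zero_fix fW hg hg'
    obtain ⟨_, ⟨x, rfl⟩, hx⟩ := SetLike.exists_of_lt L.lt
    have := h4 e he _ _ adm0 g (c1 hg) ((cj_le_of_le hX hg).trans L.lt.le)
    rw [e2, e4] at this
    rcases this with ⟨k1, k2⟩ | ⟨k1, k2⟩
    · obtain rfl : b = 0 := (he.mem_map.1 (k1 (q_mem e _ _ 0))).2
      obtain rfl : a' = 0 := (he.mem_map.1 (k2 (q_mem e _ _ 0))).2
      exact two (fun x => (e3 x).symm.trans (e5 x)) ⟨x, mt (e3 x).2 hx⟩ ((e3 _).1 (hn 1))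
    · obtain rfl : a = 0 := (he.mem_map.1 (k1 (q_mem e _ _ 0))).2
      obtain rfl : b' = 0 := (he.mem_map.1 (k2 (q_mem e _ _ 0))).2
      exact two (fun x => (e5 x).symm.trans (e3 x)) ⟨x, mt (e5 x).2 hx⟩ ((e5 _).1 (hn 1))
  have vv : e (T adm0 t) * e (T adm0 t) = 1 := by rw [← map_mul, T_sq, map_one]
  have vN : e (T adm0 t) ∈ 𝒩(E) := Starx.nrm fun m hm => hQ (Starx.comm_symm
    ((pt.cen _ (apply_mem_S e _)).1 (mem_map_of_mem e ⟨t, rfl⟩) m (L.lt.le hm)))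
  obtain ⟨y, hy, -, hy', yo, yi⟩ := L.se3 _ ⟨apply_mem_S e _, vN, hv, vv ▸ one_mem _⟩ vv ⊤ (mem_top _) g hg
    (mem_top _) hg'
  have k1 := key he pt L c1 fV fW hv hy hy' yo yi
  have k2 := key he pt L c1 fV fW hv (inv_mem hy) (mt inv_mem_iff.1 hy') (by rwa [orderOf_inv])
    (by rw [← conj_inv, yi])
  refine hy' ⟨hy, cj_eq_iff_mem.1 ?_⟩
  conv_lhs => rw [k2, cj_sup, cj_cj_inv, sup_comm, ← k1]

end CL.LQ
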