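/-
Project LQ (S1769): the case `Q ≤ E` when `W` and `Q` are normal (job LQ-C4W).
-/
import Cfsg.Agent.LQ.Defs

set_option autoImplicit false
open Cfsg Matrix Subgroup CL.Grp CL.Even CL.Loc
open scoped commutatorElement

namespace CL.LQ

universe u v

namespace C4Wx

variable {G : Type*} [Group G] {n : ℕ} {F : Type v} [Field F]

/-- the linear algebra: `R` is the graph of an alternating map -/
theorem lin [CharP F 2] {R : (Fin (n + 2) → F) → (Fin (n + 2) → F) → Prop} (ex : ∀ u, ∃ w, R u w)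
    (sub : ∀ {u w u' w'}, R u w → R u' w' → R (u - u') (w - w')) (sq : ∀ {u w}, R u w → u ⬝ᵥ w = 0)
    (sym : ∀ {u w u' w'}, R u w → R u' w' → u ⬝ᵥ w' = u' ⬝ᵥ w) {b : Fin (n + 2) → F} {i : Fin (n + 2)} (i0 : i ≠ 0)
    (bi : b i ≠ 0) (inv : ∀ f : Fin (n + 2) → F, f 0 = 0 → f ⬝ᵥ b = 0 → ∀ u w, R u w →
      R (u - u 0 • f) (w + (f ⬝ᵥ w) • Pi.single 0 1)) (u w : Fin (n + 2) → F) (h : R u w) :
    R (u - u 0 • Pi.single i 1) (w + (Pi.single i 1 ⬝ᵥ w) • Pi.single 0 1) := by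
  obtain ⟨w0, h0⟩ := ex (Pi.single 0 1)
  obtain ⟨a, ha⟩ := ex (Pi.single i 1)
  have ai : a i = 0 := by simpa using sq ha
  have ak : ∀ k, k ≠ 0 → a k = 0 := fun k k0 => by
    have h1 := sym (sub h0 (inv (b i • Pi.single k 1 - b k • Pi.single i 1) (by simp [i0.symm, k0.symm])
      (by simp [mul_comm]) _ _ h0)) ha
    simpa [i0, ai, bi] using h1
  obtain ⟨a', ha'⟩ := ex (u 0 • Pi.single i 1)
  have e1 : a' = u 0 • a := funext fun k => by
    obtain ⟨c, hc⟩ := ex (Pi.single k 1)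
    have h1 := sym hc ha'
    have h2 := sym hc ha
    simp only [single_one_dotProduct, smul_dotProduct] at h1 h2
    rw [h1, ← h2, Pi.smul_apply]
  have e2 : w i = u 0 * a 0 := by
    have h1 := sym ha h
    rw [single_one_dotProduct, dotProduct, Finset.sum_eq_single 0 (fun k _ k0 => by rw [ak k k0, mul_zero])
      (by simp)] at h1
    exact h1
  convert sub h ha' using 1
  funext k
  by_cases k0 : k = 0
  · simp [k0, e1, e2, CharTwo.sub_eq_add]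
  · simp [k0, e1, ak k k0]

theorem ut {f : Fin (n + 2) → F} (h : f 0 = 0) : IsUT (1 + (1 : F) • vecMulVec (Pi.single 0 1) f) :=
  .one_add fun i j hij => by
    by_cases k : i = 0
    · rw [k, Fin.le_zero_iff] at hij
      simp [vecMulVec_apply, hij, h]
    · simp [vecMulVec_apply, k]

theorem inv_x {f : Fin (n + 2) → F} (h : f 0 = 0) :
    (U.l _ (ut h)).g⁻¹ = 1 + (-1 : F) • vecMulVec (Pi.single 0 1) f :=
  inv_eq_right_inv (by rw [U.l_g, U.one_add_mul (-1) (ut h)]; simp)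

theorem mv {f : Fin (n + 2) → F} (t : F) (w : Fin (n + 2) → F) :
    (1 + t • vecMulVec (Pi.single 0 1) f) *ᵥ w = w + (t * f ⬝ᵥ w) • (Pi.single 0 1 : Fin (n + 2) → F) := by
  simp [add_mulVec, smul_mulVec, vecMulVec_mulVec, smul_smul]

theorem conj_x {f : Fin (n + 2) → F} (h : f 0 = 0) (u w : Fin (n + 2) → F) (c : F) :
    U.l _ (ut h) * U.q u w c * (U.l _ (ut h))⁻¹ = U.q (u - u 0 • f) (w + (f ⬝ᵥ w) • Pi.single 0 1) c := by
  rw [U.conj_q, inv_x h, U.l_g, mv, U.q_inj]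
  simp [vecMul_add, vecMul_neg, vecMul_vecMulVec, sub_eq_add_neg]

theorem fix0 (x : U (n + 2) F) {b : Fin (n + 2) → F} (h : ∀ i, i ≠ 0 → b i = 0) : x.g *ᵥ b = b :=
  funext fun _ => x.ut.mulVec_apply fun j hj => h j hj.ne_zero

/-- the stabiliser of a vector -/
def T (b : Fin n → F) : Subgroup (U n F) where
  carrier := {x | x.g *ᵥ b = b}
  one_mem' := one_mulVec b
  mul_mem' := fun {x y} (hx : _ = _) (hy : _ = _) => show _ = _ by rw [U.mul_g, ← mulVec_mulVec, hy, hx]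
  inv_mem' := fun hx => U.inv_mulVec_of hx

theorem norm_map (e : U n F →* G) [Finite G] {X : Subgroup (U n F)} {x : U n F} (h : ∀ y ∈ X, x * y * x⁻¹ ∈ X) :
    e x ∈ 𝒩(X.map e) := mem_norm_of_cj_le (by
  rintro _ ⟨_, ⟨y, hy, rfl⟩, rfl⟩
  exact ⟨_, h y hy, by simp⟩)

theorem mem_of_cj {H : Subgroup G} {g x : G} (h : x ∈ 𝒩(cj g H)) : g⁻¹ * x * g ∈ 𝒩(H) := by
  rwa [← cj_norm, mem_cj] at h

end C4Wx

open C4Wx in
theorem c4w (h0 : All.{u, v} @PT) (h2 : All.{u, v} @F1) : All.{u, v} @C4W := by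
  intro G _ _ n F _ _ _ e he nW nQ E QE hl
  have := Nat.fact_prime_two
  have pt := h0 e he
  have nZ : ∀ g, g ∈ 𝒩(Z e) := fun g => pt.nz (nQ g)
  obtain ⟨g, hg, gK⟩ := SetLike.not_le_iff_exists.1 hl.ne
  have key : ∀ x ∈ S e, x ∈ 𝒩(E) → x ∉ E → g⁻¹ * x * g ∉ 𝒩(V e) := fun x h1 h3 h4 h5 =>
    gK (inv_mem_iff.1 (hl.se1 x h1 h3 h4 g⁻¹ (inv_mem hg) (by
      rw [inv_inv]; exact mem_inf.2 ⟨mul_mem (mul_mem (inv_mem hg) h3) hg, h5⟩)))
  obtain ⟨b, c, hb⟩ := mem_W.1 (conj_mem (nW g) (mem_W.2 ⟨Pi.single 0 1, 0, rfl⟩))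
  have p2 := (pt.pt2 g (nQ g) _ _ _ _ _ _ (Or.inr (by simp)) hb.symm).2
  have ET : E ≤ (T b).map e := fun s hs => by
    obtain ⟨x, rfl⟩ := hl.lt.le hs
    obtain ⟨y, hy⟩ := hl.lt.le (conj_mem' hg hs)
    have k : ⁅e y, e (U.q 0 (Pi.single 0 1) 0)⁆ ∈ Z e := by
      rw [← map_commutatorElement, U.comm_q]
      exact mem_map_of_mem e ⟨rfl, by simp, sub_eq_zero.2 (fix0 y fun i hi => Pi.single_eq_of_ne hi _)⟩
    have k1 := conj_mem (nZ g) k
    rw [conjugate_commutatorElement, ← hb, hy, show g * (g⁻¹ * e x * g) * g⁻¹ = e x by group, ← map_commutatorElement,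
      U.comm_q] at k1
    exact mem_map_of_mem e (sub_eq_zero.1 (he.mem_map.1 k1).2.2)
  have E0 : E = (T b).map e := ET.eq_or_lt.resolve_right fun k => by
    obtain ⟨_, ⟨⟨x, hx, rfl⟩, h3⟩, h4⟩ := SetLike.exists_of_lt
      (lt_inf_normalizer_of_isPGroup (he.isP.to_le (map_le_S e _)) k)
    refine key _ (apply_mem_S e x) h3 h4 (F1.sym h2 he ⟨nQ _, mem_of_cj ?_⟩)
    rw [pt.rW, p2]
    refine norm_map e fun y ⟨k1, t, k2, k3⟩ => ?_
    rw [U.eq_q k1, U.conj_q, k2, k3]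
    exact ⟨rfl, t, by simp, by rw [U.q_w, mulVec_smul, show x.g *ᵥ b = b from hx]⟩
  obtain ⟨i, i0, bi⟩ : ∃ i, i ≠ 0 ∧ b i ≠ 0 := by
    by_contra! k
    exact hl.lt.not_ge fun _ ⟨x, hx⟩ => E0 ▸ ⟨x, fix0 x k, hx⟩
  have ZB : Z e ≤ cj g (V e) := fun z hz => mem_cj.2 (Z_le_V e (conj_mem' (nZ g) hz))
  have ab : ∀ {u w c} (c'), e (U.q u w c) ∈ cj g (V e) → e (U.q u w c') ∈ cj g (V e) := fun {u w c} c' h => by
    have := mul_mem h (ZB (mem_Z.2 ⟨c' - c, rfl⟩))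
    rw [← map_mul, U.q_mul] at this
    simpa using this
  have nB : ∀ {f : Fin (n + 2) → F} (h : f 0 = 0), (∀ u w, e (U.q u w 0) ∈ cj g (V e) →
      e (U.q (u - u 0 • f) (w + (f ⬝ᵥ w) • Pi.single 0 1) 0) ∈ cj g (V e)) → e (U.l _ (ut h)) ∈ 𝒩(cj g (V e)) :=
    fun h k => mem_norm_of_cj_le (by
      rintro _ ⟨y, hy, rfl⟩
      obtain ⟨u, w, c, rfl⟩ := mem_Q.1 (cj_le_of_le (V_le_Q e) (nQ g) hy)
      have := ab c (k u w (ab 0 hy))
      rw [← conj_x h] at this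
      simpa using this)
  have f0 : (Pi.single i 1 : Fin (n + 2) → F) 0 = 0 := Pi.single_eq_of_ne i0.symm _
  refine key _ (apply_mem_S e (U.l _ (ut f0))) ?_ (fun k => bi ?_) (mem_of_cj (nB f0 (lin
    (R := fun u w => e (U.q u w 0) ∈ cj g (V e)) (fun u => ?_) (fun h1 h3 => ?_) (fun h1 => ?_) (fun h1 h3 => ?_) i0 bi
      fun f h1 h3 u w h4 => ?_)))
  · rw [E0]
    refine norm_map e fun y (hy : _ = _) => show _ = _ from ?_
    rw [U.mul_g, U.mul_g, U.inv_g, ← mulVec_mulVec, ← mulVec_mulVec]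
    conv_rhs => rw [← one_mulVec b, ← (U.l _ (ut f0)).g_mul_inv, ← mulVec_mulVec]
    rw [inv_x f0, mv, mulVec_add, hy, mulVec_smul, fix0 y fun j hj => Pi.single_eq_of_ne hj _]
  · have : _ = _ := he.mem_map.1 (E0 ▸ k)
    rw [U.l_g, mv] at this
    simpa using congrFun this 0
  · obtain ⟨x, hx, y, hy, k⟩ := exists_VW (conj_mem' (nQ g) (mem_Q.2 ⟨u, 0, 0, rfl⟩))
    obtain ⟨w, c, k1⟩ := mem_W.1 (conj_mem (nW g) hy)
    have k2 : g * x * g⁻¹ = e (U.q u 0 0 * (U.q 0 w c)⁻¹) := by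
      rw [map_mul, map_inv, k1, eq_mul_inv_iff_mul_eq, conj_mul, k]; group
    have := conj_mem_cj g hx
    rw [k2, U.q_inv, U.q_mul, neg_zero, add_zero] at this
    exact ⟨_, ab 0 this⟩
  · have := mul_mem h1 (inv_mem h3)
    rw [← map_inv, ← map_mul, U.q_inv, U.q_mul, ← sub_eq_add_neg, ← sub_eq_add_neg] at this
    exact ab 0 this
  · obtain ⟨x, hx, k⟩ := h1
    have := congrArg (MulAut.conj g).toMonoidHom (V_sq hx)
    rw [map_mul, k, map_one, ← map_mul, U.sq_q, he.eq_one, U.q_eq_one] at this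
    exact this.2.2
  · obtain ⟨x, hx, k⟩ := h1
    obtain ⟨y, hy, k1⟩ := h3
    have := congrArg (MulAut.conj g).toMonoidHom (commutatorElement_eq_one_iff_mul_comm.2 (V_comm hx hy))
    rw [map_commutatorElement, k, k1, map_one, ← map_commutatorElement, U.comm_qq, he.eq_one, U.q_eq_one] at this
    exact sub_eq_zero.1 this.2.2
  · have k : e (U.l _ (ut h1)) ∈ E := E0 ▸ mem_map_of_mem e (show _ = _ by rw [U.l_g, mv, h3]; simp)
    have k1 : e (U.l _ (ut h1)) ∈ 𝒩(cj g (V e)) := by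
      rw [← cj_norm, mem_cj]
      exact S_le_NV e (hl.lt.le (conj_mem' hg k))
    have := conj_mem k1 h4
    rwa [← map_inv, ← map_mul, ← map_mul, conj_x h1] at this

end CL.LQ
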