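/-
Project LQ (S1769): the step `DG1` (diagonal elements).
-/
import Cfsg.Agent.LQ.Defs

set_option autoImplicit false
open Cfsg Matrix Subgroup CL.Grp CL.Even CL.Loc
open scoped commutatorElement

namespace CL.LQ

universe u v

namespace Dg1

variable {n : ℕ} {F : Type v} [Field F]

theorem cq (j : U n F) (a b : Fin n → F) (c : F) :
    ⁅j, U.q a b c⁆ = 1 ↔ a ᵥ* j.g⁻¹ = a ∧ j.g *ᵥ b = b ∧ j.u ⬝ᵥ b = a ⬝ᵥ j.w := by
  rw [U.comm_q, U.q_eq_one, sub_eq_zero, sub_eq_zero]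
  refine and_congr_right fun h => and_congr_right fun _ => ?_
  rw [h, add_sub_cancel_right, sub_eq_zero]

theorem cq_smul {j s : U n F} {a : Fin n → F} {c : F} (h : ⁅j, ⁅s, U.q a 0 c⁆⁆ = 1) (t : F) :
    ⁅j, ⁅s, U.q (t • a) 0 0⁆⁆ = 1 := by
  rw [U.comm_q, cq] at h ⊢
  rw [smul_vecMul, ← smul_sub, smul_vecMul, h.1, smul_dotProduct, ← h.2.2]
  simp

variable {G : Type u} [Group G]

/-- the elements of `V` that are congruent modulo `W` to an element of `E` -/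
def YY (e : U n F →* G) (E : Subgroup G) : Subgroup G where
  carrier := {u | u ∈ V e ∧ ∃ w ∈ W e, u * w ∈ E}
  one_mem' := ⟨one_mem _, 1, one_mem _, mul_mem (one_mem _) (one_mem _)⟩
  mul_mem' := by
    rintro a b ⟨ha, w, hw, h1⟩ ⟨hb, w', hw', h2⟩
    refine ⟨mul_mem ha hb, _, mul_mem (conj_mem' (S_le_NW e (V_le_S e hb)) hw) hw', ?_⟩
    simpa only [mul_assoc, mul_inv_cancel_left] using mul_mem h1 h2
  inv_mem' := by
    rintro a ⟨ha, w, hw, h1⟩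
    refine ⟨inv_mem ha, _, conj_mem (S_le_NW e (V_le_S e ha)) (inv_mem hw), ?_⟩
    simpa only [mul_assoc, inv_mul_cancel_left, _root_.mul_inv_rev] using inv_mem h1

end Dg1

open Dg1 in
theorem dg1 : All.{u, v} @DG1 := by
  intro G _ _ n F _ _ _ e he E K D h ⟨v, hv, w', hw', h1, h2⟩
  have ES : E ≤ S e := h.lt.le
  obtain ⟨u, ⟨uV, w, wW, uw⟩, uN, uE⟩ := exists_norm_not_mem (Y := YY e E) h.isP ES (fun _ hx => V_le_S e hx.1)
    (le_norm_of_cj_le fun s hs => by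
      rintro _ ⟨x, ⟨hx, y, hy, k⟩, rfl⟩
      refine ⟨conj_mem (S_le_NV e (ES hs)) hx, _, conj_mem (S_le_NW e (ES hs)) hy, ?_⟩
      simpa [mul_assoc] using conj_mem (le_normalizer hs) k)
    fun k => h2 (k ⟨hv, w', hw', h1⟩)
  have hd : Diag e E u w := ⟨uV, wW, uN, uE, uw⟩
  obtain ⟨g, gN, gD, gK⟩ := h.ex
  obtain ⟨z, hz, zD⟩ := h.neZ
  have zC : z ∈ 𝒞(E) := fun x hx => (Z_comm hz (ES hx)).symm
  have jE : g * z * g⁻¹ ∈ E ⊓ 𝒞(E) :=
    ⟨conj_mem gN (h.centric ⟨Z_le_S e hz, zC⟩), conj_mem (norm_le_norm_cent _ gN) zC⟩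
  have jj : g * z * g⁻¹ * (g * z * g⁻¹) = 1 := by rw [conj_mul, V_sq (Z_le_V e hz), mul_one, mul_inv_cancel]
  obtain ⟨j, hj⟩ := (mem_S e).1 (ES jE.1)
  have hE : ∀ x, e x ∈ E ↔ ⁅j, x⁆ = 1 := fun x => by
    rw [← h.cz g gN gD gK z hz zD, ← hj, mem_inf, mem_centralizer_singleton_iff, ← he.eq_one, map_commutatorElement,
      commutatorElement_eq_one_iff_mul_comm, eq_comm, and_iff_right (apply_mem_S e x)]
  obtain ⟨a, c, rfl⟩ := mem_V.1 uV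
  obtain ⟨b, c', rfl⟩ := mem_W.1 wW
  rw [← map_mul, U.q_mul, add_zero, zero_add] at uw
  obtain ⟨k1, -, k3⟩ := (cq _ _ _ _).1 ((hE _).1 uw)
  have k4 : a ⬝ᵥ j.w ≠ 0 := fun m => uE ((hE _).2 ((cq _ _ _ _).2 ⟨k1, by simp, by simp [m]⟩))
  have xN : ∀ t : F, e (U.q (t • a) 0 0) ∈ 𝒩(E) := fun t => mem_norm_of_cj_le (by
    rintro _ ⟨s, hs, rfl⟩
    obtain ⟨s, rfl⟩ := (mem_S e).1 (ES hs)
    have m1 : e ⁅s⁻¹, U.q a 0 c⁆ ∈ E := by
      simpa [commutatorElement_def, mul_assoc] using mul_mem (inv_mem hs) (conj_mem uN hs)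
    simpa [commutatorElement_def, mul_assoc] using mul_mem hs ((hE _).2 (cq_smul ((hE _).1 m1) t)))
  have hD : D = ⊥ := eq_bot_iff.2 fun d hdD => by
    obtain ⟨δ, rfl⟩ := mem_Z.1 (h.leZ hdD)
    by_contra d1
    have d2 : δ ≠ 0 := by rintro rfl; exact d1 (by simp [U.q_zero])
    have e1 : ((δ / a ⬝ᵥ j.w) • a) ⬝ᵥ j.w = δ := by rw [smul_dotProduct, smul_eq_mul, div_mul_cancel₀ _ k4]
    have e2 : ⁅e (U.q ((δ / a ⬝ᵥ j.w) • a) 0 0), g * z * g⁻¹⁆ = e (U.q 0 0 δ) := by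
      rw [← hj, ← map_commutatorElement, ← commutatorElement_inv, U.comm_q, smul_vecMul, k1, e1, U.q_inv]
      simp
    refine d1 (e2 ▸ h.opp _ (e (U.q a 0 c)) ⟨apply_mem_S e _, xN _, fun m => d2 ?_, ?_⟩
      ⟨apply_mem_S e _, uN, uE, by rw [V_sq uV]; exact one_mem _⟩ g gN gK _ jE jj ?_ ?_)
    · simpa [e1] using ((cq _ _ _ _).1 ((hE _).1 m)).2.2.symm
    · rw [V_sq (mem_V.2 ⟨_, _, rfl⟩)]; exact one_mem _
    · exact (Commute.symm (Z_comm hz (apply_mem_S e _))).conj g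
    · rw [e2, ← conj_eq_of_mem gD hdD]
      exact (Commute.symm (Z_comm (h.leZ hdD) (apply_mem_S e _))).conj g
  refine ⟨hD ▸ h, ⟨_, _, hd⟩, e (U.q j.u 0 0), (hE _).2 ((cq _ _ _ _).2 ?_), _, uw, ?_⟩
  · have j2 : j * j = 1 := he.eq_one.1 (by rw [map_mul, hj, jj])
    have m1 := congrArg U.u j2
    have m2 := congrArg U.c j2
    rw [U.mul_u, U.one_u, add_eq_zero_iff_neg_eq] at m1
    rw [U.mul_c, U.one_c, CharTwo.add_self_eq_zero, zero_add] at m2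
    exact ⟨U.vecMul_inv_of (m1.symm.trans (funext fun i => CharTwo.neg_eq _)), by simp, by simp [m2]⟩
  · rw [← map_commutatorElement, U.comm_qq, Ne, he.eq_one, U.q_eq_one]
    exact ⟨mem_Z.2 ⟨_, rfl⟩, fun m => k4 (by simpa [k3] using m.2.2)⟩

end CL.LQ
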