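/-
Project LQ: the diagonal case, second step.
-/
import Cfsg.Agent.LQ.Defs

set_option autoImplicit false
open Cfsg Matrix Subgroup CL.Grp CL.Even CL.Loc
open scoped commutatorElement

namespace CL.LQ

universe u v

namespace DG2x

variable {G : Type*} [Group G] {H : Subgroup G} {a b c x : G}

theorem cm_r (h : a ∈ 𝒩(H)) (hx : x ∈ H) : ⁅a, x⁆ ∈ H := mul_mem (conj_mem h hx) (inv_mem hx)

theorem cm_l (h : a ∈ 𝒩(H)) (hx : x ∈ H) : ⁅x, a⁆ ∈ H := by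
  rw [← commutatorElement_inv]; exact inv_mem (cm_r h hx)

theorem cm_mul (a b c : G) : ⁅a, b * c⁆ = ⁅a, b⁆ * (b * ⁅a, c⁆ * b⁻¹) := by
  simp only [commutatorElement_def]; group

theorem cm_eq (h : ⁅a, x⁆ = ⁅b, x⁆) : ⁅b⁻¹ * a, x⁆ = 1 := by
  have : ⁅b⁻¹ * a, x⁆ = b⁻¹ * (⁅a, x⁆ * x) * b * x⁻¹ := by simp only [commutatorElement_def]; group
  rw [this, h]; simp only [commutatorElement_def]; group

theorem cm_cent {c c' z z' : G} (hc : c ∈ H) (hc' : c' ∈ H) (hz : z ∈ H ⊓ 𝒞(H)) (hz' : z' ∈ H ⊓ 𝒞(H)) :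
    ⁅c * z, c' * z'⁆ = ⁅c, c'⁆ :=
  calc ⁅c * z, c' * z'⁆ = c * (z * (c' * z') * z⁻¹) * c⁻¹ * (c' * z')⁻¹ := by simp only [commutatorElement_def]; group
    _ = c * c' * (z' * c⁻¹ * z'⁻¹) * c'⁻¹ := by rw [conj_eq_of_mem hz.2 (mul_mem hc' hz'.1)]; group
    _ = _ := by rw [conj_eq_of_mem hz'.2 (inv_mem hc), commutatorElement_def]

end DG2x

open DG2x

theorem dg2 (h1 : BL.{u}) : All.{u, v} @DG2 := by
  intro G _ _ n F _ _ _ e he E K u w h d ⟨x, hx, x', hx', hz, hz1⟩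
  by_contra hn
  push Not at hn
  have ES := h.lt.le
  have ZC : Z e ≤ 𝒞(E) := fun z hz a ha => (Z_comm hz (ES ha)).symm
  have ZE : Z e ≤ E := fun z hz => h.centric ⟨Z_le_S e hz, ZC hz⟩
  have uS := V_le_S e d.uV
  have uu := V_sq d.uV
  obtain ⟨g, hg, -, gK⟩ := h.ex
  obtain ⟨y, yN, -, yK, yo, yi⟩ := h.se3 u ⟨uS, d.uN, d.uE, uu ▸ one_mem _⟩ uu ⊤ trivial g hg trivial gK
  have nI : E ≤ 𝒩(V e ⊓ E) := le_norm_inf (ES.trans (S_le_NV e)) le_normalizer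
  have c := h1 (⟨h.isP.to_le ES, inf_le_right, nI, d.uN, yN, uu, yo, yi,
    fun a ha => ⟨cm_r (S_le_NV e (ES ha)) d.uV, cm_l d.uN ha⟩, bot_le,
    fun i hi => commutatorElement_eq_one_iff_mul_comm.2 (V_comm hi.1 d.uV),
    fun i hi i' hi' => commutatorElement_eq_one_iff_mul_comm.2 (V_comm hi.1 hi'.1)⟩ : BLh E (V e ⊓ E) ⊥ u y)
  have JE : cj y (V e ⊓ E) ≤ E := cj_le_of_le inf_le_right yN
  have nJ : E ≤ 𝒩(cj y (V e ⊓ E)) := fun a ha => by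
    rw [← cj_norm]; exact mem_cj.2 (nI (conj_mem' yN ha))
  have ZJ : cj y (Z e) ≤ cj y (V e ⊓ E) := cj_mono y (le_inf (Z_le_V e) ZE)
  have ZC' : cj y (Z e) ≤ 𝒞(E) := cj_le_of_le ZC (norm_le_norm_cent _ yN)
  have cz : ∀ j ∈ cj y (Z e), j ≠ 1 → S e ⊓ centralizer {j} = E := fun j hj j1 => by
    have := h.cz y yN (fun a ha => by rw [mem_bot.1 ha]; simp) yK _ (mem_cj.1 hj) fun k => j1 (by
      rw [show j = y * (y⁻¹ * j * y) * y⁻¹ by group, mem_bot.1 k]; group)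
    simpa [mul_assoc] using this
  have tW : ∀ a ∈ E, u * ⁅a, w⁆ * u⁻¹ ∈ W e := fun a ha =>
    conj_mem (S_le_NW e uS) (cm_r (S_le_NW e (ES ha)) d.wW)
  have aV : ∀ a ∈ E, ⁅a, u⁆ ∈ V e := fun a ha => cm_r (S_le_NV e (ES ha)) d.uV
  have ψ : ∀ j ∈ cj y (Z e), ⁅j, u⁆ ∈ Z e := fun j hj => by
    have k := cm_mul j u w
    rw [commutatorElement_eq_one_iff_mul_comm.2 (ZC' hj _ d.uw).symm] at k
    refine he.mem_Z_of (aV j (JE (ZJ hj))) ?_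
    rw [eq_inv_of_mul_eq_one_left k.symm]
    exact inv_mem (tW j (JE (ZJ hj)))
  have sur : ∀ z ∈ Z e, ∃ j ∈ cj y (Z e), ⁅j, u⁆ = z := fun z hz => by
    have inj : Function.Injective fun j : cj y (Z e) => (⟨⁅(j : G), u⁆, ψ j j.2⟩ : Z e) := fun j j' k => by
      have k1 := cm_eq (congrArg Subtype.val k)
      by_contra ne
      refine d.uE (cz _ (mul_mem (inv_mem j'.2) j.2) (fun k2 => ne (Subtype.ext (inv_mul_eq_one.1 k2).symm)) ▸ ⟨uS, ?_⟩)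
      exact mem_centralizer_singleton_iff.2 (commutatorElement_eq_one_iff_mul_comm.1 k1).symm
    obtain ⟨j, hj⟩ := (inj.bijective_of_nat_card_le (card_cj y _).ge).2 ⟨z, hz⟩
    exact ⟨j, j.2, congrArg Subtype.val hj⟩
  have DM : V e ⊓ E ⊓ cj y (V e ⊓ E) ≤ E ⊓ centralizer {y} := c.cent ▸ inf_le_inf_right _ inf_le_right
  have claim : ∀ a ∈ cj y (V e ⊓ E), ⁅a, u⁆ ∈ E ⊓ centralizer {y} ⊔ E ⊓ 𝒞(E) := fun a ha => by
    have k := cm_mul a u w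
    have hJ := cm_l (nJ d.uw) ha
    have hQ : ⁅a, u * w⁆ ∈ Q e := k ▸ mul_mem (V_le_Q e (aV a (JE ha))) (W_le_Q e (tW a (JE ha)))
    obtain ⟨j, hj, k1⟩ := sur _ (comm_Q hQ (V_le_Q e d.uV))
    have hI := c.inj _ (mul_mem (inv_mem (ZJ hj)) hJ) (by rw [cm_eq k1.symm]; exact one_mem _)
    have j1 : j = 1 := by
      by_contra j1
      exact hn j ((inv_mem_iff.1 ((mul_mem_cancel_right hQ).1 (V_le_Q e hI.1)))) (cz j hj j1)
    rw [j1, inv_one, one_mul] at hI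
    have tZ := he.mem_Z_of ((mul_mem_cancel_left (aV a (JE ha))).1 (k ▸ hI.1)) (tW a (JE ha))
    rw [eq_mul_inv_of_mul_eq k.symm]
    exact mul_mem (mem_sup_left (DM ⟨hI, hJ⟩)) (inv_mem (mem_sup_right ⟨ZE tZ, ZC tZ⟩))
  have IM : V e ⊓ E ≤ E ⊓ centralizer {y} ⊔ E ⊓ 𝒞(E) := fun i hi => by
    obtain ⟨j, hj, a, ha, rfl⟩ := c.surj i hi
    exact mul_mem (claim j hj) (mem_sup_left (DM ha))
  have yM : y ∈ 𝒩(E ⊓ centralizer {y} ⊔ E ⊓ 𝒞(E)) := le_norm_sup (le_norm_inf (zpowers_le_of_mem yN)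
    (le_norm_of_le (zpowers_le_of_mem (mem_centralizer_singleton_iff.2 rfl))))
    (le_norm_inf (zpowers_le_of_mem yN) (le_norm_cent (zpowers_le_of_mem yN))) (mem_zpowers y)
  have EM : ∀ a ∈ E, ∃ b ∈ E ⊓ centralizer {y}, ∃ z ∈ E ⊓ 𝒞(E), b * z = a := fun a ha => by
    obtain ⟨b, hb, i, hi, j, hj, rfl⟩ := c.prod a ha
    exact (mem_sup_nr (inf_le_left.trans (le_norm_inf le_normalizer (le_norm_cent le_normalizer)))).1
      (mul_mem (mul_mem (mem_sup_left hb) (IM hi)) (cj_le_of_le IM yM hj))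
  obtain ⟨b, hb, z, hz0, rfl⟩ := EM x hx
  obtain ⟨b', hb', z', hz', rfl⟩ := EM x' hx'
  rw [cm_cent hb.1 hb'.1 hz0 hz'] at hz hz1
  have k : ⁅b, b'⁆ ∈ centralizer {y} := cm_r (le_normalizer hb.2) hb'.2
  refine h.lt.ne ((cz _ (mem_cj.2 ?_) hz1).symm.trans (inf_eq_left.2 fun s hs =>
    mem_centralizer_singleton_iff.2 (Z_comm hz hs).symm))
  rwa [mul_assoc, mem_centralizer_singleton_iff.1 k, inv_mul_cancel_left]

end CL.LQ
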