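/-
Project LQ: the diagonal case, third step.
-/
import Cfsg.Agent.LQ.Defs

set_option autoImplicit false
open Cfsg Matrix Subgroup CL.Grp CL.Even CL.Loc
open scoped commutatorElement

namespace CL.LQ

universe u v

namespace DG3x

variable {n : ℕ} {F : Type v} [Field F] {a b : U (n + 2) F}

theorem l0 : Fin.last (n + 1) ≠ 0 := Fin.last_pos.ne'

theorem fix (h : a ∈ U.Ak (n + 2) F 1) {v : Fin (n + 2) → F} (hv : v 0 = 0) : v ᵥ* a.g = v :=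
  h.2.2.1 v fun i hi => by rwa [show i = 0 from Fin.ext (by simpa using hi)]

theorem sub0 (a : U (n + 2) F) (v : Fin (n + 2) → F) : (v ᵥ* a.g - v) 0 = 0 := by
  rw [Pi.sub_apply, a.ut.vecMul_apply fun i hi => absurd hi (Fin.not_lt_zero i), sub_self]

theorem dotw (h : a ∈ U.Ak (n + 2) F 1) (v : Fin (n + 2) → F) : v ⬝ᵥ a.w = v 0 * a.w 0 := by
  rw [dotProduct, Finset.sum_eq_single 0 _ (by simp)]
  intro i _ hi
  rw [h.2.1 i (Nat.one_le_iff_ne_zero.2 fun k => hi (Fin.ext k)), mul_zero]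

theorem comm (h : a ∈ U.Ak (n + 2) F 1) (k : b ∈ U.Ak (n + 2) F 1) : a * b = b * a := by
  have e : ∀ {a b : U (n + 2) F}, b ∈ U.Ak (n + 2) F 1 → ∀ v, v ᵥ* (a.g * b.g) = v ᵥ* a.g + v ᵥ* b.g - v :=
    fun {a b} k v => by
      have := fix k (sub0 a v)
      rw [sub_vecMul, vecMul_vecMul, sub_eq_iff_eq_add] at this
      rw [this]; abel
  refine U.ext ?_ ?_ ?_ ?_
  · rw [U.mul_u, U.mul_u, h.2.2.1 _ k.1, k.2.2.1 _ h.1]; abel
  · ext i j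
    have := congrFun ((e (a := a) k (Pi.single i 1)).trans
      ((by abel : _ = _).trans (e (a := b) h (Pi.single i 1)).symm)) j
    simpa [single_one_vecMul] using this
  · rw [U.mul_w, U.mul_w, h.2.2.2 _ k.2.1, k.2.2.2 _ h.2.1]; abel
  · rw [U.mul_c, U.mul_c, dotw h, dotw k, h.1 0 Nat.one_pos, k.1 0 Nat.one_pos]; ring

/-- the elements `x_t` -/
abbrev xx (n : ℕ) (κ t : F) : U (n + 2) F := U.q (Pi.single 0 t) (Pi.single (Fin.last (n + 1)) (κ * t)) 0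

theorem cm (h : a ∈ U.Ak (n + 2) F 1) {r : Fin (n + 2) → F} (hr : Pi.single 0 1 ᵥ* a.g = Pi.single 0 1 + r) (κ t : F) :
    ⁅a, xx n κ t⁆ = U.q (-(t • r)) (Pi.single 0 (r (Fin.last _) * (κ * t)))
      (a.u (Fin.last _) * (κ * t) - t * a.w 0 + t * r (Fin.last _) * (κ * t)) := by
  have r0 : r 0 = 0 := by simpa [hr] using sub0 a (Pi.single 0 1)
  have e1 : Pi.single 0 t ᵥ* a.g⁻¹ = Pi.single 0 t - t • r := by
    have : (Pi.single 0 t - t • r) ᵥ* a.g = Pi.single 0 t := by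
      rw [sub_vecMul, smul_vecMul, fix h r0, show (Pi.single 0 t : Fin (n + 2) → F) = t • Pi.single 0 1 by
        rw [← Pi.single_smul', smul_eq_mul, mul_one], smul_vecMul, hr, smul_add, add_sub_cancel_right]
    rw [← this, vecMul_vecMul, U.g_mul_inv, vecMul_one, this]
  rw [U.comm_q, e1, U.q_inj]
  refine ⟨by abel, funext fun i => ?_, ?_⟩
  · rw [Pi.sub_apply, ← single_one_dotProduct i (a.g *ᵥ _), dotProduct_mulVec]
    by_cases hi : i = 0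
    · subst hi
      simp [hr, l0.symm]
    · rw [fix h (Pi.single_eq_of_ne' hi _), single_one_dotProduct, sub_self, Pi.single_eq_of_ne hi]
  · rw [dotw h]
    simp [r0]

theorem exr (a : U (n + 2) F) : ∃ r : Fin (n + 2) → F, Pi.single 0 1 ᵥ* a.g = Pi.single 0 1 + r :=
  ⟨_, (add_sub_cancel _ _).symm⟩

theorem omZ [CharP F 2] (h : a ∈ U.Ak (n + 2) F 1) (k : b ∈ U.Ak (n + 2) F 1) {κ t : F} (e : ⁅b, xx n κ 1⁆ = ⁅a, xx n κ t⁆) :
    ⁅a, xx n κ (t ^ 2)⁆ * ⁅b, xx n κ t⁆ ∈ U.Z (n + 2) F := by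
  obtain ⟨r, hr⟩ := exr a
  obtain ⟨r', hr'⟩ := exr b
  rw [cm h hr, cm k hr', U.q_inj, neg_inj, one_smul] at e
  have h2 : (2 : F) = 0 := CharTwo.two_eq_zero
  rw [cm h hr, cm k hr', U.q_mul, e.1]
  refine ⟨rfl, funext fun i => ?_, ?_⟩
  · simp only [U.q_u, Pi.add_apply, Pi.neg_apply, Pi.smul_apply, smul_eq_mul, Pi.zero_apply]
    linear_combination (-(t ^ 2 * r i)) * h2
  · rw [U.q_w, ← Pi.single_add, Pi.single_eq_zero_iff, Pi.smul_apply, smul_eq_mul]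
    linear_combination (t ^ 2 * κ * r (Fin.last _)) * h2

theorem adm : U.Adm (Pi.single 0 1 : Fin (n + 2) → F) (Pi.single (Fin.last (n + 1)) 1) :=
  ⟨by simp, by simp, fun i j hij => by
    by_cases hi : i = 0
    · rw [Pi.single_eq_of_ne (show j ≠ Fin.last (n + 1) by rw [hi] at hij; rw [Fin.le_zero_iff.1 hij]; exact l0.symm),
        mul_zero]
    · rw [Pi.single_eq_of_ne hi, zero_mul]⟩

/-- explicit elements of `A` -/
def el (ρ ω : F) : U (n + 2) F :=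
  ⟨0, 1 + ρ • vecMulVec (Pi.single 0 1) (Pi.single (Fin.last (n + 1)) 1), Pi.single 0 ω, 0, adm.ut ρ⟩

theorem el_mem (ρ ω : F) : el ρ ω ∈ U.Ak (n + 2) F 1 :=
  ⟨fun _ _ => rfl, fun i hi => Pi.single_eq_of_ne (by rintro rfl; simp at hi) _, fun v hv => by
    simp [el, vecMul_add, vecMul_smul, vecMul_vecMulVec, hv 0 Nat.one_pos], fun v hv => by
    simp [el, add_mulVec, smul_mulVec, vecMulVec_mulVec, hv (Fin.last _) (by simp)]⟩

theorem el_r (ρ ω : F) : Pi.single 0 1 ᵥ* (el ρ ω : U (n + 2) F).g = Pi.single 0 1 + Pi.single (Fin.last (n + 1)) ρ := by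
  simp only [el, vecMul_add, vecMul_one, vecMul_smul, vecMul_vecMulVec, single_one_dotProduct, Pi.single_eq_same, one_smul]
  rw [← Pi.single_smul', smul_eq_mul, mul_one]

theorem Zom [CharP F 2] {κ t : F} (hκ : κ ≠ 0) (t0 : t ≠ 0) (t1 : t ≠ 1) (c : F) :
    ∃ a ∈ U.Ak (n + 2) F 1, ∃ b ∈ U.Ak (n + 2) F 1, ⁅b, xx n κ 1⁆ = ⁅a, xx n κ t⁆ ∧
      ⁅a, xx n κ (t ^ 2)⁆ * ⁅b, xx n κ t⁆ = U.q 0 0 c := by
  have h2 : (2 : F) = 0 := CharTwo.two_eq_zero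
  obtain ⟨ρ, rfl⟩ : ∃ ρ, c = κ * t ^ 2 * (t - 1) ^ 2 * ρ :=
    ⟨_, (mul_div_cancel₀ c (mul_ne_zero (mul_ne_zero hκ (pow_ne_zero 2 t0)) (pow_ne_zero 2 (sub_ne_zero.2 t1)))).symm⟩
  have e : ⁅(el (t * ρ) (κ * t * ρ - κ * t ^ 2 * ρ) : U (n + 2) F), xx n κ 1⁆ =
      ⁅(el ρ 0 : U (n + 2) F), xx n κ t⁆ := by
    rw [cm (el_mem _ _) (el_r _ _), cm (el_mem _ _) (el_r _ _), U.q_inj]
    refine ⟨by rw [one_smul, ← Pi.single_smul', smul_eq_mul], ?_, ?_⟩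
    · simp only [Pi.single_eq_same]; congr 1; ring
    · simp [el]; ring
  refine ⟨_, el_mem _ _, _, el_mem _ _, e, ?_⟩
  have k := omZ (el_mem _ _) (el_mem _ _) e
  rw [U.eq_q k.1, k.2.1, k.2.2, U.q_inj, cm (el_mem _ _) (el_r _ _), cm (el_mem _ _) (el_r _ _)]
  refine ⟨rfl, rfl, ?_⟩
  simp [el, l0.symm]
  linear_combination (κ * ρ * (2 * t ^ 3 - t ^ 2)) * h2

end DG3x

open DG3x

theorem dg3 : All.{u, v} @DG3 := by
  intro G _ _ n F _ _ _ e he y κ hκ hy h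
  have k : ∀ t, ∀ a ∈ U.Ak (n + 2) F 1, ∀ b ∈ U.Ak (n + 2) F 1, y * e a * y⁻¹ = e b →
      y * e ⁅a, xx n κ t⁆ * y⁻¹ = e ⁅b, xx n κ t⁆ := fun t a ha b hb e1 => by
    obtain ⟨_, ⟨c, hc, rfl⟩, k⟩ := h t
    have e2 : ∀ a ∈ U.Ak (n + 2) F 1, ⁅a, xx n κ t⁆ = ⁅a, xx n κ t * c⁆ := fun a ha =>
      calc ⁅a, xx n κ t⁆ = a * xx n κ t * (c * a⁻¹ * c⁻¹) * (xx n κ t)⁻¹ := by
            rw [comm hc (inv_mem ha), mul_inv_cancel_right, commutatorElement_def]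
        _ = _ := by rw [commutatorElement_def]; group
    rw [e2 a ha, e2 b hb, map_commutatorElement, map_commutatorElement, map_mul, conjugate_commutatorElement, e1,
      k.eq, mul_inv_cancel_right]
  obtain ⟨t, t0, t1⟩ := he.exists_ne
  refine mem_norm_of_cj_le ?_
  rintro _ ⟨z, hz, rfl⟩
  obtain ⟨c, rfl⟩ := mem_Z.1 hz
  obtain ⟨a, ha, b, hb, e1, e2⟩ := Zom (n := n) hκ t0 t1 c
  obtain ⟨a', ha', ea⟩ := conj_mem hy (mem_map_of_mem e ha)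
  obtain ⟨b', hb', eb⟩ := conj_mem hy (mem_map_of_mem e hb)
  have e3 : ⁅b', xx n κ 1⁆ = ⁅a', xx n κ t⁆ := he.inj (by rw [← k 1 b hb b' hb' eb.symm, ← k t a ha a' ha' ea.symm, e1])
  refine ⟨_, omZ ha' hb' e3, ?_⟩
  rw [map_mul, ← k _ b hb b' hb' eb.symm, ← k _ a ha a' ha' ea.symm, ← e2, map_mul, conj_mul]
  rfl

end CL.LQ
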