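/-
Project LQ (S1769): in the diagonal case `E` is not the centraliser of an element of `Q`.
-/
import Cfsg.Agent.LQ.Defs

set_option autoImplicit false
open Cfsg Matrix Subgroup CL.Grp CL.Even CL.Loc
open scoped commutatorElement

namespace CL.LQ

universe u v

namespace DG4x

variable {G : Type u} [Group G] {m : ℕ} {F : Type v} [Field F] {e : U m F →* G} {E : Subgroup G}
  {u0 w0 : Fin m → F} {c0 : F}

theorem memE (he : St e) (hE : S e ⊓ centralizer {e (U.q u0 w0 c0)} = E) (s : U m F) :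
    e s ∈ E ↔ u0 ᵥ* s.g⁻¹ = u0 ∧ s.g *ᵥ w0 = w0 ∧ s.u ⬝ᵥ w0 = u0 ⬝ᵥ s.w := by
  rw [← hE, mem_inf, mem_centralizer_singleton_iff, ← mul_inv_eq_iff_eq_mul, ← map_inv, ← map_mul, ← map_mul,
    he.inj.eq_iff, U.conj_q, U.q_inj, and_iff_right (apply_mem_S e s)]
  refine and_congr_right fun h => and_congr_right fun _ => ?_
  rw [h, add_sub_assoc, add_eq_left, sub_eq_zero]

theorem memq (he : St e) (hE : S e ⊓ centralizer {e (U.q u0 w0 c0)} = E) (a b : Fin m → F) (c : F) :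
    e (U.q a b c) ∈ E ↔ a ⬝ᵥ w0 = u0 ⬝ᵥ b := by
  rw [memE he hE]; simp

theorem comm_dot (he : St e) {a b a' b' : Fin m → F} {c c' : F}
    (h : e (U.q a b c) * e (U.q a' b' c') = e (U.q a' b' c') * e (U.q a b c)) : a ⬝ᵥ b' = a' ⬝ᵥ b := by
  rw [← map_mul, ← map_mul, he.inj.eq_iff, U.q_mul, U.q_mul, U.q_inj] at h
  linear_combination h.2.2

theorem VZ (he : St e) (hE : S e ⊓ centralizer {e (U.q u0 w0 c0)} = E) (hw : w0 ≠ 0) :
    V e ⊓ E ⊓ 𝒞(E) ≤ Z e := by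
  rintro x ⟨⟨hx, -⟩, hc⟩
  obtain ⟨p, c, rfl⟩ := mem_V.1 hx
  obtain rfl : p = 0 := eq_zero_of_dot fun b => by
    obtain ⟨a, ha⟩ := exists_dot hw (u0 ⬝ᵥ b)
    have := comm_dot he (comm_of_mem hc ((memq he hE a b 0).2 ha))
    rw [dotProduct_comm, ← this, dotProduct_zero]
  exact mem_Z.2 ⟨c, rfl⟩

theorem WZ (he : St e) (hE : S e ⊓ centralizer {e (U.q u0 w0 c0)} = E) (hu : u0 ≠ 0) :
    W e ⊓ E ⊓ 𝒞(E) ≤ Z e := by
  rintro x ⟨⟨hx, -⟩, hc⟩
  obtain ⟨p, c, rfl⟩ := mem_W.1 hx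
  obtain rfl : p = 0 := eq_zero_of_dot fun a => by
    obtain ⟨b, hb⟩ := exists_dot hu (a ⬝ᵥ w0)
    have := comm_dot he (comm_of_mem hc ((memq he hE a b 0).2 (by rw [← hb, dotProduct_comm])))
    rw [this, zero_dotProduct]
  exact mem_Z.2 ⟨c, rfl⟩

/-- a vector whose orthogonal complement lies in a coordinate hyperplane -/
theorem eq_single {b : Fin m → F} {k : Fin m} (h : ∀ a, a ⬝ᵥ b = 0 → a k = 0) : b = Pi.single k (b k) := by
  ext i
  by_cases hi : i = k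
  · rw [hi, Pi.single_eq_same]
  have := h (Pi.single k (b i) - Pi.single i (b k)) (by simp [mul_comm])
  rw [Pi.single_eq_of_ne hi]
  simpa [Pi.single_eq_of_ne (Ne.symm hi)] using this

theorem last_vecMul {k : ℕ} {g : Matrix (Fin (k + 1)) (Fin (k + 1)) F} (h : IsUT g) (x : F) :
    Pi.single (Fin.last k) x ᵥ* g = Pi.single (Fin.last k) x := by
  ext i
  rw [single_vecMul]
  by_cases hi : i = Fin.last k
  · simp [hi, h.diag]
  · simp [Pi.single_eq_of_ne hi, h.low _ _ (Fin.lt_last_iff_ne_last.2 hi)]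

theorem mulVec_zero' {k : ℕ} {g : Matrix (Fin (k + 1)) (Fin (k + 1)) F} (h : IsUT g) (x : F) :
    g *ᵥ Pi.single 0 x = Pi.single 0 x := by
  ext i
  rw [mulVec_single]
  by_cases hi : i = 0
  · simp [hi, h.diag]
  · simp [Pi.single_eq_of_ne hi, h.low _ _ (Fin.pos_iff_ne_zero.2 hi)]

end DG4x

open DG4x in
theorem dg4 (h1 : All.{u, v} @BA) (h2 : All.{u, v} @DG3) : All.{u, v} @DG4 := by
  intro G _ _ n F _ _ _ e he E K u w hL hd j hj hE
  obtain ⟨u0, w0, c0, rfl⟩ := mem_Q.1 hj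
  have wE : w ∉ E := fun h => hd.uE ((mul_mem_cancel_right h).1 hd.uw)
  have wN : w ∈ 𝒩(E) := (mul_mem_cancel_left hd.uN).1 (le_normalizer hd.uw)
  have hw : w0 ≠ 0 := by
    obtain ⟨a, c, rfl⟩ := mem_V.1 hd.uV
    rintro rfl
    exact hd.uE ((memq he hE _ _ _).2 (by simp))
  have hu : u0 ≠ 0 := by
    obtain ⟨a, c, rfl⟩ := mem_W.1 hd.wW
    rintro rfl
    exact wE ((memq he hE _ _ _).2 (by simp))
  obtain ⟨b1, b2⟩ := h1 e he E K hL (VZ he hE hw) u hd.uV hd.uN hd.uE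
  have b3 := (h1 (sy e) he.symm E K hL.symm (by rw [V_sy, Z_sy]; exact WZ he hE hu) w
    (by rw [V_sy]; exact hd.wW) wN wE).1
  rw [V_sy, Vk_sy e (k' := n + 1) (by omega)] at b3
  have ew : w0 = Pi.single 0 (w0 0) := eq_single fun a ha =>
    (he.mem_map.1 (b1 ⟨mem_V.2 ⟨a, 0, rfl⟩, (memq he hE a 0 0).2 (by simp [ha])⟩)).2.2 0 (by simp)
  have eu : u0 = Pi.single (Fin.last (n + 1)) (u0 (Fin.last (n + 1))) := eq_single fun b hb =>
    (he.mem_map.1 (b3 ⟨mem_W.2 ⟨b, 0, rfl⟩, (memq he hE 0 b 0).2 (by simp [dotProduct_comm u0, hb])⟩)).2.2 _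
      (by simp)
  generalize w0 0 = β at ew
  generalize u0 (Fin.last (n + 1)) = α at eu
  subst ew eu
  have hβ : β ≠ 0 := fun h => hw (by simp [h])
  have hα : α ≠ 0 := fun h => hu (by simp [h])
  have mem : ∀ s : U (n + 2) F, e s ∈ E ↔ s.u 0 * β = α * s.w (Fin.last (n + 1)) := fun s => by
    rw [memE he hE, last_vecMul s.ut.inv, mulVec_zero' s.ut]; simp
  obtain ⟨y, yN, yK, yA, pr, -⟩ := b2 (le_antisymm b1 (le_inf (Vk_le_V e 1) (by
      rintro _ ⟨s, hs, rfl⟩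
      exact (mem s).2 (by rw [hs.2.1, hs.2.2 0 (by simp)]; simp)))) (by
    rintro _ ⟨s, hs, rfl⟩
    exact (mem s).2 (by rw [hs.1 0 (by simp), hs.2.1 _ (by simp)]; simp))
  have yZ := h2 e he y (β / α) (div_ne_zero hβ hα) yA fun t => by
    obtain ⟨c, hc, a, ha, k⟩ := pr _ ((mem (U.q (Pi.single 0 t) (Pi.single (Fin.last (n + 1)) (β / α * t)) 0)).2
      (by simp; field_simp))
    refine ⟨a⁻¹, inv_mem ha, ?_⟩
    rw [← k, mul_inv_cancel_right]
    exact (mem_centralizer_singleton_iff.1 hc.2).symm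
  have hz : e (U.q 0 0 1) ∈ Z e := mem_Z.2 ⟨1, rfl⟩
  have := hL.cz y yN (by simp [mem_centralizer_singleton_iff]) yK _ hz (by simp [he.eq_one, U.q_eq_one])
  refine hL.lt.ne (this.symm.trans (inf_eq_left.2 fun s hs => ?_))
  exact mem_centralizer_singleton_iff.2 (Z_comm (conj_mem yZ hz) hs).symm

end CL.LQ
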