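/-
Project LQ (S1769): duality between `V / Z` and `W / Z`.
-/
import Cfsg.Agent.LQ.Defs
import Cfsg.Agent.Grp.MinNormal

set_option autoImplicit false
open Cfsg Matrix Subgroup CL.Grp CL.Even CL.Loc
open scoped commutatorElement

namespace CL.LQ

universe u v

namespace DUa

variable {G : Type u} [Group G] {n : ℕ} {F : Type v} [Field F] {e : U n F →* G}

theorem aa (Y : Submodule F (Fin n → F)) {u : Fin n → F} (h : ∀ b, (∀ a ∈ Y, a ⬝ᵥ b = 0) → u ⬝ᵥ b = 0) : u ∈ Y := by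
  by_contra hu
  obtain ⟨f, f1, f2⟩ := Submodule.exists_dual_map_eq_bot_of_notMem hu inferInstance
  have k : ∀ a : Fin n → F, a ⬝ᵥ (fun i => f (Pi.single i 1)) = f a := fun a => by
    conv_rhs => rw [pi_eq_sum_univ' a, map_sum]
    simp [dotProduct]
  exact f1 (k u ▸ h _ fun a ha => (k a).trans (f2.le (Submodule.mem_map_of_mem ha)))

theorem cz {s : U n F} {b : Fin n → F} (h : ∀ u, (u ᵥ* s.g⁻¹ - u) ⬝ᵥ b = 0) (c : F) : ⁅e s, e (U.q 0 b c)⁆ ∈ Z e := by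
  have h1 : s.g⁻¹ *ᵥ b - b = 0 := eq_zero_of_dot fun u => by
    rw [dotProduct_sub, dotProduct_mulVec, ← sub_dotProduct, h]
  have h2 : s.g *ᵥ b = b := by
    conv_lhs => rw [← sub_eq_zero.1 h1]
    simp
  rw [← map_commutatorElement, U.comm_q]
  exact mem_Z.2 ⟨_, by rw [h2, zero_vecMul, sub_self, sub_self]⟩

theorem cm (he : St e) {p b : Fin n → F} {c c' : F} : Commute (e (U.q p 0 c)) (e (U.q 0 b c')) ↔ p ⬝ᵥ b = 0 := by
  rw [← commutatorElement_eq_one_iff_commute, ← map_commutatorElement, he.eq_one, U.comm_qq, U.q_eq_one]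
  simp

theorem cv (s : U n F) (u : Fin n → F) (c : F) : ∃ c', ⁅e s, e (U.q u 0 c)⁆ = e (U.q (u ᵥ* s.g⁻¹ - u) 0 c') :=
  ⟨_, by rw [← map_commutatorElement, U.comm_q, mulVec_zero, sub_self]⟩

theorem ch {H : Subgroup G} (hZ : Z e ≤ H) {a : Fin n → F} {c : F} (h : e (U.q a 0 c) ∈ H) (c' : F) :
    e (U.q a 0 c') ∈ H := by
  have := H.mul_mem h (hZ (mem_Z.2 ⟨c' - c, rfl⟩))
  rw [← map_mul, U.q_mul] at this
  simpa using this

/-- the vectors whose line lies in `H` -/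
def sub (e : U n F →* G) (H : Subgroup G) : Submodule F (Fin n → F) where
  carrier := {a | ∀ t : F, e (U.q (t • a) 0 0) ∈ H}
  zero_mem' := fun t => by rw [smul_zero, U.q_zero, map_one]; exact H.one_mem
  add_mem' := fun {a b} ha hb t => by
    have := H.mul_mem (ha t) (hb t)
    rw [← map_mul, U.q_mul] at this
    simpa using this
  smul_mem' := fun c a ha t => by rw [smul_smul]; exact ha _

theorem gen {H : Subgroup G} (hZ : Z e ≤ H) {u : Fin n → F} (c : F)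
    (h : ∀ b, (∀ a ∈ sub e H, a ⬝ᵥ b = 0) → u ⬝ᵥ b = 0) : e (U.q u 0 c) ∈ H :=
  ch hZ (by simpa using aa _ h 1) c

theorem cx {H X : Subgroup G} (hZ : Z e ≤ H) (hX : X ≤ S e) (hH : ⁅X, V e⁆ ≤ H) {b : Fin n → F}
    (hb : ∀ a ∈ sub e H, a ⬝ᵥ b = 0) : ∀ x ∈ X, ⁅x, e (U.q 0 b 0)⁆ ∈ Z e := fun x hx => by
  obtain ⟨s, rfl⟩ := (mem_S e).1 (hX hx)
  refine cz (fun u => hb _ fun t => ?_) 0
  obtain ⟨c', h⟩ := cv (e := e) s (t • u) 0
  have := hH (commutator_mem_commutator hx (mem_V.2 ⟨t • u, 0, rfl⟩))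
  rw [h] at this
  rw [smul_sub, ← smul_vecMul]
  exact ch hZ this 0

/-- the elements of `V` centralised by `j` modulo `Z` -/
def ker (e : U n F →* G) (j : G) : Subgroup G where
  carrier := {k | k ∈ V e ∧ ⁅j, k⁆ ∈ Z e}
  one_mem' := ⟨one_mem _, by rw [commutatorElement_one_right]; exact one_mem _⟩
  mul_mem' := fun {a b} ha hb => ⟨mul_mem ha.1 hb.1, by
    have : ⁅j, a * b⁆ = ⁅j, a⁆ * (a * ⁅j, b⁆ * a⁻¹) := by simp only [commutatorElement_def]; group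
    rw [this, ← Z_comm hb.2 (V_le_S e ha.1), mul_inv_cancel_right]
    exact mul_mem ha.2 hb.2⟩
  inv_mem' := fun {a} ha => ⟨inv_mem ha.1, by
    have : ⁅j, a⁻¹⁆ = a⁻¹ * (⁅j, a⁆⁻¹ * a) := by simp only [commutatorElement_def]; group
    rw [this, Z_comm (inv_mem ha.2) (V_le_S e ha.1), inv_mul_cancel_left]
    exact inv_mem ha.2⟩

end DUa

open DUa in
theorem du : All.{u, v} @DU := by
  intro G _ _ n F _ _ _ e he
  refine ⟨fun s hs p hp h => ?_, fun X hX p hp h => ?_, fun X hX j hj p hp h => ?_⟩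
  · obtain ⟨s, rfl⟩ := (mem_S e).1 hs
    obtain ⟨p, c, rfl⟩ := mem_V.1 hp
    obtain ⟨u, hu⟩ := aa (LinearMap.range (vecMulLinear s.g⁻¹ - LinearMap.id)) (u := p) fun b hb =>
      (cm he).1 (h _ (mem_W.2 ⟨b, 0, rfl⟩) (cz (fun u => hb _ ⟨u, rfl⟩) 0))
    obtain ⟨c', h'⟩ := cv (e := e) s u 0
    refine ⟨_, mem_V.2 ⟨u, 0, rfl⟩, _, mem_Z.2 ⟨c - c', rfl⟩, ?_⟩
    rw [h', ← map_mul, U.q_mul, ← hu]
    simp
  · obtain ⟨p, c, rfl⟩ := mem_V.1 hp
    exact gen le_sup_right c fun b hb => (cm he).1 (h _ (mem_W.2 ⟨b, 0, rfl⟩) (cx le_sup_right hX le_sup_left hb))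
  · obtain ⟨p, c, rfl⟩ := mem_V.1 hp
    obtain ⟨j, rfl⟩ := (mem_S e).1 hj
    have hZ : Z e ≤ ⁅X, V e⁆ ⊔ ker e (e j) := le_sup_of_le_right fun z hz => ⟨Z_le_V e hz, by
      rw [commutatorElement_eq_one_iff_mul_comm.2 (Z_comm hz hj).symm]; exact one_mem _⟩
    have hV : ⁅X, V e⁆ ≤ V e := le_normalizer_iff_commutator_le_right.1 (hX.trans (S_le_NV e))
    have h1 := gen hZ c fun b hb => (cm he).1 (h _ (mem_W.2 ⟨b, 0, rfl⟩) (fun v hv hv' => ?_)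
      (cx hZ hX le_sup_left hb))
    · obtain ⟨a, ha, k, hk, e1⟩ := (mem_sup_of_le_normalizer (le_normalizer_of_le_centralizer (K := ker e (e j))
        fun a ha k hk => V_comm hk.1 (hV ha))).1 h1
      exact ⟨a, ha, k, hk.1, hk.2, e1.symm⟩
    · obtain ⟨a, c₁, rfl⟩ := mem_V.1 hv
      refine (cm he).2 (hb a fun t => mem_sup_right ⟨mem_V.2 ⟨_, _, rfl⟩, ?_⟩)
      obtain ⟨c', h'⟩ := cv (e := e) j a c₁
      obtain ⟨c'', h''⟩ := cv (e := e) j (t • a) 0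
      rw [h'] at hv'
      rw [h'', smul_vecMul, ← smul_sub, show a ᵥ* j.g⁻¹ - a = 0 from (he.mem_map.1 hv').2.1, smul_zero]
      exact mem_Z.2 ⟨_, rfl⟩

end CL.LQ
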