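/-
Project LQ (S1769): the stabiliser of the point `Vk (n + 1)` in `N(Q)` normalises `W` (job LQ-F1).
-/
import Cfsg.Agent.LQ.Defs

set_option autoImplicit false
open Cfsg Matrix Subgroup CL.Grp CL.Even CL.Loc
open scoped commutatorElement

namespace CL.LQ

universe u v

namespace F1x

variable {G : Type*} [Group G] {n : ℕ} {F : Type v} [Field F]

theorem two {A B C : Subgroup G} (h : ∀ x ∈ A, x ∈ B ∨ x ∈ C) : A ≤ B ∨ A ≤ C := by
  by_contra k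
  rw [not_or] at k
  obtain ⟨a, ha, h1⟩ := SetLike.not_le_iff_exists.1 k.1
  obtain ⟨b, hb, h2⟩ := SetLike.not_le_iff_exists.1 k.2
  rcases h _ (mul_mem ha hb) with k | k
  · exact h1 ((mul_mem_cancel_right ((h b hb).resolve_right h2)).1 k)
  · exact h2 ((mul_mem_cancel_left ((h a ha).resolve_left h1)).1 k)

theorem cent_map {e : U n F →* G} (he : St e) {X : Subgroup (U n F)} {x : U n F} :
    e x ∈ 𝒞(X.map e) ↔ ∀ y ∈ X, ⁅x, y⁆ = 1 := by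
  refine ⟨fun h y hy => he.eq_one.1 ?_, fun h => mem_centralizer_iff.2 ?_⟩
  · rw [map_commutatorElement, commutatorElement_eq_one_iff_mul_comm, comm_of_mem h (mem_map_of_mem e hy)]
  · rintro _ ⟨y, hy, rfl⟩
    rw [← map_mul, ← map_mul, commutatorElement_eq_one_iff_mul_comm.1 (h y hy)]

theorem dot_last {a : Fin (n + 2) → F} (h : ∀ i : Fin (n + 2), (i : ℕ) < n + 1 → a i = 0) (b : Fin (n + 2) → F) :
    a ⬝ᵥ b = a (Fin.last _) * b (Fin.last _) := by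
  rw [dotProduct, Fin.sum_univ_castSucc, Finset.sum_eq_zero fun i _ => by rw [h _ i.2, zero_mul], zero_add]

theorem ne_last {i : Fin (n + 2)} (h : (i : ℕ) < n + 1) : i ≠ Fin.last _ := by
  rintro rfl
  simp at h

theorem eL_mem : U.q (Pi.single (Fin.last (n + 1)) (1 : F)) 0 0 ∈ U.Vk (n + 2) F (n + 1) :=
  ⟨rfl, rfl, fun _ hi => Pi.single_eq_of_ne (ne_last hi) _⟩

variable {e : U (n + 2) F →* G}

theorem cV (he : St e) {u w : Fin (n + 2) → F} {c : F} :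
    e (U.q u w c) ∈ 𝒞(Vk e (n + 1)) ↔ w (Fin.last _) = 0 := by
  refine (cent_map he).trans ⟨fun h => ?_, fun h y hy => ?_⟩
  · have := h _ eL_mem
    rw [U.comm_qq, U.q_eq_one] at this
    simpa using this.2.2
  · rw [U.eq_q hy.1, hy.2.1, U.comm_qq, dot_last hy.2.2, h, U.q_eq_one]
    simp

theorem cW (he : St e) {u w : Fin (n + 2) → F} {c : F} (h : e (U.q u w c) ∈ 𝒞(Wk e (n + 1))) (i : Fin (n + 2))
    (hi : (i : ℕ) < n + 1) : u i = 0 := by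
  have := (cent_map he).1 h (U.q 0 (Pi.single i 1) 0) ⟨rfl, rfl, fun j hj => Pi.single_eq_of_ne (by
    rintro rfl; omega) _⟩
  rw [U.comm_qq, U.q_eq_one] at this
  simpa using this.2.2

theorem comm_mem {A : Subgroup G} {x y : G} (h : ⁅x, y⁆ ∈ A) : ⁅y, x⁆ ∈ A := by
  rw [← commutatorElement_inv]; exact inv_mem h

theorem c1 (x : U (n + 2) F) : ∀ y ∈ Vk e (n + 1), ⁅y, e x⁆ ∈ Z e := by
  rintro _ ⟨y, hy, rfl⟩
  refine comm_mem (map_commutatorElement e x y ▸ mem_map_of_mem e ?_)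
  rw [U.eq_q hy.1, hy.2.1, U.comm_q]
  refine ⟨rfl, sub_eq_zero.2 (funext fun j => x.ut.inv.vecMul_apply fun i hi => hy.2.2 i ?_), by simp⟩
  have := j.2
  have : (i : ℕ) < j := hi
  omega

theorem c3 (he : St e) (x : U (n + 2) F) : ∀ y ∈ Q e, ⁅y, e x⁆ ∈ Q e ⊓ 𝒞(Vk e (n + 1)) := by
  intro y hy
  obtain ⟨u, w, c, rfl⟩ := mem_Q.1 hy
  refine comm_mem ?_
  rw [← map_commutatorElement, U.comm_q]
  exact ⟨mem_Q.2 ⟨_, _, _, rfl⟩, (cV he).2 (sub_eq_zero.2 (x.ut.mulVec_apply fun j hj => (hj.not_ge j.le_last).elim))⟩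

theorem c2 (he : St e) {s : Fin (n + 2) → F} {x : U (n + 2) F} (hx : x ∈ U.XX s (Pi.single (Fin.last _) 1)) :
    ∀ y ∈ Q e ⊓ 𝒞(Vk e (n + 1)), ⁅y, e x⁆ ∈ Vk e (n + 1) := by
  intro y hy
  obtain ⟨u, w, c, rfl⟩ := mem_Q.1 hy.1
  have hw := (cV he).1 hy.2
  obtain ⟨t, ht⟩ := hx
  obtain ⟨t', ht'⟩ := inv_mem (show x ∈ U.XX s (Pi.single (Fin.last _) 1) from ⟨t, ht⟩)
  refine comm_mem ?_
  rw [← map_commutatorElement, U.comm_q]
  refine mem_map_of_mem e ⟨rfl, ?_, fun i hi => ?_⟩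
  · simp [ht, add_mulVec, smul_mulVec, vecMulVec_mulVec, hw]
  · rw [U.inv_g] at ht'
    simp [ht', vecMul_add, vecMul_smul, vecMul_vecMulVec, ne_last hi]

end F1x

open F1x in
theorem f1 (h0 : All.{u, v} @PT) (h4 : All.{u, v} @F3) : All.{u, v} @F1 := by
  intro G _ _ n F _ _ _ e he g hg
  have := Nat.fact_prime_two
  have pt := h0 e he
  obtain ⟨H, hH⟩ : ∃ H, H = 𝒩(Q e) ⊓ 𝒩(Vk e (n + 1)) := ⟨_, rfl⟩
  have hQ : H ≤ 𝒩(Q e) := hH ▸ inf_le_left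
  have hV : H ≤ 𝒩(Vk e (n + 1)) := hH ▸ inf_le_right
  have hZ : H ≤ 𝒩(Z e) := hQ.trans pt.nz
  have hY : H ≤ 𝒩(Q e ⊓ 𝒞(Vk e (n + 1))) := le_norm_inf hQ (le_norm_cent hV)
  have hS : S e ≤ H := hH ▸ le_inf (S_le_NQ e) (S_le_NVk e _)
  obtain ⟨T, hT⟩ : ∃ T, T = H ⊓ 𝒞(Z e) ⊓ cmod (Vk e (n + 1)) (Z e) ⊓ cmod (Q e ⊓ 𝒞(Vk e (n + 1))) (Vk e (n + 1)) ⊓
    cmod (Q e) (Q e ⊓ 𝒞(Vk e (n + 1))) := ⟨_, rfl⟩
  have t1 : H ≤ 𝒩(T) := hT ▸ le_norm_inf (le_norm_inf (le_norm_inf (le_norm_inf le_normalizer (le_norm_cent hZ))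
    (le_norm_cmod hV hZ)) (le_norm_cmod hY hV)) (le_norm_cmod hQ hY)
  have t2 : T ≤ H := fun x hx => (hT ▸ hx).1.1.1.1
  have sy := syl_inf_of_norm he.syl (le_top : T ≤ ⊤) (hS.trans t1)
  have t3 : T ≤ 𝒩(W e) := le_of_syl_of_res sy (inf_le_left.trans (S_le_NW e)) (res_le_of fun x hx hc => by
    rw [hT] at hx
    exact cent_le_norm _ (cent_mono (W_le_Q e) (mem_cent_of_coprime (he.isP.to_le (inf_le_left.trans (Q_le_S e))) hc
      hx.2.2 (mem_cent_of_coprime (he.isP.to_le (map_le_S e _)) hc hx.1.2.2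
        (mem_cent_of_coprime (he.isP.to_le (Z_le_S e)) hc hx.1.1.2.2 hx.1.1.1.2)))))
  obtain ⟨m, hm, t, ht, rfl⟩ := frattini_mul sy t2 t1 (hH ▸ hg : g ∈ H)
  refine mul_mem ?_ (t3 ht)
  have nW : e (U.q (Pi.single (Fin.last (n + 1)) (1 : F)) 0 0) ∉ W e := fun k =>
    one_ne_zero (α := F) (by simpa using congrFun (he.mem_map.1 k).2 (Fin.last _))
  have m1 : m ∈ 𝒩(Wk e (n + 1)) := mem_norm_of_cj_le (by
    rintro _ ⟨x, hx, rfl⟩
    refine (pt.cVk _).le ⟨?_, conj_mem (le_norm_cent hV hm.1) ((pt.cVk _).ge hx).2⟩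
    obtain ⟨x, hx, rfl⟩ := hx
    by_cases s0 : x.w = 0
    · exact Z_le_W e (conj_mem (hZ hm.1) (mem_map_of_mem e ⟨hx.1, hx.2.1, s0⟩))
    have ad : U.Adm x.w (Pi.single (Fin.last _) 1) := ⟨s0, by simp, fun i j hij => by
      by_cases k : j = Fin.last _
      · rw [hx.2.2 i (by rw [k] at hij; exact hij), zero_mul]
      · rw [Pi.single_eq_of_ne k, mul_zero]⟩
    rcases h4 e he _ _ ad m (hQ hm.1) ((cj_le_of_le (K := S e ⊓ T) (by
      rintro _ ⟨y, hy, rfl⟩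
      have k := apply_mem_S e y
      exact ⟨k, hT ▸ ⟨⟨⟨⟨hS k, S_le_CZ e k⟩, hZ (hS k), c1 y⟩, hV (hS k), c2 he hy⟩, hY (hS k), c3 he y⟩⟩)
        hm.2).trans inf_le_left) with k | k
    · exact k.2 (conj_mem_cj m (mem_map_of_mem e ⟨hx.1, 1, by simp [hx.2.1], by simp⟩))
    · rw [← pt.rV, cj_eq (hV hm.1)] at k
      exact (nW (k.1 (mem_map_of_mem e eL_mem))).elim)
  refine mem_norm_of_cj_le ((two (C := 𝒞(Vk e (n + 1))) ?_).resolve_right fun k => ?_)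
  · rintro _ ⟨x, hx, rfl⟩
    have k1 : m * x * m⁻¹ ∈ 𝒞(Wk e (n + 1)) := conj_mem (norm_le_norm_cent _ m1) fun y hy => W_comm (Wk_le_W e _ hy) hx
    have k2 : m * x * m⁻¹ * (m * x * m⁻¹) = 1 := by rw [conj_mul, W_sq hx]; simp
    obtain ⟨u, w, c, k⟩ := mem_Q.1 (conj_mem (hQ hm.1) (W_le_Q e hx))
    change m * x * m⁻¹ ∈ _ ∨ m * x * m⁻¹ ∈ _
    rw [← k] at k1 k2 ⊢
    rw [← map_mul, U.sq_q, he.eq_one, U.q_eq_one, dot_last (cW he k1)] at k2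
    refine (mul_eq_zero.1 k2.2.2).imp (fun k3 => mem_map_of_mem e ⟨rfl, funext fun i => ?_⟩) (cV he).2
    rcases Fin.eq_castSucc_or_eq_last i with ⟨j, rfl⟩ | rfl
    exacts [cW he k1 _ j.2, k3]
  · rw [cj_le_iff, cj_eq (inv_mem (le_norm_cent hV hm.1))] at k
    exact one_ne_zero (α := F) (by
      simpa using (cV he).1 (k (mem_W.2 ⟨Pi.single (Fin.last (n + 1)) 1, 0, rfl⟩)))

end CL.LQ
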