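/-
Project LQ (S1769): conjugates of the transvection groups `XX`.
-/
import Cfsg.Agent.LQ.Defs

set_option autoImplicit false
open Cfsg Matrix Subgroup CL.Grp CL.Even CL.Loc
open scoped commutatorElement

namespace CL.LQ

universe u v

namespace F3a

variable {n : ℕ} {F : Type v} [Field F] {s φ a1 b1 a2 b2 : Fin n → F}

theorem comm_XX {x : U n F} (hx : x ∈ U.XX s φ) (u w : Fin n → F) (c : F) :
    ∃ p ∈ U.Pt φ 0, ∃ p' ∈ U.Pt 0 s, ⁅x, U.q u w c⁆ = p * p' := by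
  obtain ⟨t, h⟩ := id hx
  obtain ⟨t', h'⟩ := inv_mem hx
  rw [U.inv_g] at h'
  have e1 : u ᵥ* x.g⁻¹ - u = (t' * (u ⬝ᵥ s)) • φ := by
    rw [h', vecMul_add, vecMul_one, add_sub_cancel_left, vecMul_smul, vecMul_vecMulVec, smul_smul]
  have e2 : x.g *ᵥ w - w = (t * (φ ⬝ᵥ w)) • s := by
    rw [h, add_mulVec, one_mulVec, add_sub_cancel_left, smul_mulVec, vecMulVec_mulVec, op_smul_eq_smul, smul_smul]
  rw [U.comm_q, e1, e2]
  generalize x.u ⬝ᵥ w - (u ᵥ* x.g⁻¹) ⬝ᵥ x.w + u ⬝ᵥ w - (u ᵥ* x.g⁻¹) ⬝ᵥ w = d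
  generalize t' * (u ⬝ᵥ s) = a
  generalize t * (φ ⬝ᵥ w) = b
  refine ⟨U.q (a • φ) 0 (d - (a • φ) ⬝ᵥ (b • s)), ⟨rfl, a, rfl, by simp⟩, U.q 0 (b • s) 0, ⟨rfl, b, by simp, rfl⟩, ?_⟩
  rw [U.q_mul, U.q_inj]
  exact ⟨by simp, by simp, by ring⟩

theorem plane {φ' s' : Fin n → F} {α1 β1 α2 β2 : F} (h1 : φ' ≠ 0) (h2 : s' ≠ 0) (e1 : φ' = α1 • a1 + β1 • a2)
    (e2 : 0 = α1 • b1 + β1 • b2) (e3 : 0 = α2 • a1 + β2 • a2) (e4 : s' = α2 • b1 + β2 • b2) (α β : F) :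
    (∃ k : F, α • a1 + β • a2 = k • φ') ∧ ∃ k : F, α • b1 + β • b2 = k • s' := by
  have hd : α1 * β2 - α2 * β1 ≠ 0 := fun d => by
    have k1 : β2 • φ' = 0 := by
      rw [e1]; linear_combination (norm := module) d • a1 - β1 • e3
    have k2 : α2 • φ' = 0 := by
      rw [e1]; linear_combination (norm := module) -(d • a2) - α1 • e3
    rw [smul_eq_zero_iff_left h1] at k1 k2
    exact h2 (by rw [e4, k1, k2]; simp)
  obtain ⟨r, hr⟩ : ∃ r, r * (α1 * β2 - α2 * β1) = 1 := ⟨_, inv_mul_cancel₀ hd⟩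
  refine ⟨⟨r * (α * β2 - β * α2), ?_⟩, r * (α1 * β - α * β1), ?_⟩
  · rw [e1]
    linear_combination (norm := module) -(hr • (α • a1 + β • a2)) - (r * (α1 * β - α * β1)) • e3
  · rw [e4]
    linear_combination (norm := module) -(hr • (α • b1 + β • b2)) - (r * (α * β2 - β * α2)) • e2

theorem rank_one {A : Matrix (Fin n) (Fin n) F} (hs : s ≠ 0) (h1 : ∀ w, ∃ k : F, A *ᵥ w = k • s)
    (h2 : ∀ u, ∃ k : F, u ᵥ* A = k • φ) : ∃ t : F, A = t • vecMulVec s φ := by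
  obtain ⟨i, hi⟩ := Function.ne_iff.1 hs
  obtain ⟨d, hd⟩ := h2 (Pi.single i 1)
  refine ⟨d * (s i)⁻¹, Matrix.ext fun a j => ?_⟩
  obtain ⟨c, hc⟩ := h1 (Pi.single j 1)
  rw [mulVec_single_one] at hc
  rw [single_one_vecMul] at hd
  have k1 : A a j = c * s a := congrFun hc a
  have k2 : A i j = c * s i := congrFun hc i
  have k3 : A i j = d * φ j := congrFun hd j
  have k4 : (s i)⁻¹ * s i = 1 := inv_mul_cancel₀ hi
  rw [Matrix.smul_apply, vecMulVec_apply, smul_eq_mul, k1]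
  linear_combination (s a * (s i)⁻¹) * (k3 - k2) - c * s a * k4

theorem card_XX (h : U.Adm s φ) : Nat.card (U.XX s φ) = Nat.card ((Fin n → F) × F × (Fin n → F) × F) := by
  refine (Nat.card_eq_of_bijective (fun p : (Fin n → F) × F × (Fin n → F) × F =>
    (⟨⟨p.1, _, p.2.2.1, p.2.2.2, h.ut p.2.1⟩, p.2.1, rfl⟩ : U.XX s φ)) ⟨fun p p' e => ?_, fun ⟨x, t, hx⟩ => ?_⟩).symm
  · have e := congrArg Subtype.val e
    exact Prod.ext (congrArg U.u e) (Prod.ext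
      (smul_left_injective F (vecMulVec_ne_zero h.s0 h.φ0) (add_left_cancel (congrArg U.g e)))
      (Prod.ext (congrArg U.w e) (congrArg U.c e)))
  · exact ⟨⟨x.u, t, x.w, x.c⟩, Subtype.ext (U.ext rfl hx.symm rfl rfl)⟩

end F3a

open F3a

theorem f3a (h : All.{u, v} @PT) : All.{u, v} @F3a := by
  intro G _ _ n F _ _ _ e he s φ ad g hg hS
  have pt := h e he
  obtain ⟨a1, b1, c1, q1⟩ := mem_Q.1 (conj_mem hg (mem_Q.2 ⟨φ, 0, 0, rfl⟩))
  obtain ⟨a2, b2, c2, q2⟩ := mem_Q.1 (conj_mem hg (mem_Q.2 ⟨0, s, 0, rfl⟩))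
  have p1 := (pt.pt2 g hg _ _ _ _ _ _ (.inl ad.φ0) q1.symm).2
  have p2 := (pt.pt2 g hg _ _ _ _ _ _ (.inr ad.s0) q2.symm).2
  have key : ∀ x : U (n + 2) F, e x ∈ cj g (XX e s φ) → ∀ u w, ∃ α β : F,
      u ᵥ* x.g⁻¹ - u = α • a1 + β • a2 ∧ x.g *ᵥ w - w = α • b1 + β • b2 := fun x hx u w => by
    obtain ⟨y, hy, ey⟩ := mem_cj.1 hx
    obtain ⟨u', w', c', eq⟩ := mem_Q.1 (conj_mem' hg (mem_Q.2 ⟨u, w, 0, rfl⟩))
    obtain ⟨p, hp, p', hp', k⟩ := comm_XX hy u' w' c'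
    obtain ⟨r, ⟨r1, α, r2, r3⟩, er⟩ := p1.le (conj_mem_cj g (mem_map_of_mem e hp))
    obtain ⟨r', ⟨r1', β, r2', r3'⟩, er'⟩ := p2.le (conj_mem_cj g (mem_map_of_mem e hp'))
    have k1 : ⁅x, U.q u w 0⁆ = r * r' := he.inj (by
      have := congrArg e k
      rw [map_commutatorElement, ey, eq, map_mul] at this
      rw [map_commutatorElement, map_mul, er, er', conj_mul, ← this]
      simp only [commutatorElement_def]; group)
    rw [U.comm_q] at k1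
    refine ⟨α, β, (congrArg U.u k1).trans ?_, (congrArg U.w k1).trans ?_⟩
    · rw [U.mul_u, r1', vecMul_one, r2, r2']; exact add_comm _ _
    · rw [U.mul_w, r1, one_mulVec, r3, r3']; exact add_comm _ _
  have m0 : e (U.l _ (ad.ut 1)) ∈ XX e s φ := mem_map_of_mem e ⟨1, rfl⟩
  obtain ⟨x1, e1⟩ := hS (conj_mem_cj g m0)
  have m1 : e x1 ∈ cj g (XX e s φ) := e1 ▸ conj_mem_cj g m0
  have g1 : x1.g ≠ 1 := fun k => by
    have k1 := conj_mem' hg (mem_map_of_mem e (U.mem_Q.2 k))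
    rw [e1, show g⁻¹ * (g * e (U.l _ (ad.ut 1)) * g⁻¹) * g = e (U.l _ (ad.ut 1)) by group] at k1
    have k2 : 1 + (1 : F) • vecMulVec s φ = 1 := he.mem_map.1 k1
    rw [one_smul, add_eq_left] at k2
    exact vecMulVec_ne_zero ad.s0 ad.φ0 k2
  obtain ⟨u, hu⟩ := not_forall.1 fun k => g1 (U.g_eq_one_of_inv (eq_one_of_vecMul k))
  obtain ⟨w, hw⟩ := not_forall.1 fun k => g1 (eq_one_of_mulVec k)
  rw [← sub_eq_zero] at hu hw
  obtain ⟨α1, β1, f1, f2⟩ := key x1 m1 u 0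
  obtain ⟨α2, β2, f3, f4⟩ := key x1 m1 0 w
  rw [mulVec_zero, sub_zero] at f2
  rw [zero_vecMul, sub_zero] at f3
  have pl := plane hu hw f1 f2 f3 f4
  generalize u ᵥ* x1.g⁻¹ - u = φ' at hu pl
  generalize x1.g *ᵥ w - w = s' at hw pl
  have all : ∀ x : U (n + 2) F, e x ∈ cj g (XX e s φ) → ∃ t : F, x.g - 1 = t • vecMulVec s' φ' := fun x hx =>
    rank_one hw (fun w => by
      obtain ⟨α, β, -, k⟩ := key x hx 0 w
      rw [sub_mulVec, one_mulVec, k]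
      exact (pl α β).2) fun u => by
      obtain ⟨α, β, k, -⟩ := key x hx (u ᵥ* x.g) 0
      obtain ⟨c, hc⟩ := (pl α β).1
      rw [vecMul_vecMul, U.g_mul_inv, vecMul_one, hc] at k
      exact ⟨-c, by rw [vecMul_sub, vecMul_one, neg_smul, ← k, neg_sub]⟩
  have ad' : U.Adm s' φ' := ⟨hw, hu, fun i j hij => by
    obtain ⟨t, ht⟩ := all x1 m1
    have t0 : t ≠ 0 := fun k => g1 (by rwa [k, zero_smul, sub_eq_zero] at ht)
    have k := congrFun (congrFun ht i) j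
    rw [Matrix.smul_apply, vecMulVec_apply, smul_eq_mul, Matrix.sub_apply] at k
    refine (mul_eq_zero.1 (k.symm.trans ?_)).resolve_left t0
    rcases hij.eq_or_lt with rfl | l
    · rw [x1.ut.diag, one_apply_eq, sub_self]
    · rw [x1.ut.low i j l, one_apply_ne l.ne', sub_self]⟩
  refine ⟨s', φ', ad', eq_of_le_of_card_ge (fun y hy => ?_) (le_of_eq ?_)⟩
  · obtain ⟨x, rfl⟩ := hS hy
    obtain ⟨t, ht⟩ := all x hy
    exact mem_map_of_mem e ⟨t, by rw [← ht, add_sub_cancel]⟩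
  · rw [card_cj, XX, XX, he.card_map, he.card_map, card_XX ad, card_XX ad']

end CL.LQ
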