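/-
Project LQ (S1769): the two distinguished points of a transvection group are permuted by `N(Q)`.
-/
import Cfsg.Agent.LQ.Defs

set_option autoImplicit false
open Cfsg Matrix Subgroup CL.Grp CL.Even CL.Loc
open scoped commutatorElement

namespace CL.LQ

universe u v

namespace F3bx

section Gen

variable {H H' : Type*} [Group H] [Group H']

def rho (Q Z X : Subgroup H) : Subgroup H := ⁅X, Q⁆ ⊔ Z

def C0 (Q Z X : Subgroup H) (t : H) : Prop := ∀ x ∈ Q, (∀ r ∈ rho Q Z X, Commute x r) → Commute t x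

def Sp (Q Z X p : Subgroup H) : Prop := ∀ t ∈ X, C0 Q Z X t → t ∉ Q → ∀ t' ∈ X, C0 Q Z X t' → t' ∉ Q →
  ∃ r ∈ rho Q Z X, ∀ x ∈ Q, ⁅t', x⁆ ∈ p → ∃ x' ∈ Q, ⁅t * r, x'⁆ = ⁅t', x⁆

theorem rho_map (f : H →* H') (Q Z X : Subgroup H) : rho (Q.map f) (Z.map f) (X.map f) = (rho Q Z X).map f := by
  rw [rho, rho, Subgroup.map_sup, Subgroup.map_commutator]

theorem fa {f : H →* H'} {K : Subgroup H} {P : H' → Prop} : (∀ x ∈ K.map f, P x) ↔ ∀ x ∈ K, P (f x) :=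
  ⟨fun h _ hx => h _ (mem_map_of_mem f hx), fun h _ ⟨x, hx, k⟩ => k ▸ h x hx⟩

theorem ex {f : H →* H'} {K : Subgroup H} {P : H' → Prop} : (∃ x ∈ K.map f, P x) ↔ ∃ x ∈ K, P (f x) :=
  ⟨fun ⟨_, ⟨x, hx, k⟩, h⟩ => ⟨x, hx, k ▸ h⟩, fun ⟨_, hx, h⟩ => ⟨_, mem_map_of_mem f hx, h⟩⟩

theorem sp_map {f : H →* H'} (hf : Function.Injective f) (Q Z X p : Subgroup H) :
    Sp (Q.map f) (Z.map f) (X.map f) (p.map f) ↔ Sp Q Z X p := by
  simp only [Sp, C0, rho_map, fa, ex, mem_map_iff_mem hf, ← map_mul, ← map_commutatorElement, hf.eq_iff,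
    commute_map_iff hf]

end Gen

section Model

variable {n : ℕ} {F : Type v} [Field F] {s φ : Fin n → F}

theorem vm (u : Fin n → F) (l : F) : u ᵥ* (1 + l • vecMulVec s φ) = u + (l * (u ⬝ᵥ s)) • φ := by
  rw [vecMul_add, vecMul_one, vecMul_smul, vecMul_vecMulVec, smul_smul]

theorem mv (w : Fin n → F) (l : F) : (1 + l • vecMulVec s φ) *ᵥ w = w + (l * (φ ⬝ᵥ w)) • s := by
  rw [add_mulVec, one_mulVec, smul_mulVec, vecMulVec_mulVec, op_smul_eq_smul, smul_smul]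

theorem dot0 (h : U.Adm s φ) : φ ⬝ᵥ s = 0 := by simpa using U.smul_dot_eq_zero (h.ut 1)

theorem span {φ u : Fin n → F} (h : φ ≠ 0) (k : ∀ w, φ ⬝ᵥ w = 0 → u ⬝ᵥ w = 0) : ∃ a : F, u = a • φ := by
  obtain ⟨w0, h0⟩ := exists_dot h 1
  refine ⟨u ⬝ᵥ w0, sub_eq_zero.1 (eq_zero_of_dot fun w => ?_)⟩
  have := k (w - (φ ⬝ᵥ w) • w0) (by rw [dotProduct_sub, dotProduct_smul, dotProduct_comm φ w0, h0]; simp)
  rw [dotProduct_sub, dotProduct_smul, smul_eq_mul] at this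
  rw [dotProduct_sub, dotProduct_smul, smul_eq_mul, dotProduct_comm w u, dotProduct_comm w φ]
  linear_combination this

theorem pt_smul {α : F} (hα : α ≠ 0) (a b : Fin n → F) : U.Pt (α • a) (α • b) = U.Pt a b :=
  Subgroup.ext fun _ => ⟨fun ⟨h1, t, h2, h3⟩ => ⟨h1, t * α, by rw [h2, smul_smul], by rw [h3, smul_smul]⟩,
    fun ⟨h1, t, h2, h3⟩ => ⟨h1, t * α⁻¹, by rw [h2, smul_smul, inv_mul_cancel_right₀ hα],
      by rw [h3, smul_smul, inv_mul_cancel_right₀ hα]⟩⟩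

/-- the set of all `q (a • φ) (b • s) c` -/
def R (s φ : Fin n → F) : Subgroup (U n F) where
  carrier := {x | x.g = 1 ∧ (∃ a : F, x.u = a • φ) ∧ ∃ b : F, x.w = b • s}
  one_mem' := ⟨rfl, ⟨0, by simp⟩, 0, by simp⟩
  mul_mem' := fun {x y} ⟨h1, ⟨a, h2⟩, b, h3⟩ ⟨k1, ⟨a', k2⟩, b', k3⟩ =>
    ⟨by simp [h1, k1], ⟨a' + a, by simp [k1, h2, k2, add_smul]⟩, b' + b, by simp [h1, h3, k3, add_smul]⟩
  inv_mem' := fun {x} ⟨h1, ⟨a, h2⟩, b, h3⟩ => ⟨by simp [h1], ⟨-a, by simp [h1, h2]⟩, -b, by simp [h1, h3]⟩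

variable [CharP F 2]

theorem cm {t : U n F} {l : F} (ht : t.g = 1 + l • vecMulVec s φ) (u w : Fin n → F) (c : F) :
    ⁅t, U.q u w c⁆ = U.q ((l * (u ⬝ᵥ s)) • φ) ((l * (φ ⬝ᵥ w)) • s)
      (l * (u ⬝ᵥ s) * (φ ⬝ᵥ w) + t.u ⬝ᵥ w + u ⬝ᵥ t.w + l * (u ⬝ᵥ s) * (φ ⬝ᵥ t.w)) := by
  have two : (2 : F) = 0 := CharTwo.two_eq_zero
  have hi : t.g⁻¹ = 1 + l • vecMulVec s φ := by
    rw [ht]; exact inv_eq_right_inv (by rw [U.one_add_mul l (ht ▸ t.ut), CharTwo.add_self_eq_zero]; simp)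
  rw [U.comm_q, hi, ht, vm, mv, U.q_inj]
  refine ⟨by abel, by abel, ?_⟩
  simp only [add_dotProduct, smul_dotProduct, smul_eq_mul]
  linear_combination (-(u ⬝ᵥ t.w) - l * (u ⬝ᵥ s) * (φ ⬝ᵥ t.w) - l * (u ⬝ᵥ s) * (φ ⬝ᵥ w)) * two

theorem cm2 (h : U.Adm s φ) {t : U n F} {l a b : F} (ht : t.g = 1 + l • vecMulVec s φ) (hu : t.u = a • φ)
    (hw : t.w = b • s) (u w : Fin n → F) (c : F) :
    ⁅t, U.q u w c⁆ = U.q ((l * (u ⬝ᵥ s)) • φ) ((l * (φ ⬝ᵥ w)) • s)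
      (l * (u ⬝ᵥ s) * (φ ⬝ᵥ w) + a * (φ ⬝ᵥ w) + b * (u ⬝ᵥ s)) := by
  rw [cm ht, hu, hw]
  simp only [smul_dotProduct, dotProduct_smul, smul_eq_mul, dot0 h, mul_zero, add_zero]

theorem rho_eq (h : U.Adm s φ) : rho (U.Q n F) (U.Z n F) (U.XX s φ) = R s φ := by
  refine le_antisymm (sup_le (commutator_le.2 ?_) fun x hx => ⟨hx.1, ⟨0, by simp [hx.2.1]⟩, 0, by simp [hx.2.2]⟩) ?_
  · rintro t ⟨l, ht⟩ x hx
    rw [U.eq_q hx, cm ht]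
    exact ⟨rfl, ⟨_, rfl⟩, _, rfl⟩
  · rintro x ⟨h1, ⟨a, h2⟩, b, h3⟩
    obtain ⟨u, hu⟩ := exists_dot h.s0 a
    obtain ⟨w, hw⟩ := exists_dot h.φ0 b
    have k := fun u w => cm2 h (t := U.l _ (h.ut 1)) (l := 1) (a := 0) (b := 0) rfl (by simp) (by simp) u w 0
    have m : ∀ u w, ⁅U.l _ (h.ut 1), U.q u w 0⁆ ∈ rho (U.Q n F) (U.Z n F) (U.XX s φ) := fun u w =>
      mem_sup_left (commutator_mem_commutator ⟨1, rfl⟩ rfl)
    have e1 : x = ⁅U.l _ (h.ut 1), U.q u w 0⁆ * U.q 0 0 (x.c - a * b) := by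
      rw [k, U.q_mul, U.eq_q h1, U.q_inj, h2, h3, hu, dotProduct_comm φ w, hw]; simp
    rw [e1]
    exact mul_mem (m u w) (mem_sup_right ⟨rfl, rfl, rfl⟩)

theorem c0_of (h : U.Adm s φ) {t : U n F} {l : F} (ht : t.g = 1 + l • vecMulVec s φ)
    (k : C0 (U.Q n F) (U.Z n F) (U.XX s φ) t) : (∃ a : F, t.u = a • φ) ∧ ∃ b : F, t.w = b • s := by
  have k1 : ∀ u w : Fin n → F, u ⬝ᵥ s = 0 → φ ⬝ᵥ w = 0 → t.u ⬝ᵥ w + u ⬝ᵥ t.w = 0 := fun u w hu hw => by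
    have := k (U.q u w 0) rfl (by
      rw [rho_eq h]
      rintro r ⟨h1, ⟨a, h2⟩, b, h3⟩
      rw [← commutatorElement_eq_one_iff_commute, U.eq_q h1, U.comm_qq, h2, h3, U.q_eq_one]
      simp [hu, hw])
    rw [← commutatorElement_eq_one_iff_commute, cm ht, U.q_eq_one, hu, hw] at this
    simpa using this.2.2
  exact ⟨span h.φ0 fun w hw => by simpa using k1 0 w (by simp) hw, span h.s0 fun u hu => by
    simpa [dotProduct_comm t.w u] using k1 u 0 ((dotProduct_comm _ _).trans hu) (by simp)⟩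

theorem c0_l (h : U.Adm s φ) (l : F) : C0 (U.Q n F) (U.Z n F) (U.XX s φ) (U.l _ (h.ut l)) := by
  intro x hx k
  rw [rho_eq h] at k
  have k1 := k (U.q φ 0 0) ⟨rfl, ⟨1, by simp⟩, 0, by simp⟩
  have k2 := k (U.q 0 s 0) ⟨rfl, ⟨0, by simp⟩, 1, by simp⟩
  rw [← commutatorElement_eq_one_iff_commute, U.eq_q hx, U.comm_qq, U.q_eq_one] at k1 k2
  have e1 : φ ⬝ᵥ x.w = 0 := by simpa using k1.2.2
  have e2 : x.u ⬝ᵥ s = 0 := by simpa using k2.2.2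
  rw [← commutatorElement_eq_one_iff_commute, U.eq_q hx,
    cm2 h (t := U.l _ (h.ut l)) (l := l) (a := 0) (b := 0) rfl (by simp) (by simp), e1, e2, U.q_eq_one]
  simp

omit [CharP F 2] in
theorem ne0 {t : U n F} {l : F} (ht : t.g = 1 + l • vecMulVec s φ) (k : t ∉ U.Q n F) : l ≠ 0 := fun e =>
  k (by rw [U.mem_Q, ht, e]; simp)

omit [CharP F 2] in
theorem l_nQ (h : U.Adm s φ) {l : F} (hl : l ≠ 0) : U.l _ (h.ut l) ∉ U.Q n F := fun k => by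
  obtain ⟨u, hu⟩ := exists_dot h.s0 1
  have := vm (s := s) (φ := φ) u l
  rw [show 1 + l • vecMulVec s φ = 1 from k, vecMul_one, hu, mul_one, left_eq_add, smul_eq_zero] at this
  exact this.elim hl h.φ0

theorem spA (h : U.Adm s φ) : Sp (U.Q n F) (U.Z n F) (U.XX s φ) (U.Pt φ 0) := by
  rintro t ⟨l, ht⟩ c1 n1 t' ⟨l', ht'⟩ c2 n2
  obtain ⟨⟨a, ha⟩, b, hb⟩ := c0_of h ht c1
  obtain ⟨⟨a', ha'⟩, b', hb'⟩ := c0_of h ht' c2
  have l0 := ne0 ht n1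
  have l0' := ne0 ht' n2
  refine ⟨U.q 0 ((b' * l / l' - b) • s) 0, by rw [rho_eq h]; exact ⟨rfl, ⟨0, by simp⟩, _, rfl⟩, fun x hx k => ?_⟩
  rw [U.eq_q hx, cm2 h ht' ha' hb'] at k ⊢
  obtain ⟨-, τ, -, k⟩ := k
  have e1 : φ ⬝ᵥ x.w = 0 := by simpa [l0', h.s0] using k
  obtain ⟨u, hu⟩ := exists_dot h.s0 (l' * (x.u ⬝ᵥ s) / l)
  refine ⟨U.q u 0 0, rfl, ?_⟩
  rw [cm2 h (l := l) (a := a) (b := b' * l / l') (by simp [ht]) (by simp [ha])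
    (by rw [U.mul_w, ht, mv, hb, U.q_w, dotProduct_smul, dot0 h]; simp [sub_smul]), hu, e1, U.q_inj]
  refine ⟨by congr 1; field_simp, by simp, ?_⟩
  simp only [dotProduct_zero, mul_zero, zero_add, add_zero]; field_simp

theorem spB (h : U.Adm s φ) : Sp (U.Q n F) (U.Z n F) (U.XX s φ) (U.Pt 0 s) := by
  rintro t ⟨l, ht⟩ c1 n1 t' ⟨l', ht'⟩ c2 n2
  obtain ⟨⟨a, ha⟩, b, hb⟩ := c0_of h ht c1
  obtain ⟨⟨a', ha'⟩, b', hb'⟩ := c0_of h ht' c2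
  have l0 := ne0 ht n1
  have l0' := ne0 ht' n2
  refine ⟨U.q ((a' * l / l' - a) • φ) 0 0, by rw [rho_eq h]; exact ⟨rfl, ⟨_, rfl⟩, 0, by simp⟩, fun x hx k => ?_⟩
  rw [U.eq_q hx, cm2 h ht' ha' hb'] at k ⊢
  obtain ⟨-, τ, k, -⟩ := k
  have e1 : x.u ⬝ᵥ s = 0 := by simpa [l0', h.φ0] using k
  obtain ⟨w, hw⟩ := exists_dot h.φ0 (l' * (φ ⬝ᵥ x.w) / l)
  refine ⟨U.q 0 w 0, rfl, ?_⟩
  rw [cm2 h (l := l) (a := a' * l / l') (b := b) (by simp [ht]) (by simp [ha, sub_smul]) (by simp [hb]),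
    dotProduct_comm φ w, hw, e1, U.q_inj]
  refine ⟨by simp, by congr 1; field_simp, ?_⟩
  simp only [zero_dotProduct, mul_zero, zero_mul, zero_add, add_zero]; field_simp

theorem of_sp (h : U.Adm s φ) {l α β : F} (l0 : l ≠ 0) (l1 : l ≠ 1)
    (k : Sp (U.Q n F) (U.Z n F) (U.XX s φ) (U.Pt (α • φ) (β • s))) : α = 0 ∨ β = 0 := by
  obtain ⟨r, hr, k⟩ := k _ ⟨1, rfl⟩ (c0_l h 1) (l_nQ h one_ne_zero) _ ⟨l, rfl⟩ (c0_l h l) (l_nQ h l0)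
  rw [rho_eq h] at hr
  obtain ⟨h1, ⟨a, h2⟩, b, h3⟩ := hr
  have m : ∀ κ : F, l * (κ * α) * (l * (κ * β)) + a * (l * (κ * β)) + b * (l * (κ * α)) = l * (κ * α) * (κ * β) := by
    intro κ
    obtain ⟨u, hu⟩ := exists_dot h.s0 (κ * α)
    obtain ⟨w, hw⟩ := exists_dot h.φ0 (κ * β)
    rw [dotProduct_comm] at hw
    have e1 := cm2 h (t := U.l _ (h.ut l)) (l := l) (a := 0) (b := 0) rfl (by simp) (by simp) u w 0
    rw [hu, hw] at e1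
    obtain ⟨x, hx, e2⟩ := k (U.q u w 0) rfl (by
      rw [e1]; exact ⟨rfl, l * κ, by simp [smul_smul, mul_assoc], by simp [smul_smul, mul_assoc]⟩)
    rw [e1, U.eq_q hx, cm2 h (l := 1) (a := a) (b := b) (by simp [h1]) (by simp [h2])
      (by rw [U.mul_w, U.l_g, mv, h3, dotProduct_smul, dot0 h]; simp), U.q_inj, smul_left_inj h.φ0,
      smul_left_inj h.s0, one_mul, one_mul] at e2
    obtain ⟨e3, e4, e5⟩ := e2
    rw [e3, e4] at e5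
    linear_combination e5
  have e : l ^ 2 * (l - 1) ^ 2 * (α * β) = 0 := by linear_combination m l - l * m 1
  simpa [l0, sub_eq_zero, l1] using e

end Model

end F3bx

open F3bx in
theorem f3b (h : All.{u, v} @PT) : All.{u, v} @F3b := by
  intro G _ _ n F _ _ _ e he s φ s' φ' ha ha' g hg hX
  have hp := h e he
  obtain ⟨l, l0, l1⟩ := he.exists_ne
  have inj : Function.Injective (MulAut.conj g).toMonoidHom := (MulAut.conj g).injective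
  have key : ∀ a b, a ≠ 0 ∨ b ≠ 0 → U.q a b 0 ∈ R s φ → Sp (U.Q _ F) (U.Z _ F) (U.XX s φ) (U.Pt a b) →
      cj g (Pt e a b) = Pt e φ' 0 ∨ cj g (Pt e a b) = Pt e 0 s' := fun a b h0 hr hs => by
    have k1 : g * e (U.q a b 0) * g⁻¹ ∈ (R s' φ').map e := by
      rw [← rho_eq ha', ← rho_map]
      change _ ∈ rho (Q e) (Z e) (XX e s' φ')
      rw [← hX, ← cj_eq hg, ← cj_eq (hp.nz hg), rho_map]
      refine conj_mem_cj g ?_
      rw [Q, Z, XX, rho_map, rho_eq ha]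
      exact mem_map_of_mem e hr
    obtain ⟨y, ⟨h1, ⟨α, h2⟩, β, h3⟩, hy⟩ := k1
    rw [U.eq_q h1, h2, h3] at hy
    obtain ⟨n0, k2⟩ := hp.pt2 g hg a b 0 _ _ _ h0 hy.symm
    have k3 : Sp (Q e) (Z e) (XX e s φ) (Pt e a b) := (sp_map he.inj _ _ _ _).2 hs
    have k4 := (sp_map inj _ _ _ _).2 k3
    rw [cj_eq hg, cj_eq (hp.nz hg), hX, k2] at k4
    rw [k2]
    rcases of_sp ha' l0 l1 ((sp_map he.inj _ _ _ _).1 k4) with rfl | rfl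
    · have : β ≠ 0 := fun e => by simp [e] at n0
      exact Or.inr (by rw [Pt, Pt, ← pt_smul this 0 s']; simp)
    · have : α ≠ 0 := fun e => by simp [e] at n0
      exact Or.inl (by rw [Pt, Pt, ← pt_smul this φ' 0]; simp)
  have hV : Pt e φ' 0 ≤ V e := map_mono fun x ⟨h1, t, _, h3⟩ => ⟨h1, by simpa using h3⟩
  have hW : Pt e 0 s' ≤ W e := map_mono fun x ⟨h1, t, h2, _⟩ => ⟨h1, by simpa using h2⟩
  have ne : cj g (Pt e φ 0) ≠ cj g (Pt e 0 s) := fun k => by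
    have k1 : e (U.q φ 0 0) ∈ Pt e 0 s := cj_inj.1 k ▸ mem_map_of_mem e ⟨rfl, 1, by simp, by simp⟩
    obtain ⟨-, t, k2, -⟩ := he.mem_map.1 k1
    exact ha.φ0 (by simpa using k2)
  rcases key φ 0 (Or.inl ha.φ0) ⟨rfl, ⟨1, by simp⟩, 0, by simp⟩ (spA ha) with k1 | k1 <;>
    rcases key 0 s (Or.inr ha.s0) ⟨rfl, ⟨0, by simp⟩, 1, by simp⟩ (spB ha) with k2 | k2
  · exact absurd (k1.trans k2.symm) ne
  · exact Or.inl ⟨k1 ▸ hV, k2 ▸ hW⟩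
  · exact Or.inr ⟨k1 ▸ hW, k2 ▸ hV⟩
  · exact absurd (k1.trans k2.symm) ne

end CL.LQ
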