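/-
Project LQ (S1769): two computations in the model.
-/
import Cfsg.Agent.LQ.Defs

set_option autoImplicit false
open Cfsg Matrix Subgroup CL.Grp CL.Even CL.Loc
open scoped commutatorElement

namespace CL.LQ

universe u v

namespace H1x

variable {n : ℕ} {F : Type v} [Field F]

theorem exists_row {N : Matrix (Fin n) (Fin n) F} {u : Fin n → F} (h : ∀ b, N *ᵥ b = 0 → u ⬝ᵥ b = 0) :
    ∃ a, a ᵥ* N = u := by
  by_contra hn
  obtain ⟨f, h1, h2⟩ := Submodule.exists_dual_map_eq_bot_of_notMem (p := LinearMap.range N.vecMulLinear) (x := u)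
    hn inferInstance
  obtain ⟨b, rfl⟩ := (dotProductEquiv F (Fin n)).surjective f
  refine h1 ((dotProduct_comm _ _).trans (h b (eq_zero_of_dot fun a => ?_)))
  have : dotProductEquiv F (Fin n) b (a ᵥ* N) ∈ (⊥ : Submodule F F) := h2 ▸ Submodule.mem_map_of_mem ⟨a, rfl⟩
  rw [dotProduct_mulVec, dotProduct_comm]
  exact this

theorem comm_v (s : U n F) (u : Fin n → F) (c : F) :
    ⁅s, U.q u 0 c⁆ = U.q (u ᵥ* s.g⁻¹ - u) 0 (-((u ᵥ* s.g⁻¹) ⬝ᵥ s.w)) := by
  rw [U.comm_q]; simp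

/-- the elements of `V` orthogonal to `ω` -/
def H (ω : Fin n → F) : Subgroup (U n F) where
  carrier := {x | x ∈ U.V n F ∧ x.u ⬝ᵥ ω = 0}
  one_mem' := ⟨one_mem _, by simp⟩
  mul_mem' := fun {a b} ha hb => ⟨mul_mem ha.1 hb.1, by simp [hb.1.1, ha.2, hb.2]⟩
  inv_mem' := fun {a} ha => ⟨inv_mem ha.1, by simp [ha.1.1, ha.2]⟩

end H1x

open H1x

theorem nd3 : ND3.{v} := by
  intro F _ _ n j m _ hV hW hm
  obtain ⟨a, ha⟩ := exists_row (N := 1 - j.g) (u := j.u) fun b hb => by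
    rw [sub_mulVec, one_mulVec, sub_eq_zero] at hb
    have := hW (U.q 0 b 0) ⟨rfl, rfl⟩
    rw [U.comm_q, ← hb] at this
    simpa using (U.q_eq_one.1 (this ⟨rfl, by simp, by simp⟩)).2.2
  obtain ⟨b, hb⟩ := exists_row (N := (j.g - 1)ᵀ) (u := j.w) fun a ha => by
    rw [mulVec_transpose, vecMul_sub, vecMul_one, sub_eq_zero] at ha
    have := hV (U.q a 0 0) ⟨rfl, rfl⟩
    rw [comm_v, U.vecMul_inv_of ha] at this
    simpa [dotProduct_comm] using (U.q_eq_one.1 (this ⟨rfl, by simp, by simp⟩)).2.2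
  rw [vecMul_sub, vecMul_one] at ha
  rw [vecMul_transpose, sub_mulVec, one_mulVec] at hb
  set s : U n F := U.q a b 0 with hs
  set ω := (s * m * s⁻¹).w with hω
  have e1 : (s * j * s⁻¹).u = 0 := by simp [hs, ← ha]
  have e2 : (s * j * s⁻¹).w = 0 := by simp [hs, ← hb, mulVec_neg]
  have e3 : (s * j * s⁻¹).g = j.g := by simp [hs]
  have h1 : ∀ y ∈ centralizer {j}, y.g *ᵥ ω = ω := fun y hy => by
    have h2 : U.l y.g y.ut * (s * j * s⁻¹) = s * j * s⁻¹ * U.l y.g y.ut := by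
      have := congrArg U.g (mem_centralizer_singleton_iff.1 hy)
      generalize s * j * s⁻¹ = j' at e1 e2 e3
      exact U.ext (by simp [e1]) (by simpa [e3] using this) (by simp [e2]) (by simp)
    have h3 := hm.2 (s⁻¹ * U.l y.g y.ut * s) (mem_centralizer_singleton_iff.2 (by
      calc _ = s⁻¹ * (U.l y.g y.ut * (s * j * s⁻¹)) * s := by group
        _ = _ := by rw [h2]; group))
    have h4 : U.l y.g y.ut * (s * m * s⁻¹) = s * m * s⁻¹ * U.l y.g y.ut := by
      calc _ = s * (s⁻¹ * U.l y.g y.ut * s * m) * s⁻¹ := by group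
        _ = _ := by rw [h3]; group
    have h5 := congrArg U.w h4
    rw [hω]
    generalize s * m * s⁻¹ = m' at h5
    simpa using h5
  have h2 : ∀ u : Fin n → F, u ᵥ* m.g⁻¹ = u → u ⬝ᵥ ω = u ⬝ᵥ m.w := fun u hu => by
    have : u ᵥ* m.g = u := by
      conv_lhs => rw [← hu]
      simp
    simp [hω, hs, mulVec_neg, dotProduct_mulVec, this]
  have h3 : ⁅centralizer {j}, U.V n F⁆ ⊔ (U.V n F ⊓ centralizer {j}) ≤ H ω := by
    refine sup_le (commutator_le.2 fun y hy x hx => ?_) fun x hx => ⟨hx.1, ?_⟩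
    · rw [U.eq_q hx.1, hx.2, comm_v]
      exact ⟨⟨rfl, rfl⟩, by rw [U.q_u, sub_dotProduct, ← dotProduct_mulVec, U.inv_mulVec_of (h1 y hy), sub_self]⟩
    · have h4 : ⁅m, x⁆ = 1 := commutatorElement_eq_one_iff_mul_comm.2 (hm.2 x hx.2).symm
      rw [U.eq_q hx.1.1, hx.1.2, comm_v, U.q_eq_one, sub_eq_zero] at h4
      rw [h2 _ h4.1, ← neg_eq_zero, ← h4.2.2, h4.1]
  intro x hx hz
  obtain ⟨h4, h5⟩ := h3 hx
  rw [U.eq_q h4.1, h4.2, comm_v] at hz ⊢
  have h6 : x.u ᵥ* m.g⁻¹ = x.u := sub_eq_zero.1 hz.2.1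
  rw [h6, ← h2 _ h6, h5, sub_self, neg_zero, U.q_zero]

theorem h1 : H1.{v} := by
  intro F _ _ n C ⟨t, t0, t1⟩ h0 hex hu
  have uq : ∀ {u u' w : Fin (n + 2) → F} {c c' : F}, U.q u w c ∈ C → U.q u' w c' ∈ C → c = c' := fun h h' =>
    (U.q_inj.1 (mul_inv_eq_one.1 (hu _ (mul_mem h (inv_mem h')) (by simp) (by simp)))).2.2
  have z0 : ∀ {c : F}, U.q 0 0 c ∈ C → c = 0 := fun h => uq h (one_mem C)
  have ex : ∀ (i : Fin (n + 2)) (x : F), ∃ γ β, i ≠ 0 → U.q γ (Pi.single i x) β ∈ C := fun i x => by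
    by_cases hi : i = 0
    · exact ⟨0, 0, fun h => (h hi).elim⟩
    · obtain ⟨c, hc, e1, e2⟩ := hex (U.q 0 (Pi.single i x) 0) (by simp) (by simp [hi])
      exact ⟨c.u, c.c, fun _ => by have := U.eq_q e1; rw [e2] at this; exact this ▸ hc⟩
  choose γ β hc using ex
  have cm : ∀ {u u' w w' : Fin (n + 2) → F} {c c' : F}, U.q u w c ∈ C → U.q u' w' c' ∈ C → u ⬝ᵥ w' = u' ⬝ᵥ w :=
    fun h h' => sub_eq_zero.1 (z0 (by
      have := mul_mem (mul_mem (mul_mem h h') (inv_mem h)) (inv_mem h')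
      rwa [← commutatorElement_def, U.comm_qq] at this))
  have sy : ∀ i ≠ 0, ∀ k ≠ 0, ∀ x, γ k x i = γ i 1 k * x := fun i hi k hk x => by
    simpa using cm (hc k x hk) (hc i 1 hi)
  have key : ∀ i ≠ 0, ∀ k, i < k → γ i 1 k = 0 := fun i hi k hik => by
    have hk : k ≠ 0 := (lt_of_le_of_lt (Fin.zero_le i) hik).ne'
    have h1 : ∀ μ : F, ∃ α, ∀ x, α * x = β i (x * μ) + γ i 1 k * x * (x * μ) := fun μ => by
      obtain ⟨d, hd, e1, e2⟩ := hex (U.l (1 + single i k μ) (IsUT.one_add fun a b hab =>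
        single_apply_of_ne _ _ _ _ _ (by rintro ⟨rfl, rfl⟩; exact absurd hik hab.not_gt)))
        (by ext a; simp [vecMul_add, single_one_vecMul, single_apply, hi]) rfl
      refine ⟨d.u k, fun x => ?_⟩
      have h2 := mul_mem (mul_mem hd (hc k x hk)) (inv_mem hd)
      have h3 := mul_mem (hc k x hk) (hc i (x * μ) hi)
      rw [U.conj_q, e1, e2, U.l_g, U.l_w, show (1 + single i k μ) *ᵥ Pi.single k x =
        Pi.single k x + Pi.single i (x * μ) by
          rw [add_mulVec, one_mulVec, single_mulVec]; ext a; simp [Function.update_apply, Pi.single_apply, mul_comm]] at h2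
      rw [U.q_mul] at h3
      have h4 := uq h2 h3
      simp only [dotProduct_single, dotProduct_zero, sy i hi k hk x] at h4
      linear_combination h4
    choose α hα using h1
    have a1 := hα 1 t
    have a2 := hα 1 (t * t)
    have a3 := hα t 1
    have a4 := hα t t
    simp only [mul_one, one_mul] at a1 a2 a3
    have a5 : γ i 1 k * (t * (t - 1)) ^ 2 = 0 := by linear_combination a4 - a2 - t * a3 + t * a1
    exact (mul_eq_zero.1 a5).resolve_right (pow_ne_zero _ (mul_ne_zero t0 (sub_ne_zero.2 t1)))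
  have g0 : ∀ k ≠ 0, γ k 1 = 0 := fun k hk => funext fun i => by
    by_cases hi : i = 0
    · exact hi ▸ h0 _ (hc k 1 hk)
    rcases lt_trichotomy i k with h | rfl | h
    · rw [sy i hi k hk, key i hi k h, zero_mul]; rfl
    · have := mul_mem (hc i 1 hk) (hc i 1 hk)
      rw [U.sq_q] at this
      simpa using z0 this
    · exact key k hk i h
  intro c hC hg
  funext k
  by_cases hk : k = 0
  · exact hk ▸ h0 c hC
  · simpa [g0 k hk] using cm (U.eq_q hg ▸ hC) (hc k 1 hk)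

end CL.LQ
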