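/-
Project LQ (S1769): the case `W ≤ E`, `V ≰ E`.
-/
import Cfsg.Agent.LQ.Defs

set_option autoImplicit false
open Cfsg Matrix Subgroup CL.Grp CL.Even CL.Loc
open scoped commutatorElement

namespace CL.LQ

universe u v

namespace IBx

variable {n : ℕ} {F : Type v} [Field F] {b : Fin (n + 2) → F}

theorem fix {g : Matrix (Fin (n + 2)) (Fin (n + 2)) F} (h : IsUT g) (hb : ∀ i, i ≠ 0 → b i = 0) : g *ᵥ b = b :=
  funext fun _ => h.mulVec_apply fun j hj => hb j (Fin.pos_iff_ne_zero.1 ((Fin.zero_le _).trans_lt hj))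

theorem dot (hb : ∀ i, i ≠ 0 → b i = 0) (a : Fin (n + 2) → F) : a ⬝ᵥ b = a 0 * b 0 :=
  Finset.sum_eq_single 0 (fun i _ hi => by rw [hb i hi, mul_zero]) (by simp)

theorem lt1 {i : Fin (n + 2)} (h : (i : ℕ) < 1) : i = 0 := Fin.ext (by simpa using h)

theorem comm_iff {G : Type u} [Group G] {e : U (n + 2) F →* G} (he : St e) {x y : U (n + 2) F} :
    e x ∈ centralizer {e y} ↔ x * y * x⁻¹ = y := by
  rw [mem_centralizer_singleton_iff, ← map_mul, ← map_mul, he.inj.eq_iff, mul_inv_eq_iff_eq_mul]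

end IBx

open IBx in
theorem ib (h1 : All.{u, v} @BA) (h2 : H1.{v}) : All.{u, v} @IB := by
  intro G _ _ n F _ _ _ e he E K D h hW hV hK
  have ES : E ≤ S e := h.lt.le
  have EW : ∀ x ∈ E, x ∈ 𝒞(E) → x ∈ W e := fun x h1 h2 => he.mem_W_of_cent (ES h1) (cent_mono hW h2)
  obtain ⟨g, gN, gD, gK⟩ := h.ex
  obtain ⟨z, hz, zD⟩ := h.neZ
  have jE := conj_mem gN (hW (Z_le_W e hz))
  have jC := conj_mem (norm_le_norm_cent E gN) (mem_centralizer_iff.2 fun x hx => (Z_comm hz (ES hx)).symm)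
  obtain ⟨w, c, ej⟩ := mem_W.1 (EW _ jE jC)
  have mE : ∀ x, e x ∈ E ↔ x.g *ᵥ w = w ∧ x.u ⬝ᵥ w = 0 := fun x => by
    rw [← h.cz g gN gD gK z hz zD, ← ej, mem_inf, comm_iff he, U.conj_q, U.q_inj]
    simp [apply_mem_S]
  have w0 : w ≠ 0 := by
    rintro rfl
    exact h.lt.not_ge fun _ ⟨x, hx⟩ => hx ▸ (mE x).2 (by simp)
  have VN : V e ≤ 𝒩(E) := le_normalizer_iff.2 fun v hv a ha => by
    obtain ⟨u, c, rfl⟩ := mem_V.1 hv
    obtain ⟨s, rfl⟩ := ES ha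
    rw [← map_inv, ← map_mul, ← map_mul, mE]
    simp [((mE s).1 ha).1, ((mE s).1 ha).2, ← dotProduct_mulVec]
  obtain rfl : D = ⊥ := eq_bot_iff.2 fun d hd => by
    obtain ⟨δ, rfl⟩ := mem_Z.1 (h.leZ hd)
    by_cases h0 : δ = 0
    · rw [h0, U.q_zero, map_one]; exact one_mem _
    obtain ⟨u, hu⟩ := exists_dot w0 δ
    have xV : e (U.q u 0 0) ∈ V e := mem_V.2 ⟨u, 0, rfl⟩
    have o : Out (S e) E (e (U.q u 0 0)) :=
      ⟨apply_mem_S e _, VN xV, fun k => h0 (hu ▸ ((mE _).1 k).2), V_sq xV ▸ one_mem E⟩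
    have e1 : ⁅e (U.q u 0 0), g * z * g⁻¹⁆ = e (U.q 0 0 δ) := by
      rw [← ej, ← map_commutatorElement, U.comm_qq, hu, zero_dotProduct, sub_zero]
    rw [← e1]
    refine h.opp _ _ o o g gN gK _ ⟨jE, jC⟩ (W_sq (EW _ jE jC)) (Commute.conj (Z_comm hz o.mS).symm g) ?_
    rw [e1, ← conj_eq_of_mem gD hd]
    exact Commute.conj (Z_comm (h.leZ hd) o.mS).symm g
  have ba := h1 e he E K h fun x hx => he.mem_Z_of hx.1.1 (EW x hx.1.2 hx.2)
  obtain ⟨v, hv, vE⟩ := SetLike.not_le_iff_exists.1 hV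
  have VE := (ba v hv (VN hv) vE).1
  have wi : ∀ i, i ≠ 0 → w i = 0 := fun i hi => by
    have := (he.mem_map.1 (VE (x := e (U.q (Pi.single 0 (w i) - Pi.single i (w 0)) 0 0))
      ⟨mem_V.2 ⟨_, 0, rfl⟩, (mE _).2 (by simp [mul_comm])⟩)).2.2 0 (by simp)
    simpa [hi.symm] using this
  have w1 : w 0 ≠ 0 := fun k => w0 (funext fun i => by
    by_cases hi : i = 0
    exacts [hi ▸ k, wi i hi])
  replace mE : ∀ x, e x ∈ E ↔ x.u 0 = 0 := fun x => by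
    rw [mE, dot wi, and_iff_right (fix x.ut wi), mul_eq_zero, or_iff_left w1]
  have vV : e (U.q (Pi.single 0 1) 0 0) ∈ V e := mem_V.2 ⟨_, 0, rfl⟩
  obtain ⟨y, yN, yK, -, dec, triv, cv⟩ := (ba _ vV (VN vV) fun k => by simpa using (mE _).1 k).2
    (le_antisymm VE (le_inf (Vk_le_V e 1) fun _ ⟨x, hx, k⟩ => k ▸ (mE x).2 (hx.2.2 0 (by simp))))
    fun _ ⟨x, hx, k⟩ => k ▸ (mE x).2 (hx.1 0 (by simp))
  have hb : ∀ x : U (n + 2) F, Pi.single 0 1 ᵥ* x.g = Pi.single 0 1 → x.w 0 = 0 →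
      ∃ c ∈ (E ⊓ centralizer {y}).comap e, c.g = x.g ∧ c.w = x.w := fun x x1 x2 => by
    obtain ⟨c, hc, _, ⟨a, ha, rfl⟩, k⟩ := dec _ ((mE ⟨0, x.g, x.w, 0, x.ut⟩).2 rfl)
    obtain ⟨c, rfl⟩ := ES hc.1
    have k1 := (comm_iff he).1 (cv hc)
    rw [U.conj_q, U.q_inj] at k1
    obtain ⟨k1, -, k2⟩ := k1
    rw [k1] at k2
    replace k1 : Pi.single 0 1 ᵥ* c.g = Pi.single 0 1 := by
      conv_lhs => rw [← k1, vecMul_vecMul, U.g_inv_mul, vecMul_one]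
    have k3 := he.inj ((map_mul e c a).trans k)
    have k4 : c.g * a.g = x.g := congrArg U.g k3
    have k5 : c.g *ᵥ a.w + c.w = x.w := congrArg U.w k3
    have aw : ∀ i, i ≠ 0 → a.w i = 0 := fun i hi => ha.2.1 i (Fin.pos_iff_ne_zero.2 hi)
    rw [fix c.ut aw] at k5
    have k6 : a.g = 1 := eq_one_of_vecMul fun r => by
      have r1 := ha.2.2.1 (r - r 0 • Pi.single 0 1) fun i hi => by simp [lt1 hi]
      rwa [sub_vecMul, smul_vecMul, ← k1, vecMul_vecMul, k4, x1, k1, sub_left_inj] at r1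
    refine ⟨c, hc, by rw [← k4, k6, mul_one], funext fun i => ?_⟩
    by_cases hi : i = 0
    · rw [hi, x2]; simpa using k2
    · rw [← k5, Pi.add_apply, aw i hi, zero_add]
  have hu := h2 ((E ⊓ centralizer {y}).comap e) he.exists_ne (fun c hc => (mE c).1 hc.1) hb fun c hc c1 c2 => he.eq_one.1 (mem_bot.1 (triv.le
    ⟨hc, mem_map_of_mem e ⟨fun i hi => lt1 hi ▸ (mE c).1 hc.1, by simp [c2], by simp [c1], by simp [c1]⟩⟩))
  refine yK (hK ⟨yN, mem_norm_of_cj_le ?_⟩)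
  rintro _ ⟨x, hx, rfl⟩
  obtain ⟨b, c, rfl⟩ := mem_W.1 hx
  obtain ⟨a, ha, a1, a2⟩ := hb (U.q 0 (b - Pi.single 0 (b 0)) 0) (by simp) (by simp)
  have e1 : U.q 0 b c = a * U.q 0 (Pi.single 0 (b 0)) (c - a.c) := by
    rw [U.eq_q a1, hu a ha a1, a2, U.q_mul]; simp
  have m : e (U.q 0 (Pi.single 0 (b 0)) (c - a.c)) ∈ 𝒞(E) := mem_centralizer_iff.2 fun s hs => by
    obtain ⟨s, rfl⟩ := ES hs
    have bi : ∀ i : Fin (n + 2), i ≠ 0 → (Pi.single 0 (b 0) : Fin (n + 2) → F) i = 0 := fun i hi => Pi.single_eq_of_ne hi _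
    refine mem_centralizer_singleton_iff.1 ((comm_iff he).2 ?_)
    rw [U.conj_q, fix s.ut bi, dot bi, (mE s).1 hs]; simp
  change y * _ * y⁻¹ ∈ _
  rw [e1, map_mul, ← conj_mul, ← mem_centralizer_singleton_iff.1 ha.2, mul_inv_cancel_right]
  exact mul_mem (mem_map_of_mem e ⟨a1, hu a ha a1⟩)
    (EW _ (conj_mem yN ((mE _).2 rfl)) (conj_mem (norm_le_norm_cent E yN) m))

end CL.LQ
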