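/-
Project LQ (S1769), step II: elements of `N(E)` centralising `Z` lie in `K` when `V ≰ E`.
-/
import Cfsg.Agent.LQ.Defs

set_option autoImplicit false
open Cfsg Matrix Subgroup CL.Grp CL.Even CL.Loc
open scoped commutatorElement

namespace CL.LQ

universe u v

namespace IIx

variable {G : Type*} [Group G] {Y S Z Q D : Subgroup G} {a b w : G}

theorem cl (ha : a ∈ Y) (hb : b ∈ 𝒩(Y)) : ⁅a, b⁆ ∈ Y := by
  have := mul_mem ha (conj_mem hb (inv_mem ha))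
  simpa only [commutatorElement_def, mul_assoc] using this

theorem cr (ha : a ∈ 𝒩(Y)) (hb : b ∈ Y) : ⁅a, b⁆ ∈ Y := mul_mem (conj_mem ha hb) (inv_mem hb)

theorem sw (h : ⁅a, b⁆ ∈ Y) : ⁅b, a⁆ ∈ Y := commutatorElement_inv a b ▸ inv_mem h

theorem kill (hZ : S ≤ 𝒞(Z)) (ZS : Z ≤ S) (ha : a ∈ S) (hb : b ∈ S) (ka : ⁅a, w⁆ ∈ Z) (kb : ⁅b, w⁆ ∈ Z) :
    Commute ⁅a, b⁆ w := by
  have mul : ∀ s ∈ S, ∀ t, ⁅t, w⁆ ∈ Z → ⁅s * t, w⁆ = ⁅t, w⁆ * ⁅s, w⁆ := fun s hs t ht => by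
    rw [commutatorElement_mul_left_eq_conj_mul, conj_eq_of_mem (hZ hs) ht]
  have inv : ∀ s ∈ S, ⁅s, w⁆ ∈ Z → ⁅s⁻¹, w⁆ = ⁅s, w⁆⁻¹ := fun s hs k => by
    have := conj_eq_of_mem (hZ (inv_mem hs)) (sw k)
    rwa [inv_inv, ← commutatorElement_inv_left, ← commutatorElement_inv s] at this
  rw [← commutatorElement_eq_one_iff_commute, commutatorElement_def a b,
    mul _ (mul_mem (mul_mem ha hb) (inv_mem ha)) _ (inv b hb kb ▸ inv_mem kb),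
    mul _ (mul_mem ha hb) _ (inv a ha ka ▸ inv_mem ka), mul _ ha _ kb, inv a ha ka, inv b hb kb,
    comm_of_mem (hZ (ZS ka)) kb, inv_mul_cancel_left, inv_mul_cancel]

/-- the elements `x` of `Q` with `[j, x] ∈ D` -/
def XJ (h : Q ≤ 𝒩(D)) (j : G) : Subgroup G where
  carrier := {x | x ∈ Q ∧ ⁅j, x⁆ ∈ D}
  one_mem' := ⟨one_mem _, by rw [commutatorElement_one_right]; exact one_mem _⟩
  mul_mem' := fun {x y} hx hy => ⟨mul_mem hx.1 hy.1, by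
    have := mul_mem hx.2 (conj_mem (h hx.1) hy.2)
    simpa only [commutatorElement_mul_right_eq_mul_conj, mul_assoc] using this⟩
  inv_mem' := fun {x} hx => ⟨inv_mem hx.1, by
    rw [commutatorElement_inv_right]
    exact conj_mem' (h hx.1) (sw hx.2)⟩

end IIx

open IIx in
theorem ii (h1 : BL.{u}) (h2 : STAR.{u}) (h3 : All.{u, v} @DU) : All.{u, v} @II := by
  intro G _ _ n F _ _ _ e he E K hl hV g gN gC
  by_contra gK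
  have : Fact (Nat.Prime 2) := ⟨Nat.prime_two⟩
  have ES : E ≤ S e := hl.lt.le
  have ZE : Z e ≤ E := fun z hz => hl.centric ⟨Z_le_S e hz, fun x hx => (Z_comm hz (ES hx)).symm⟩
  have ZQ : Z e ≤ Q e := (Z_le_V e).trans (V_le_Q e)
  obtain ⟨v, vV, vN, vE⟩ := exists_norm_not_mem he.isP ES (V_le_S e) (ES.trans (S_le_NV e)) hV
  have out : ∀ x ∈ Q e, x ∈ 𝒩(E) → x ∉ E → Out (S e) E x := fun x hx xN xE => ⟨Q_le_S e hx, xN, xE, ZE (Q_sq hx)⟩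
  have ev : ∀ x ∈ Q e, x ∈ 𝒩(E) → ∀ a ∈ E, ⁅a, x⁆ ∈ E ⊓ Q e := fun x hx xN a ha =>
    ⟨cl ha xN, cr (S_le_NQ e (ES ha)) hx⟩
  have vQ := V_le_Q e vV
  obtain ⟨y, yN, yC, yK, odd, inv⟩ := hl.se3 v (out v vQ vN vE) (V_sq vV) 𝒞(Z e) (S_le_CZ e (V_le_S e vV)) g gN gC gK
  have bl : BLh E (E ⊓ Q e) (Z e) v y := ⟨he.isP.to_le ES, inf_le_left, le_norm_inf le_normalizer (ES.trans (S_le_NQ e)),
    vN, yN, V_sq vV, odd, inv, ev v vQ vN,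
    fun z hz => ⟨⟨ZE hz, ZQ hz⟩, mem_centralizer_singleton_iff.2 (comm_of_mem yC hz)⟩,
    fun i hi => comm_Q hi.2 vQ, fun i hi i' hi' => comm_Q hi.2 hi'.2⟩
  have c := h1 bl
  have star : ∀ x ∈ Q e, x ∈ 𝒩(E) → x ∉ E → ∀ j ∈ cj y (E ⊓ Q e), ⁅j, x⁆ ∈ cj y (E ⊓ Q e) → j ∈ E ⊓ Q e :=
    fun x hx xN xE => h2 hl bl (out v vQ vN vE) yK x (out x hx xN xE) (ev x hx xN) fun i hi => comm_Q hi.2 hx
  have JE : cj y (E ⊓ Q e) ≤ E := cj_le_of_le inf_le_left yN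
  have nJ : E ≤ 𝒩(cj y (E ⊓ Q e)) := by
    rw [← cj_norm]
    exact (cj_eq yN).ge.trans (cj_mono y bl.nI)
  have JJ : ∀ j ∈ cj y (E ⊓ Q e), ∀ j' ∈ cj y (E ⊓ Q e), ⁅j, j'⁆ ∈ Z e := by
    rintro _ ⟨i, hi, rfl⟩ _ ⟨i', hi', rfl⟩
    rw [← map_commutatorElement]
    exact conj_mem (cent_le_norm _ yC) (comm_Q hi.2 hi'.2)
  have hJI : ¬ cj y (E ⊓ Q e) ≤ E ⊓ Q e := fun k => by
    have e1 := eq_of_le_of_card_ge k (card_cj y _).ge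
    have e2 : E ⊓ Q e ≤ centralizer {y} := (le_inf le_rfl e1.ge).trans (c.cent.le.trans inf_le_right)
    refine yK (hl.cent fun x hx => ?_)
    obtain ⟨a, ha, i, hi, j, hj, rfl⟩ := c.prod x hx
    exact mem_centralizer_singleton_iff.1 (mul_mem (mul_mem ha.2 (e2 hi)) (e2 (k hj)))
  have ZD : Z e ≤ E ⊓ Q e ⊓ cj y (E ⊓ Q e) := c.cent ▸ bl.Z0le
  have nD : E ≤ 𝒩(E ⊓ Q e ⊓ cj y (E ⊓ Q e)) := le_norm_inf bl.nI nJ
  have surj := c.surj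
  have gen := c.gen
  clear c
  generalize cj y (E ⊓ Q e) = J at *
  have DQ : E ⊓ Q e ⊓ J ≤ Q e := inf_le_left.trans inf_le_right
  have QD : Q e ≤ 𝒩(E ⊓ Q e ⊓ J) := le_normalizer_iff.2 fun q hq d hd => by
    have := mul_mem (ZD (comm_Q hq (DQ hd))) hd
    rwa [commutatorElement_def, inv_mul_cancel_right] at this
  obtain ⟨i0, k1, k2⟩ := exists_iter_not_le (A := E ⊓ Q e ⊓ J)
    (exists_iter_eq_bot (he.isP.to_le (JE.trans ES)) bl.isP nJ) fun k => hJI (k.trans inf_le_left)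
  obtain ⟨j, hj, jD⟩ := SetLike.not_le_iff_exists.1 k1
  have jE : ∀ a ∈ E, ⁅j, a⁆ ∈ E ⊓ Q e ⊓ J := fun a ha => k2 (commutator_mem_commutator hj ha)
  replace hj := iter_le nJ i0 hj
  have jS := ES (JE hj)
  have hb : XJ QD j ≤ E := by
    by_contra k
    obtain ⟨x, hx, xN, xE⟩ := exists_norm_not_mem (Y := XJ QD j) he.isP ES (fun x hx => Q_le_S e hx.1)
      (le_normalizer_iff.2 fun a ha x hx => ⟨conj_mem (S_le_NQ e (ES ha)) hx.1, by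
        have d := sw (jE _ (inv_mem ha))
        have := conj_mem (nD ha) (mul_mem (conj_mem (le_normalizer d) hx.2) (ZD (comm_Q (DQ d) hx.1)))
        convert this using 1
        simp only [commutatorElement_def]
        group⟩) k
    exact jD ⟨star x hx.1 xN xE j hj hx.2.2, hj⟩
  have IJ : ∀ Y : Subgroup G, Z e ≤ Y → S e ≤ 𝒩(Y) → ∀ x ∈ Y,
      (∀ i ∈ E ⊓ Q e, ∃ j ∈ J, ∃ d ∈ E ⊓ Q e ⊓ J, i = ⁅j, x⁆ * d) → ∀ i ∈ E ⊓ Q e, ∀ j ∈ J, ⁅i, j⁆ ∈ Y :=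
    fun Y ZY SY x hx k i hi j hj => by
      obtain ⟨j', hj', d, hd, rfl⟩ := k i hi
      have p := cr (SY (ES (JE hj'))) hx
      rw [commutatorElement_mul_left_eq_conj_mul]
      exact mul_mem (conj_mem (le_normalizer p) (ZY (JJ d hd.2 j hj))) (cl p (SY (ES (JE hj))))
  have IJV := IJ _ (Z_le_V e) (S_le_NV e) v vV surj
  have hW : ¬ W e ≤ E := fun k => jD ⟨⟨JE hj, he.mem_Q_of_W jS fun w hw =>
    he.mem_Z_of (sw (IJV w ⟨k hw, W_le_Q e hw⟩ j hj)) (cr (S_le_NW e jS) hw)⟩, hj⟩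
  obtain ⟨w, wW, wN, wE⟩ := exists_norm_not_mem he.isP ES (W_le_S e) (ES.trans (S_le_NW e)) hW
  have wQ := W_le_Q e wW
  have IJW := IJ _ (Z_le_W e) (S_le_NW e) w wW
    (gen w (ev w wQ wN) (fun i hi => comm_Q hi.2 wQ) (star w wQ wN wE))
  have IJZ : ∀ i ∈ E ⊓ Q e, ∀ j ∈ J, ⁅j, i⁆ ∈ Z e := fun i hi j hj => sw (he.mem_Z_of (IJV i hi j hj) (IJW i hi j hj))
  obtain ⟨j', hj', d, hd, e1⟩ := surj _ (ev w wQ wN j (JE hj))
  obtain ⟨u, uV, z, hz, e2⟩ := (h3 e he).du1 j jS ⁅j', v⁆ (cr (S_le_NV e (ES (JE hj'))) vV) fun w' hw' k =>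
    kill (S_le_CZ e) (Z_le_S e) (ES (JE hj')) (V_le_S e vV)
      (IJZ w' ⟨hb ⟨W_le_Q e hw', ZD k⟩, W_le_Q e hw'⟩ j' hj') (comm_Q vQ (W_le_Q e hw'))
  have aV : ⁅j, u⁆ ∈ V e := cr (S_le_NV e jS) uV
  have uwQ := mul_mem (V_le_Q e uV) wQ
  have e3 : ⁅j, u * w⁆ = u * (z * d) * u⁻¹ := by
    rw [commutatorElement_mul_right_eq_mul_conj, e1, e2, V_comm aV uV, mul_assoc u, mul_assoc _ z, ← mul_assoc _ _ (z * d),
      V_sq aV, one_mul]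
  have k3 := IJZ _ ⟨hb ⟨uwQ, e3 ▸ conj_mem (QD (V_le_Q e uV)) (mul_mem (ZD hz) hd)⟩, uwQ⟩ j hj
  have k4 := Z_le_V e k3
  rw [commutatorElement_mul_right_eq_mul_conj, mul_mem_cancel_right (inv_mem uV),
    mul_mem_cancel_left (mul_mem aV uV)] at k4
  exact wE (hb ⟨wQ, ZD (he.mem_Z_of k4 (cr (S_le_NW e jS) wW))⟩)

end CL.LQ
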