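/-
Project LQ (S1769): control of fusion by `N(V)`, `N(W)` and centralisers.
-/
import Cfsg.Agent.LQ.Defs
import Cfsg.Agent.Loc.FusChain

set_option autoImplicit false
open Cfsg Matrix Subgroup CL.Grp CL.Even CL.Loc
open scoped commutatorElement

namespace CL.LQ

universe u v

theorem ml (h0 : SE.{u}) (h1 : All.{u,v} @NQ) (h2 : All.{u,v} @II) (h3 : All.{u,v} @IB) (h4 : All.{u,v} @DG1)
    (h5 : All.{u,v} @DG2) (h6 : All.{u,v} @DG4) (h7 : All.{u,v} @ND) (h8 : All.{u,v} @NARG) : All.{u,v} @ML := by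
  intro G _ _ n F _ _ _ e he R hR r1 hb
  refine hR.alperin_stab r1 he.syl fun E ES syl ext => ?_
  have kV : 𝒩(E) ⊓ 𝒩(V e) ≤ hR.stab E (r1 E) := fun g hg => ⟨hg.1, hb E ES g hg.1 (Or.inl hg.2)⟩
  have kW : 𝒩(E) ⊓ 𝒩(W e) ≤ hR.stab E (r1 E) := fun g hg => ⟨hg.1, hb E ES g hg.1 (Or.inr (Or.inl hg.2))⟩
  have kC : 𝒞(E) ≤ hR.stab E (r1 E) := fun g hg => ⟨cent_le_norm E hg, hb E ES g (cent_le_norm E hg) (Or.inr (Or.inr hg))⟩
  have kN : hR.stab E (r1 E) ≤ 𝒩(E) := fun g hg => hg.1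
  generalize hR.stab E (r1 E) = K at ext kV kW kC kN ⊢
  by_contra ne
  have QE : ¬ Q e ≤ E := fun q => ne fun g hg => kV ⟨hg, (h1 e he g ((cj_le_of_le q hg).trans ES)).1⟩
  have l := h0 ⟨he.isP, ES.lt_of_ne fun q => QE (q ▸ Q_le_S e), syl, kN, ne, kC, ext⟩
  have l' : Loc' (S (sy e)) E K := (S_sy e).symm ▸ l
  have VW : V e ≤ E → W e ≤ E → False := fun a b => QE (V_sup_W (e := e) ▸ sup_le a b)
  have ZE : Z e ≤ E := fun z hz => l.centric ⟨Z_le_S e hz, fun x hx => (Z_comm hz (ES hx)).symm⟩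
  obtain ⟨g₀, hg₀, k₀⟩ := SetLike.not_le_iff_exists.1 ne
  obtain ⟨D, -, ⟨DZ, g, gN, gC, gK⟩, mx⟩ := Finite.exists_le_maximal (a := ⊥)
    (p := fun D : Subgroup G => D ≤ Z e ∧ ∃ g ∈ 𝒩(E), g ∈ 𝒞(D) ∧ g ∉ K)
    ⟨bot_le, g₀, hg₀, fun x hx => by simp [mem_bot.1 hx], k₀⟩
  by_cases ZD : Z e ≤ D
  · by_cases q : V e ≤ E
    · exact gK (h2 (sy e) he.symm E K l' (by rw [V_sy]; exact VW q) g gN (by rw [Z_sy]; exact cent_mono ZD gC))
    · exact gK (h2 e he E K l q g gN (cent_mono ZD gC))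
  have l0 : Loc0 e E K D := ⟨l, DZ, SetLike.not_le_iff_exists.1 ZD, ⟨g, gN, gC, gK⟩, fun g gN gC gK z hz zD => by
    have le : E ≤ S e ⊓ centralizer {g * z * g⁻¹} := fun x hx => ⟨ES hx, mem_centralizer_singleton_iff.2 (by
      calc _ = g * (g⁻¹ * x * g * z) * g⁻¹ := by group
        _ = _ := by rw [← Z_comm hz (ES (conj_mem' gN hx))]; group)⟩
    by_contra q
    obtain ⟨x, ⟨⟨xS, xc⟩, xN⟩, xE⟩ := SetLike.exists_of_lt
      (lt_inf_normalizer_of_isPGroup (he.isP.to_le inf_le_left) (le.lt_of_ne' q))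
    refine gK (inv_mem_iff.1 (l.se1 x xS xN xE _ (inv_mem gN) (by_contra fun k => zD (mx
      ⟨sup_le DZ (zpowers_le.2 hz), _, mul_mem (mul_mem (inv_mem gN) xN) (inv_mem (inv_mem gN)), ?_, k⟩ le_sup_left
      (mem_sup_right (mem_zpowers z))))))
    rw [cent_sup]
    refine mem_inf.2 ⟨mul_mem (mul_mem (inv_mem gC) (cent_mono DZ (S_le_CZ e xS))) (inv_mem (inv_mem gC)),
      le_centralizer_iff.1 (zpowers_le.2 fun y hy => ?_) (mem_zpowers _)⟩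
    refine (zpowers_le (H := centralizer {z})).2 (mem_centralizer_singleton_iff.2 ?_) hy _ rfl |>.symm
    calc _ = g⁻¹ * (x * (g * z * g⁻¹)) * g := by group
      _ = _ := by rw [mem_centralizer_singleton_iff.1 xc]; group⟩
  by_cases WE : W e ≤ E
  · exact h3 e he E K D l0 WE (fun q => VW q WE) kW
  by_cases VE : V e ≤ E
  · exact h3 (sy e) he.symm E K D l0.symm (by rwa [W_sy]) (by rwa [V_sy]) (by rwa [W_sy])
  by_cases dg : ∃ v ∈ V e, ∃ w ∈ W e, v * w ∈ E ∧ v ∉ E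
  · obtain ⟨a, ⟨x, y, b⟩, c⟩ := h4 e he E K D l0 dg
    obtain ⟨j, hj, q⟩ := h5 e he E K x y a b c
    exact h6 e he E K x y a b j hj q
  have nd : ∀ v ∈ V e, ∀ w ∈ W e, v * w ∈ E → v ∈ E := fun v hv w hw q => by_contra fun k => dg ⟨v, hv, w, hw, q, k⟩
  have := h7 (sy e) he.symm E K D l0.symm (by rwa [W_sy]) (by
    rw [V_sy, W_sy]
    intro a ha b hb q
    have := mul_mem (ZE (comm_Q (V_le_Q e hb) (W_le_Q e ha))) q
    rw [show ⁅b, a⁆ * (a * b) = b * a by rw [commutatorElement_def]; group] at this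
    exact (Subgroup.mul_mem_cancel_right _ (nd b hb a ha this)).1 q)
  rw [V_sy] at this
  exact dg (h8 e he E K l (V_sup_W (e := e) ▸ sup_le (h7 e he E K D l0 WE nd) this) VE WE)

end CL.LQ
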