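/-
Project LQ: the steps `NARG` and `C1`.
-/
import Cfsg.Agent.LQ.Defs

set_option autoImplicit false
open Cfsg Matrix Subgroup CL.Grp CL.Even CL.Loc
open scoped commutatorElement

namespace CL.LQ

universe u v

namespace NArg

variable {G : Type*} [Group G]

/-- the centraliser of `u` modulo `R` -/
def cm (L R : Subgroup G) (h : L ≤ 𝒩(R)) (u : G) : Subgroup G where
  carrier := {a | a ∈ L ∧ ⁅a, u⁆ ∈ R}
  one_mem' := ⟨one_mem _, by simp⟩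
  mul_mem' := fun {a b} ha hb => ⟨mul_mem ha.1 hb.1, by
    rw [show ⁅a * b, u⁆ = a * ⁅b, u⁆ * a⁻¹ * ⁅a, u⁆ by simp only [commutatorElement_def]; group]
    exact mul_mem (conj_mem (h ha.1) hb.2) ha.2⟩
  inv_mem' := fun {a} ha => ⟨inv_mem ha.1, by
    rw [show ⁅a⁻¹, u⁆ = a⁻¹ * ⁅a, u⁆⁻¹ * a by simp only [commutatorElement_def]; group]
    exact conj_mem' (h ha.1) (inv_mem ha.2)⟩

theorem exists_fix [Finite G] {U P E : Subgroup G} (hU : IsPGroup 2 U) (hP : IsPGroup 2 P) (h : P ≤ 𝒩(U))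
    (hE : ¬ U ≤ E) : ∃ u ∈ U, u ∉ E ∧ ∀ p ∈ P, ⁅p, u⁆ ∈ E := by
  obtain ⟨i, h1, h2⟩ := exists_iter_not_le (exists_iter_eq_bot hU hP h) hE
  obtain ⟨u, hu, k⟩ := SetLike.not_le_iff_exists.1 h1
  have le : ∀ i, iterCommutator U P i ≤ U := fun i => by
    induction i with
    | zero => exact le_rfl
    | succ i ih => exact (commutator_mono ih le_rfl).trans (commutator_le_of_le_norm h)
  exact ⟨u, le i hu, k, fun p hp => by
    rw [← commutatorElement_inv]; exact inv_mem (h2 (commutator_mem_commutator hu hp))⟩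

theorem comm_cen {x w a b : G} (h1 : a * x = x * a) (h2 : a * w = w * a) (h3 : b * x = x * b) (h4 : b * w = w * b)
    (h5 : a * b = b * a) : ⁅a * x, b * w⁆ = ⁅x, w⁆ := by
  have e1 : a * x * (b * w) = a * b * (x * w) := by rw [mul_assoc a x, ← mul_assoc x, ← h3]; group
  have e2 : b * w * (a * x) = a * b * (w * x) := by rw [mul_assoc b w, ← mul_assoc w, ← h2, h5]; group
  have e3 : a * b * (x * w) = x * w * (a * b) :=
    ((Commute.mul_left h1 h3).mul_right (Commute.mul_left h2 h4)).eq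
  have e4 : a * b * (w * x) = w * x * (a * b) :=
    ((Commute.mul_left h2 h4).mul_right (Commute.mul_left h1 h3)).eq
  calc ⁅a * x, b * w⁆ = a * x * (b * w) * (b * w * (a * x))⁻¹ := by simp only [commutatorElement_def]; group
    _ = _ := by rw [e1, e2, e3, e4, commutatorElement_def]; group

theorem half (h : All.{u, v} @DU) {G : Type u} [Group G] [Finite G] {n : ℕ} {F : Type v} [Field F] [Finite F]
    [CharP F 2] {e : U (n + 2) F →* G} (he : St e) {E : Subgroup G} (h1 : Q e ≤ E) (h2 : E ≤ S e) {g : G}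
    (hg : g ∈ 𝒩(E)) : cj g (V e) ≤ Q e := fun x hx => by
  have du := (h (sy e) he.symm).du2
  simp only [S_sy, V_sy, W_sy, Z_sy] at du
  have eZ : Z e = E ⊓ 𝒞(E) := le_antisymm (le_inf ((Z_le_V e).trans ((V_le_Q e).trans h1))
    (le_centralizer_iff.1 (h2.trans (S_le_CZ e)))) fun y hy => he.mem_Z_of_cent (h2 hy.1) (cent_mono h1 hy.2)
  have gZ : g ∈ 𝒩(Z e) := eZ ▸ le_norm_inf le_rfl (norm_le_norm_cent E) hg
  have VE := (V_le_Q e).trans h1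
  have WE := (W_le_Q e).trans h1
  have nn : ∀ X : Subgroup G, S e ≤ 𝒩(X) → E ≤ 𝒩(cj g X) := fun X k => by
    rw [← cj_norm, ← cj_eq hg]; exact cj_mono g (h2.trans k)
  have xS : x ∈ S e := h2 (cj_le_of_le VE hg hx)
  refine he.mem_Q_of_W xS fun w hw => ?_
  have pW : ⁅x, w⁆ ∈ W e := mul_mem (conj_mem (S_le_NW e xS) hw) (inv_mem hw)
  have pB : ⁅x, w⁆ ∈ cj g (V e) := by
    rw [show ⁅x, w⁆ = x * (w * x⁻¹ * w⁻¹) by rw [commutatorElement_def]; group]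
    exact mul_mem hx (conj_mem (nn _ (S_le_NV e) (WE hw)) (inv_mem hx))
  have pB' : ⁅x, w⁆ ∈ cj g (W e) := by
    refine sup_le (commutator_le_of_le_norm (WE.trans (nn _ (S_le_NW e)))) ((cj_eq gZ).ge.trans (cj_mono g (Z_le_W e)))
      (du _ ((cj_le_of_le WE hg).trans h2) _ pW fun v hv k => ?_)
    have vQ : g⁻¹ * v * g ∈ Q e := he.mem_Q_of_W (h2 (conj_mem' hg (VE hv))) fun w0 hw0 => by
      rw [show ⁅g⁻¹ * v * g, w0⁆ = g⁻¹ * ⁅g * w0 * g⁻¹, v⁆⁻¹ * g by simp only [commutatorElement_def]; group]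
      exact conj_mem' gZ (inv_mem (k _ (conj_mem_cj g hw0)))
    have z1 : ⁅v, x⁆ ∈ Z e := by
      rw [show ⁅v, x⁆ = g * ⁅g⁻¹ * v * g, g⁻¹ * x * g⁆ * g⁻¹ by simp only [commutatorElement_def]; group]
      exact conj_mem gZ (comm_Q vQ (V_le_Q e (mem_cj.1 hx)))
    have z2 : ⁅v, w⁆ ∈ Z e := comm_Q (V_le_Q e hv) (W_le_Q e hw)
    have := comm_cen (Z_comm z1 xS) (Z_comm z1 (W_le_S e hw)) (Z_comm z2 xS) (Z_comm z2 (W_le_S e hw))
      (Z_comm z1 (Z_le_S e z2))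
    refine (eq_mul_inv_iff_mul_eq.1 (this.symm.trans ?_))
    simp only [commutatorElement_def]; group
  exact (cj_eq gZ).le (mem_cj.2 (he.mem_Z_of (mem_cj.1 pB) (mem_cj.1 pB')))

end NArg

open NArg

theorem narg (h : All.{u, v} @NQ) : All.{u, v} @NARG := by
  intro G _ _ n F _ _ _ e he E K hl hQ hV hW
  have nR : 𝒩(E) ≤ 𝒩(E ⊔ 𝒞(E)) := le_norm_sup le_rfl (norm_le_norm_cent E)
  have p2 : IsPGroup 2 (S e ⊓ 𝒩(E) : Subgroup G) := hl.isP.to_le inf_le_left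
  have QP : Q e ≤ S e ⊓ 𝒩(E) := le_inf (Q_le_S e) hQ
  obtain ⟨u, uV, uE, hu⟩ := exists_fix (hl.isP.to_le (V_le_S e)) p2 (inf_le_left.trans (S_le_NV e)) hV
  obtain ⟨w, wW, wE, hw⟩ := exists_fix (hl.isP.to_le (W_le_S e)) p2 (inf_le_left.trans (S_le_NW e)) hW
  have uP := QP (V_le_Q e uV)
  have wP := QP (W_le_Q e wW)
  obtain ⟨g, gN, gK⟩ := SetLike.not_le_iff_exists.1 hl.ne
  obtain ⟨k, hk, r, hr, e1⟩ := hl.se2 u w ⟨uP.1, uP.2, uE, (V_sq uV).symm ▸ one_mem _⟩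
    ⟨wP.1, wP.2, wE, (W_sq wW).symm ▸ one_mem _⟩ g gN gK
  have kN : k ∈ 𝒩(E) := zpowers_le.2 (mul_mem uP.2 (mul_mem (mul_mem gN wP.2) (inv_mem gN))) hk
  obtain ⟨l, lN, r', hr', e2⟩ : ∃ l ∈ 𝒩(E), ∃ r' ∈ E ⊔ 𝒞(E), l * w * l⁻¹ = u * r' :=
    ⟨k⁻¹ * g, mul_mem (inv_mem kN) gN, k⁻¹ * r * k, conj_mem' (nR kN) hr, by
      calc k⁻¹ * g * w * (k⁻¹ * g)⁻¹ = k⁻¹ * (g * w * g⁻¹) * k := by group
        _ = _ := by rw [e1]; group⟩
  have le : cm 𝒩(E) _ nR u ≤ 𝒩(E) := fun _ hx => hx.1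
  have s1 : IsSylowIn 2 (S e ⊓ 𝒩(E)) (cm 𝒩(E) _ nR u) := hl.syl.of_le (fun p hp => ⟨hp.2, mem_sup_left (hu p hp)⟩) le
  have s2 : IsSylowIn 2 (cj l (S e ⊓ 𝒩(E))) (cm 𝒩(E) _ nR u) := (syl_cj_of_mem_norm hl.syl (le_normalizer lN)).of_le (by
    rintro _ ⟨p, hp, rfl⟩
    change l * p * l⁻¹ ∈ _
    have b : l * p * l⁻¹ ∈ 𝒩(E) := mul_mem (mul_mem lN hp.2) (inv_mem lN)
    refine ⟨b, ?_⟩
    have e3 : ⁅l * p * l⁻¹, u⁆ = l * ⁅p, w⁆ * l⁻¹ * (u * (r' * (l * p * l⁻¹ * r'⁻¹ * (l * p * l⁻¹)⁻¹)) * u⁻¹) := by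
      rw [show l * ⁅p, w⁆ * l⁻¹ = ⁅l * p * l⁻¹, l * w * l⁻¹⁆ by simp only [commutatorElement_def]; group, e2]
      simp only [commutatorElement_def]; group
    rw [e3]
    exact mul_mem (conj_mem (nR lN) (mem_sup_left (hw p hp))) (conj_mem (nR uP.2)
      (mul_mem hr' (conj_mem (nR b) (inv_mem hr'))))) le
  obtain ⟨a, ha, e4⟩ := syl_conj s2 s1
  rw [← cj_mul] at e4
  have mW := (h e he (a * l) ((cj_mono _ QP).trans (e4.le.trans inf_le_left))).2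
  refine ⟨u⁻¹, inv_mem uV, _, conj_mem mW wW, ?_, fun k => uE (by simpa using k)⟩
  have m1 : u⁻¹ * (a * l * w * (a * l)⁻¹) ∈ S e := mul_mem (inv_mem uP.1) (e4.le (conj_mem_cj _ wP)).1
  have m2 : u⁻¹ * (a * l * w * (a * l)⁻¹) ∈ E ⊔ 𝒞(E) := by
    rw [show a * l * w * (a * l)⁻¹ = a * (l * w * l⁻¹) * a⁻¹ by group, e2,
      show u⁻¹ * (a * (u * r') * a⁻¹) = u⁻¹ * ⁅a, u⁆ * u * (a * r' * a⁻¹) by rw [commutatorElement_def]; group]
    exact mul_mem (conj_mem' (nR uP.2) ha.2) (conj_mem (nR ha.1) hr')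
  obtain ⟨b, hb, c, hc, e5⟩ := (mem_sup_nr (le_norm_cent le_normalizer)).1 m2
  rw [← e5] at m1 ⊢
  exact mul_mem hb (hl.centric ⟨(mul_mem_cancel_left (hl.lt.le hb)).1 m1, hc⟩)

theorem c1 (h : All.{u, v} @DU) : All.{u, v} @C1 := by
  intro G _ _ n F _ _ _ e he E h1 h2 g hg
  have a := half h he h1 h2 hg
  have b := half h he.symm ((Q_sy e).symm ▸ h1) ((S_sy e).symm ▸ h2) hg
  rw [V_sy, Q_sy] at b
  exact mem_norm_of_cj_le (by rw [← V_sup_W, cj_sup, V_sup_W]; exact sup_le a b)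

end CL.LQ
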