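/-
Project LQ (S1769): the non-diagonal case.
-/
import Cfsg.Agent.LQ.Defs

set_option autoImplicit false
open Cfsg Matrix Subgroup CL.Grp CL.Even CL.Loc
open scoped commutatorElement

namespace CL.LQ

universe u v

namespace NDh

section Pure

variable {G : Type*} [Group G]

/-- the involutions in the centre of `E` -/
def Om (E : Subgroup G) : Subgroup G where
  carrier := {m | m ∈ E ∧ m ∈ 𝒞(E) ∧ m * m = 1}
  one_mem' := ⟨one_mem _, one_mem _, one_mul 1⟩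
  mul_mem' := fun {a b} ha hb => ⟨mul_mem ha.1 hb.1, mul_mem ha.2.1 hb.2.1, by
    rw [mul_assoc, ← mul_assoc b, ← comm_of_mem hb.2.1 ha.1, mul_assoc, hb.2.2, mul_one, ha.2.2]⟩
  inv_mem' := fun {a} ha => ⟨inv_mem ha.1, inv_mem ha.2.1, by rw [← _root_.mul_inv_rev, ha.2.2, inv_one]⟩

theorem Om_conj {E : Subgroup G} {g m : G} (hg : g ∈ 𝒩(E)) (hm : m ∈ Om E) : g * m * g⁻¹ ∈ Om E :=
  ⟨conj_mem hg hm.1, conj_mem (norm_le_norm_cent E hg) hm.2.1, by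
    rw [show g * m * g⁻¹ * (g * m * g⁻¹) = g * (m * m) * g⁻¹ by group, hm.2.2]; simp⟩

theorem Om_comm {E : Subgroup G} {m m' : G} (hm : m ∈ Om E) (hm' : m' ∈ Om E) : m * m' = m' * m :=
  comm_of_mem hm'.2.1 hm.1

theorem Om_br {E : Subgroup G} {x m : G} (hx : x ∈ 𝒩(E)) (hm : m ∈ Om E) : ⁅m, x⁆ ∈ Om E := by
  rw [show ⁅m, x⁆ = m * (x * m⁻¹ * x⁻¹) by rw [commutatorElement_def]; group]
  exact mul_mem hm (Om_conj hx (inv_mem hm))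

theorem br_mul (s x y : G) : ⁅s, x * y⁆ = ⁅s, x⁆ * (x * ⁅s, y⁆ * x⁻¹) := by
  simp only [commutatorElement_def]; group

theorem br_conj {a m : G} (h : a * m = m * a) (x : G) : ⁅m, a * x * a⁻¹⁆ = a * ⁅m, x⁆ * a⁻¹ := by
  rw [conjugate_commutatorElement, h, mul_inv_cancel_right]

theorem count [Finite G] {E A Z0 : Subgroup G} {B : Set G} {x b h d0 : G} (hx : x ∈ 𝒩(E)) (hh : h ∈ 𝒩(E))
    (hb : ∀ m ∈ Om E, Commute (h * x * h⁻¹) m → Commute b m) (hA : A ≤ Om E) (hAb : ∀ d ∈ A, Commute b d → d = 1)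
    (hB : B ⊆ A) (hd : d0 ∈ A) (hd' : d0 ∉ B) (h1 : ∀ m ∈ Om E, ∃ d ∈ B, ∃ z ∈ Z0, ⁅m, x⁆ = d * z)
    (h2 : ∀ m ∈ Om E, ⁅m, x⁆ ∈ Z0 → ⁅m, x⁆ = 1) : False := by
  obtain ⟨φ, hφ⟩ : ∃ φ : Om E →* G, ∀ m, φ m = ⁅(m : G), x⁆ := by
    refine ⟨MonoidHom.mk' (fun m => ⁅(m : G), x⁆) fun a c => ?_, fun _ => rfl⟩
    have e1 : ⁅(a : G) * c, x⁆ = a * ⁅(c : G), x⁆ * (a : G)⁻¹ * ⁅(a : G), x⁆ := by
      simp only [commutatorElement_def]; group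
    show ⁅(a : G) * c, x⁆ = _
    rw [e1, Om_comm a.2 (Om_br hx c.2), mul_inv_cancel_right, Om_comm (Om_br hx c.2) (Om_br hx a.2)]
  have e1 : Nat.card φ.ker * Nat.card φ.range = Nat.card (Om E) := by
    rw [← index_ker]; exact card_mul_index _
  have e2 : Nat.card A * Nat.card φ.ker ≤ Nat.card (Om E) := by
    rw [← Nat.card_prod]
    refine Nat.card_le_card_of_injective (fun p : A × φ.ker =>
      (⟨p.1 * (h * (p.2 : Om E) * h⁻¹), mul_mem (hA p.1.2) (Om_conj hh p.2.1.2)⟩ : Om E)) ?_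
    rintro ⟨a, c⟩ ⟨a', c'⟩ e
    have e : (a : G) * (h * (c : Om E) * h⁻¹) = a' * (h * (c' : Om E) * h⁻¹) := congrArg Subtype.val e
    have k : (a' : G)⁻¹ * a = h * ((c' * c⁻¹ : φ.ker) : Om E) * h⁻¹ := by
      rw [← mul_inv_cancel_right (a : G) (h * (c : Om E) * h⁻¹), e]; push_cast; group
    have k2 : Commute x ((c' * c⁻¹ : φ.ker) : Om E) :=
      (commutatorElement_eq_one_iff_commute.1 ((hφ _).symm.trans (c' * c⁻¹).2)).symm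
    have k3 : (a' : G)⁻¹ * a = 1 := hAb _ (mul_mem (inv_mem a'.2) a.2)
      (hb _ (hA (mul_mem (inv_mem a'.2) a.2)) (k ▸ k2.conj h))
    obtain rfl : a = a' := Subtype.ext (inv_mul_eq_one.1 k3).symm
    exact Prod.ext rfl (Subtype.ext (Subtype.ext (mul_left_cancel (mul_right_cancel (mul_left_cancel e)))))
  have e3 : Nat.card φ.range ≤ Nat.card B := by
    have : ∀ p : φ.range, ∃ d : B, ∃ z ∈ Z0, (p : G) = d * z := fun ⟨_, m, hm⟩ => by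
      obtain ⟨d, hd, z, hz, e⟩ := h1 m m.2
      exact ⟨⟨d, hd⟩, z, hz, by rw [← e, ← hφ, hm]⟩
    choose f hf using this
    refine Nat.card_le_card_of_injective f ?_
    rintro ⟨_, m, rfl⟩ ⟨_, m', rfl⟩ e
    obtain ⟨z, hz, k⟩ := hf ⟨_, m, rfl⟩
    obtain ⟨z', hz', k'⟩ := hf ⟨_, m', rfl⟩
    have k3 : φ (m'⁻¹ * m) = z'⁻¹ * z := by
      rw [map_mul, map_inv]
      simp only at k k'
      rw [k, k', e]; group
    have k4 : φ (m'⁻¹ * m) = 1 := by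
      rw [hφ] at k3 ⊢
      exact h2 _ (m'⁻¹ * m).2 (k3 ▸ mul_mem (inv_mem hz') hz)
    rw [map_mul, map_inv, inv_mul_eq_one] at k4
    exact Subtype.ext k4.symm
  have e4 : Nat.card B < Nat.card A := Set.ncard_lt_ncard ⟨hB, fun k => hd' (k hd)⟩ (Set.toFinite _)
  have : 0 < Nat.card φ.ker := Nat.card_pos
  nlinarith

/-- the abstract configuration -/
structure Cf (S V W Z E : Subgroup G) (j : G) : Prop where
  VS : V ≤ S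
  WS : W ≤ S
  ZV : Z ≤ V
  ZW : Z ≤ W
  nV : S ≤ 𝒩(V)
  nW : S ≤ 𝒩(W)
  Vc : ∀ x ∈ V, ∀ y ∈ V, x * y = y * x
  Wc : ∀ x ∈ W, ∀ y ∈ W, x * y = y * x
  Vs : ∀ x ∈ V, x * x = 1
  Ws : ∀ x ∈ W, x * x = 1
  Zc : ∀ z ∈ Z, ∀ x ∈ S, z * x = x * z
  VW : ∀ v ∈ V, ∀ w ∈ W, ⁅v, w⁆ ∈ Z
  jO : j ∈ Om E
  mE : ∀ x, x ∈ E ↔ x ∈ S ∧ ⁅j, x⁆ = 1
  mV : ∀ v ∈ V, ⁅j, v⁆ ∈ Z → ⁅j, v⁆ ≠ 1 → ∀ z ∈ Z, ∃ v' ∈ V, ⁅j, v'⁆ = z
  mW : ∀ w ∈ W, ⁅j, w⁆ ∈ Z → ⁅j, w⁆ ≠ 1 → ∀ z ∈ Z, ∃ w' ∈ W, ⁅j, w'⁆ = z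
  dV : ∀ p ∈ V, (∀ w ∈ W, ⁅j, w⁆ ∈ Z → Commute p w) → ∃ u ∈ V, ∃ z ∈ Z, p = ⁅j, u⁆ * z
  dW : ∀ p ∈ W, (∀ v ∈ V, ⁅j, v⁆ ∈ Z → Commute p v) → ∃ w ∈ W, ∃ z ∈ Z, p = ⁅j, w⁆ * z
  nd : ∀ v ∈ V, ∀ w ∈ W, v * w ∈ E → v ∈ E

namespace Cf

variable {S V W Z E : Subgroup G} {j : G} (c : Cf S V W Z E j)
include c

theorem symm : Cf S W V Z E j :=
  ⟨c.WS, c.VS, c.ZW, c.ZV, c.nW, c.nV, c.Wc, c.Vc, c.Ws, c.Vs, c.Zc,
    fun w hw v hv => by rw [← commutatorElement_inv]; exact inv_mem (c.VW v hv w hw), c.jO, c.mE, c.mW, c.mV,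
    c.dW, c.dV, fun w hw v hv h => by
      have h1 : v⁻¹ ∈ E := c.nd _ (inv_mem hv) _ (inv_mem hw) (by rw [← _root_.mul_inv_rev]; exact inv_mem h)
      exact (mul_mem_cancel_right (inv_mem_iff.1 h1)).1 h⟩

theorem ES : E ≤ S := fun x hx => ((c.mE x).1 hx).1

theorem ZC {z : G} (hz : z ∈ Z) : z ∈ 𝒞(E) := mem_centralizer_iff.2 fun x hx => (c.Zc z hz x (c.ES hx)).symm

theorem ZE {z : G} (hz : z ∈ Z) : z ∈ E := (c.mE z).2 ⟨c.VS (c.ZV hz),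
  commutatorElement_eq_one_iff_mul_comm.2 (c.Zc z hz j (c.ES c.jO.1)).symm⟩

theorem brV {s v : G} (hs : s ∈ S) (hv : v ∈ V) : ⁅s, v⁆ ∈ V := mul_mem (conj_mem (c.nV hs) hv) (inv_mem hv)

theorem hom {s v v' : G} (hs : s ∈ S) (hv : v ∈ V) (hv' : v' ∈ V) : ⁅s, v * v'⁆ = ⁅s, v⁆ * ⁅s, v'⁆ := by
  rw [br_mul, c.Vc v hv _ (c.brV hs hv'), mul_inv_cancel_right]

theorem Vi {v : G} (hv : v ∈ V) : v⁻¹ = v := inv_eq_of_mul_eq_one_right (c.Vs v hv)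

/-- if `⁅j, u⁆` centralises `E` then `u` normalises `E` -/
theorem norm [Finite G] {u : G} (hu : u ∈ V) (h : ⁅j, u⁆ ∈ 𝒞(E)) : u ∈ 𝒩(E) := by
  refine mem_norm_of_cj_le ?_
  rintro _ ⟨a, ha, rfl⟩
  have h1 : ⁅a⁻¹, u⁆ ∈ E := by
    refine (c.mE _).2 ⟨c.VS (c.brV (c.ES (inv_mem ha)) hu), ?_⟩
    rw [commutatorElement_def a⁻¹, c.hom (c.ES c.jO.1) (conj_mem (c.nV (c.ES (inv_mem ha))) hu) (inv_mem hu),
      br_conj (comm_of_mem c.jO.2.1 (inv_mem ha)), comm_of_mem h (inv_mem ha), mul_inv_cancel_right, c.Vi hu]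
    exact c.Vs _ (c.brV (c.ES c.jO.1) hu)
  have h2 : (MulAut.conj u).toMonoidHom a = a * ⁅a⁻¹, u⁆ := by simp [commutatorElement_def, mul_assoc]
  rw [h2]
  exact mul_mem ha h1

/-- identity (I) -/
theorem swap {m u w : G} (hm : m ∈ S) (hmm : m * m = 1) (hu : u ∈ V) (hw : w ∈ W) (h : Commute u ⁅m, w⁆) :
    Commute ⁅m, u⁆ w := by
  have hi : m⁻¹ = m := inv_eq_of_mul_eq_one_right hmm
  have hw' := conj_mem (c.nW hm) hw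
  have h1 : ⁅u, m * w * m⁻¹⁆ * ⁅u, w⁆ = 1 := by
    rw [← c.symm.hom (c.VS hu) hw' hw]
    nth_rw 2 [← c.symm.Vi hw]
    exact commutatorElement_eq_one_iff_commute.2 h
  have h2 : ⁅w, m * u * m⁻¹⁆ = ⁅m * w * m⁻¹, u⁆ := by
    have e : ⁅w, m * u * m⁻¹⁆ = m * ⁅m⁻¹ * w * m, u⁆ * m⁻¹ := by simp only [commutatorElement_def]; group
    have e2 : m⁻¹ * w * m = m * w * m⁻¹ := by rw [hi]
    rw [e, e2, ← c.Zc _ (c.symm.VW _ hw' _ hu) m hm, mul_inv_cancel_right]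
  refine (commutatorElement_eq_one_iff_commute.1 ?_).symm
  rw [commutatorElement_def m, c.hom (c.WS hw) (conj_mem (c.nV hm) hu) (inv_mem hu), h2, c.Vi hu,
    ← commutatorElement_inv u, ← commutatorElement_inv u, ← _root_.mul_inv_rev, inv_eq_one]
  exact mul_eq_one_comm.1 h1

/-- step (2) -/
theorem centY {p y : G} (hp : p ∈ W) (hpc : p ∈ 𝒞(E)) (hy : y ∈ ⁅E, V⁆ ⊔ (V ⊓ E)) : Commute y p := by
  have : ⁅E, V⁆ ⊔ (V ⊓ E) ≤ centralizer {p} := by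
    refine sup_le (commutator_le.2 fun a ha v hv => mem_centralizer_singleton_iff.2 ?_)
      fun x hx => mem_centralizer_singleton_iff.2 (comm_of_mem hpc hx.2)
    refine (commutatorElement_eq_one_iff_mul_comm.1 ?_).symm
    rw [commutatorElement_def a, c.hom (c.WS hp) (conj_mem (c.nV (c.ES ha)) hv) (inv_mem hv),
      br_conj (comm_of_mem hpc ha), ← c.Zc _ (c.symm.VW _ hp _ hv) a (c.ES ha), mul_inv_cancel_right, c.Vi hv]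
    exact c.Vs _ (c.brV (c.WS hp) hv)
  exact mem_centralizer_singleton_iff.1 (this hy)

theorem YV : ⁅E, V⁆ ⊔ (V ⊓ E) ≤ V :=
  sup_le (commutator_le.2 fun _ ha _ hv => c.brV (c.ES ha) hv) inf_le_left

theorem brY {m y w : G} (hm : m ∈ Om E) (hy : y ∈ ⁅E, V⁆ ⊔ (V ⊓ E)) (hw : w ∈ W) (hn : w ∈ 𝒩(E)) :
    Commute ⁅m, y⁆ w :=
  c.swap (c.ES hm.1) hm.2.2 (c.YV hy) hw (c.centY (c.symm.brV (c.ES hm.1) hw) (Om_br hn hm).2.1 hy)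

/-- if some element of `W \ E` centralises `j` modulo `Z`, then no element of `V \ E` does -/
theorem kv {w v : G} (hw : w ∈ W) (h : ⁅j, w⁆ ∈ Z) (hE : w ∉ E) (hv : v ∈ V) (h' : ⁅j, v⁆ ∈ Z) : v ∈ E := by
  obtain ⟨w', hw', e⟩ := c.mW w hw h (fun k => hE ((c.mE w).2 ⟨c.WS hw, k⟩)) _ h'
  refine c.nd v hv w' hw' ((c.mE _).2 ⟨mul_mem (c.VS hv) (c.WS hw'), ?_⟩)
  rw [br_mul, e, ← c.Zc _ h' v (c.VS hv), mul_inv_cancel_right]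
  exact c.Vs _ (c.ZV h')

theorem surj {v p : G} (hv : v ∈ V) (h : ⁅j, v⁆ ∈ Z) (hE : v ∉ E) (hp : p ∈ V) (hpc : p ∈ 𝒞(E))
    (kW : ∀ w ∈ W, ⁅j, w⁆ ∈ Z → w ∈ E) : ∃ u ∈ V, p = ⁅j, u⁆ := by
  obtain ⟨u, hu, z, hz, e⟩ := c.dV p hp fun w hw k => (comm_of_mem hpc (kW w hw k)).symm
  obtain ⟨v', hv', e'⟩ := c.mV v hv h (fun k => hE ((c.mE v).2 ⟨c.VS hv, k⟩)) z hz
  exact ⟨u * v', mul_mem hu hv', by rw [c.hom (c.ES c.jO.1) hu hv', e', e]⟩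

/-- the set `Φ_V` -/
def _root_.CL.LQ.NDh.PV (V W E : Subgroup G) (j : G) : Set G :=
  {d | ∃ u ∈ V, u ∈ 𝒩(E) ∧ (∀ w ∈ W, w ∈ 𝒩(E) → Commute ⁅j, u⁆ w) ∧ d = ⁅j, u⁆}

/-- the set `Φ_W` -/
def _root_.CL.LQ.NDh.PW (W E : Subgroup G) (j : G) : Set G := {d | ∃ w ∈ W, w ∈ 𝒩(E) ∧ d = ⁅j, w⁆}

theorem PV_O {d : G} (h : d ∈ PV V W E j) : d ∈ Om E := by
  obtain ⟨u, -, hn, -, rfl⟩ := h
  exact Om_br hn c.jO

theorem PW_O {d : G} (h : d ∈ PW W E j) : d ∈ Om E := by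
  obtain ⟨u, -, hn, rfl⟩ := h
  exact Om_br hn c.jO

/-- the subgroup `Φ_V Φ_W` -/
def A : Subgroup G where
  carrier := {d | ∃ p ∈ PV V W E j, ∃ p' ∈ PW W E j, d = p * p'}
  one_mem' := ⟨1, ⟨1, one_mem _, one_mem _, fun _ _ _ => by simp, by simp⟩, 1, ⟨1, one_mem _, one_mem _, by simp⟩,
    by simp⟩
  mul_mem' := by
    rintro _ _ ⟨p, hp, p', hp', rfl⟩ ⟨r, hr, r', hr', rfl⟩
    refine ⟨p * r, ?_, p' * r', ?_, ?_⟩
    · obtain ⟨u, hu, hn, k, rfl⟩ := hp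
      obtain ⟨u', hu', hn', k', rfl⟩ := hr
      have e := c.hom (c.ES c.jO.1) hu hu'
      exact ⟨u * u', mul_mem hu hu', mul_mem hn hn', fun w hw hw' => e ▸ (k w hw hw').mul_left (k' w hw hw'), e.symm⟩
    · obtain ⟨u, hu, hn, rfl⟩ := hp'
      obtain ⟨u', hu', hn', rfl⟩ := hr'
      exact ⟨u * u', mul_mem hu hu', mul_mem hn hn', (c.symm.hom (c.ES c.jO.1) hu hu').symm⟩
    · rw [mul_assoc, ← mul_assoc p', Om_comm (c.PW_O hp') (c.PV_O hr)]; group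
  inv_mem' := by
    rintro _ ⟨p, hp, p', hp', rfl⟩
    exact ⟨p, hp, p', hp', inv_eq_of_mul_eq_one_right (mul_mem (c.PV_O hp) (c.PW_O hp')).2.2⟩

theorem A_le : c.A ≤ Om E := by
  rintro _ ⟨p, hp, p', hp', rfl⟩
  exact mul_mem (c.PV_O hp) (c.PW_O hp')

theorem PV_A : PV V W E j ⊆ c.A := fun p hp => ⟨p, hp, 1, ⟨1, one_mem _, one_mem _, by simp⟩, by simp⟩

theorem PW_A : PW W E j ⊆ c.A := fun p hp =>
  ⟨1, ⟨1, one_mem _, one_mem _, fun _ _ _ => by simp, by simp⟩, p, hp, by simp⟩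

theorem br_uw {u w : G} (hu : u ∈ V) (hw : w ∈ W) (h : Commute ⁅j, u⁆ w) : ⁅j, u * w⁆ = ⁅j, u⁆ * ⁅j, w⁆ := by
  rw [br_mul, ← (c.symm.swap (c.ES c.jO.1) c.jO.2.2 hw hu h.symm).eq, mul_inv_cancel_right]

theorem disj {u w : G} (hu : u ∈ V) (hw : w ∈ W) (h : Commute ⁅j, u⁆ w) (e : ⁅j, u⁆ = ⁅j, w⁆) : u ∈ E := by
  refine c.nd u hu w hw ((c.mE _).2 ⟨mul_mem (c.VS hu) (c.WS hw), ?_⟩)
  rw [c.br_uw hu hw h, ← e]
  exact c.Vs _ (c.brV (c.ES c.jO.1) hu)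

theorem A_b {b : G} (op : ∀ x, Out S E x → Commute b ⁅x, j⁆ → ⁅x, j⁆ = 1) : ∀ d ∈ c.A, Commute b d → d = 1 := by
  rintro _ ⟨_, ⟨u, hu, hn, k, rfl⟩, _, ⟨w, hw, hn', rfl⟩, rfl⟩ h
  rw [← c.br_uw hu hw (k w hw hn')] at h ⊢
  by_cases hE : u * w ∈ E
  · exact ((c.mE _).1 hE).2
  · have : u * w * (u * w) = ⁅u, w⁆ := by rw [commutatorElement_def, c.Vi hu, c.symm.Vi hw, ← mul_assoc]
    rw [← commutatorElement_inv, inv_eq_one]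
    refine op _ ⟨mul_mem (c.VS hu) (c.WS hw), mul_mem hn hn', hE, this ▸ c.ZE (c.VW u hu w hw)⟩ ?_
    rw [← commutatorElement_inv]
    exact h.inv_right

theorem main [Finite G] (hS : IsPGroup 2 S) (hV : ¬ V ≤ 𝒩(E)) (hW : ¬ W ≤ E) {b : G}
    (se : ∀ x, Out S E x → ∃ h ∈ 𝒩(E), ∀ m ∈ Om E, Commute (h * x * h⁻¹) m → Commute b m)
    (op : ∀ x, Out S E x → Commute b ⁅x, j⁆ → ⁅x, j⁆ = 1)
    (nd3 : (∀ v ∈ V, ⁅j, v⁆ ∈ Z → v ∈ E) → (∀ w ∈ W, ⁅j, w⁆ ∈ Z → w ∈ E) → ∀ m ∈ Om E,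
      ∀ x ∈ ⁅E, V⁆ ⊔ (V ⊓ E), ⁅m, x⁆ ∈ Z → ⁅m, x⁆ = 1) : False := by
  have hj := c.ES c.jO.1
  obtain ⟨u, hu, hun, huE⟩ := exists_norm_not_mem hS c.ES (c.YV.trans c.VS)
    (le_norm_sup (le_norm_commutator le_normalizer (c.ES.trans c.nV)) (le_norm_inf (c.ES.trans c.nV) le_normalizer))
    fun k => hV (le_norm_of_commutator_le (le_sup_left.trans k))
  obtain ⟨w, hw, hwn, hwE⟩ := exists_norm_not_mem hS c.ES c.WS (c.ES.trans c.nW) hW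
  have huV := c.YV hu
  have ou : Out S E u := ⟨c.VS huV, hun, huE, c.Vs u huV ▸ one_mem _⟩
  have du : ⁅j, u⁆ ∈ PV V W E j := ⟨u, huV, hun, fun w hw hn => c.brY c.jO hu hw hn, rfl⟩
  have dw : ⁅j, w⁆ ∉ PV V W E j := by
    rintro ⟨u', hu', -, k, e⟩
    exact hwE ((c.mE w).2 ⟨c.WS hw, e.trans ((c.mE _).1 (c.disj hu' hw (k w hw hwn) e.symm)).2⟩)
  by_cases kW : ∀ w ∈ W, ⁅j, w⁆ ∈ Z → w ∈ E
  · obtain ⟨h, hh, hb⟩ := se u ou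
    by_cases kV : ∀ v ∈ V, ⁅j, v⁆ ∈ Z → v ∈ E
    · refine count (Z0 := Z) hun hh hb c.A_le (c.A_b op) c.PV_A (c.PW_A ⟨w, hw, hwn, rfl⟩) dw (fun m hm => ?_)
        fun m hm => nd3 kV kW m hm u hu
      have hp := Om_br hun hm
      obtain ⟨u1, hu1, z, hz, e⟩ := c.dV _ (c.brV (c.ES hm.1) huV) fun w hw k => (comm_of_mem hp.2.1 (kW w hw k)).symm
      have e' : ⁅j, u1⁆ = ⁅m, u⁆ * z⁻¹ := by rw [e, mul_inv_cancel_right]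
      refine ⟨_, ⟨u1, hu1, c.norm hu1 (e' ▸ mul_mem hp.2.1 (inv_mem (c.ZC hz))), fun w hw hn => ?_, rfl⟩, z, hz, e⟩
      rw [e']
      exact (c.brY hm hu hw hn).mul_left (c.Zc _ (inv_mem hz) w (c.WS hw))
    · push Not at kV
      obtain ⟨v, hv, h1, h2⟩ := kV
      refine count (Z0 := ⊥) hun hh hb c.A_le (c.A_b op) c.PV_A (c.PW_A ⟨w, hw, hwn, rfl⟩) dw (fun m hm => ?_)
        fun m _ k => k
      have hp := Om_br hun hm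
      obtain ⟨u1, hu1, e⟩ := c.surj hv h1 h2 (c.brV (c.ES hm.1) huV) hp.2.1 kW
      exact ⟨_, ⟨u1, hu1, c.norm hu1 (e ▸ hp.2.1), fun w hw hn => e ▸ c.brY hm hu hw hn, rfl⟩, 1, one_mem _,
        by rw [mul_one, e]⟩
  · push Not at kW
    obtain ⟨w1, hw1, h1, h2⟩ := kW
    have hn1 : w1 ∈ 𝒩(E) := c.symm.norm hw1 (c.ZC h1)
    obtain ⟨h, hh, hb⟩ := se w1 ⟨c.WS hw1, hn1, h2, c.Ws w1 hw1 ▸ one_mem _⟩
    refine count (Z0 := ⊥) hn1 hh hb c.A_le (c.A_b op) c.PW_A (c.PV_A du) ?_ (fun m hm => ?_) fun m _ k => k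
    · rintro ⟨w', hw', hn', e⟩
      exact huE (c.disj huV hw' (c.brY c.jO hu hw' hn') e)
    · have hp := Om_br hn1 hm
      obtain ⟨w2, hw2, e⟩ := c.symm.surj hw1 h1 h2 (c.symm.brV (c.ES hm.1) hw1) hp.2.1
        fun v hv k => c.kv hw1 h1 h2 hv k
      exact ⟨_, ⟨w2, hw2, c.symm.norm hw2 (e ▸ hp.2.1), rfl⟩, 1, one_mem _, by rw [mul_one, e]⟩

end Cf

end Pure

section Conc

variable {G : Type u} [Group G] {n : ℕ} {F : Type v} [Field F] {e : U n F →* G}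

theorem multV (he : St e) {j : G} (hj : j ∈ S e) (v : G) (hv : v ∈ V e) (h : ⁅j, v⁆ ∈ Z e) (h1 : ⁅j, v⁆ ≠ 1)
    (z : G) (hz : z ∈ Z e) : ∃ v' ∈ V e, ⁅j, v'⁆ = z := by
  obtain ⟨s, rfl⟩ := hj
  obtain ⟨a, c, rfl⟩ := mem_V.1 hv
  obtain ⟨d, rfl⟩ := mem_Z.1 hz
  rw [← map_commutatorElement, U.comm_q] at h h1
  have h2 : a ᵥ* s.g⁻¹ = a := sub_eq_zero.1 (he.mem_map.1 h).2.1
  have hβ : a ⬝ᵥ s.w ≠ 0 := fun k => h1 (by rw [he.eq_one, U.q_eq_one]; simp [h2, k])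
  refine ⟨e (U.q ((-d / (a ⬝ᵥ s.w)) • a) 0 0), mem_V.2 ⟨_, _, rfl⟩, ?_⟩
  rw [← map_commutatorElement, U.comm_q]
  congr 1
  rw [U.q_inj, smul_vecMul, h2]
  refine ⟨sub_self _, by simp, ?_⟩
  simp only [dotProduct_zero, smul_dotProduct, smul_eq_mul]
  field_simp
  ring

theorem nd3' [CharP F 2] (he : St e) (h2 : ND3.{v}) {E : Subgroup G} {j : G} (jS : j ∈ S e) (jj : j * j = 1)
    (hE : S e ⊓ centralizer {j} = E) (kV : ∀ v ∈ V e, ⁅j, v⁆ ∈ Z e → v ∈ E) (kW : ∀ w ∈ W e, ⁅j, w⁆ ∈ Z e → w ∈ E)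
    (m : G) (hm : m ∈ Om E) (x : G) (hx : x ∈ ⁅E, V e⁆ ⊔ (V e ⊓ E)) (h : ⁅m, x⁆ ∈ Z e) : ⁅m, x⁆ = 1 := by
  obtain ⟨j0, rfl⟩ := jS
  obtain rfl : (centralizer {j0}).map e = E := by
    rw [← hE]
    refine Subgroup.ext fun x => ⟨?_, ?_⟩
    · rintro ⟨s, k, rfl⟩
      exact mem_inf.2 ⟨⟨s, rfl⟩, mem_centralizer_singleton_iff.2 (by
        rw [← map_mul, ← map_mul, mem_centralizer_singleton_iff.1 k])⟩
    · rintro ⟨⟨s, rfl⟩, k⟩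
      exact mem_map_of_mem e (mem_centralizer_singleton_iff.2 (he.inj (by
        rw [map_mul, map_mul]; exact mem_centralizer_singleton_iff.1 k)))
  rw [V, ← Subgroup.map_commutator, ← map_inf _ _ _ he.inj, ← Subgroup.map_sup] at hx
  obtain ⟨x0, hx0, rfl⟩ := hx
  obtain ⟨m0, hm0, rfl⟩ := hm.1
  have k : ∀ y : U n F, e y ∈ (centralizer {j0}).map e → ⁅j0, y⁆ = 1 := fun y hy =>
    commutatorElement_eq_one_iff_mul_comm.2 (mem_centralizer_singleton_iff.1 (he.mem_map.1 hy)).symm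
  rw [← map_commutatorElement] at h ⊢
  rw [h2 j0 m0 (he.eq_one.1 (by rw [map_mul, jj]))
    (fun v hv hz => k v (kV _ (mem_map_of_mem e hv) (map_commutatorElement e j0 v ▸ mem_map_of_mem e hz)))
    (fun w hw hz => k w (kW _ (mem_map_of_mem e hw) (map_commutatorElement e j0 w ▸ mem_map_of_mem e hz)))
    (mem_inf.2 ⟨hm0, mem_centralizer_iff.2 fun y hy => he.inj (by
      rw [map_mul, map_mul]; exact comm_of_mem hm.2.1 (mem_map_of_mem e hy))⟩) x0 hx0 (he.mem_map.1 h), map_one]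

end Conc

end NDh

open NDh in
theorem nd (h1 : All.{u, v} @DU) (h2 : ND3.{v}) : All.{u, v} @ND := by
  intro G _ _ n F _ _ _ e he E K D L hW hnd
  by_contra hV
  obtain ⟨g, hg, hgD, hgK⟩ := L.ex
  obtain ⟨z, hz, hzD⟩ := L.neZ
  have hE := L.cz g hg hgD hgK z hz hzD
  have ES : E ≤ S e := L.lt.le
  have zC : z ∈ 𝒞(E) := mem_centralizer_iff.2 fun x hx => (Z_comm hz (ES hx)).symm
  have zO : z ∈ Om E := ⟨L.centric (mem_inf.2 ⟨Z_le_S e hz, zC⟩), zC, V_sq (Z_le_V e hz)⟩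
  have jO := Om_conj hg zO
  have jS := ES jO.1
  obtain ⟨x', hx', hxn, hxE⟩ := exists_norm_not_mem L.isP ES (V_le_S e) (ES.trans (S_le_NV e))
    fun k => hV (k.trans le_normalizer)
  have ox : Out (S e) E x' := ⟨V_le_S e hx', hxn, hxE, V_sq hx' ▸ one_mem _⟩
  have c : Cf (S e) (V e) (W e) (Z e) E (g * z * g⁻¹) :=
    ⟨V_le_S e, W_le_S e, Z_le_V e, Z_le_W e, S_le_NV e, S_le_NW e, fun _ hx _ hy => V_comm hx hy,
      fun _ hx _ hy => W_comm hx hy, fun _ => V_sq, fun _ => W_sq, fun _ hz _ hx => Z_comm hz hx,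
      fun _ hv _ hw => comm_Q (V_le_Q e hv) (W_le_Q e hw), jO,
      fun x => by rw [← hE, mem_inf, mem_centralizer_singleton_iff, commutatorElement_eq_one_iff_mul_comm, eq_comm],
      multV he jS, by simpa only [V_sy, Z_sy] using multV he.symm ((S_sy e).symm ▸ jS), (h1 e he).du1 _ jS,
      by simpa only [V_sy, W_sy, Z_sy] using (h1 (sy e) he.symm).du1 _ ((S_sy e).symm ▸ jS), hnd⟩
  refine c.main L.isP hV hW (b := g * x' * g⁻¹) (fun x hx => ?_)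
    (fun x hx => L.opp x x' hx ox g hg hgK _ (mem_inf.2 ⟨jO.1, jO.2.1⟩) jO.2.2
      (Commute.conj (Z_comm hz ox.mS).symm g)) (nd3' he h2 jS jO.2.2 hE)
  obtain ⟨h, hh, r, hr, k⟩ := L.se2 x x' hx ox g hg hgK
  refine ⟨h, zpowers_le.2 (mul_mem hx.mN (mul_mem (mul_mem hg hxn) (inv_mem hg))) hh, fun m hm k' => ?_⟩
  have : E ⊔ 𝒞(E) ≤ centralizer {m} := sup_le (fun y hy => mem_centralizer_singleton_iff.2 (comm_of_mem hm.2.1 hy))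
    fun y hy => mem_centralizer_singleton_iff.2 (comm_of_mem hy hm.1).symm
  rw [k]
  exact k'.mul_left (mem_centralizer_singleton_iff.1 (this hr))

end CL.LQ
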