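/-
Project LQ (S1769): elements conjugating `Q` into `S` normalise `V` and `W`.
-/
import Cfsg.Agent.LQ.Defs

set_option autoImplicit false
open Cfsg Matrix Subgroup CL.Grp CL.Even CL.Loc
open scoped commutatorElement Pointwise

namespace CL.LQ

universe u v

namespace NQj

variable {G : Type u} [Group G] {n : ℕ} {F : Type v} [Field F] {e : U (n + 2) F →* G}

theorem comm_of_mem_rV {p : G} (hp : p ∈ Vk e (n + 1)) : ∀ s ∈ S e, ⁅s, p⁆ ∈ Z e := by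
  rintro _ ⟨s, rfl⟩
  obtain ⟨x, ⟨h1, h2, h3⟩, rfl⟩ := hp
  rw [← map_commutatorElement]
  refine mem_map_of_mem e ?_
  rw [U.eq_q h1, h2, U.comm_q]
  refine ⟨rfl, ?_, by simp⟩
  funext j
  have := s.ut.inv.vecMul_apply (a := x.u) (j := j) fun i hi => h3 i (by have := j.2; have := Fin.lt_def.1 hi; omega)
  simp [this]

theorem mem_rV (he : St e) {p : G} (hp : p ∈ V e) (h : ∀ s ∈ S e, ⁅s, p⁆ ∈ Z e) : p ∈ Vk e (n + 1) := by
  obtain ⟨a, c, rfl⟩ := mem_V.1 hp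
  refine mem_map_of_mem e ⟨rfl, rfl, fun i hi => ?_⟩
  have hut : IsUT (1 + Matrix.single i (Fin.last (n + 1)) (1 : F)) := by
    refine IsUT.one_add fun k j hkj => ?_
    rw [Matrix.single_apply_of_ne]
    rintro ⟨rfl, rfl⟩
    have := Fin.le_def.1 hkj
    simp at this
    omega
  have h1 := h _ (apply_mem_S e (U.l _ hut))
  rw [← map_commutatorElement, Z, he.mem_map, U.comm_q] at h1
  have h2 : a ᵥ* (U.l _ hut).g⁻¹ = a := sub_eq_zero.1 h1.2.1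
  have h3 : a ᵥ* (U.l _ hut).g = a := by
    conv_lhs => rw [← h2]
    rw [vecMul_vecMul, U.g_inv_mul, vecMul_one]
  have h4 := congrFun h3 (Fin.last (n + 1))
  simp only [U.l_g, vecMul_add, vecMul_one, Pi.add_apply, add_eq_left] at h4
  simpa [vecMul, dotProduct, Matrix.single_apply] using h4

theorem conj_prop {g p : G} (hS : g ∈ 𝒩(S e)) (hZ : g ∈ 𝒩(Z e)) (h : ∀ s ∈ S e, ⁅s, p⁆ ∈ Z e) :
    ∀ s ∈ S e, ⁅s, g * p * g⁻¹⁆ ∈ Z e := by
  intro s hs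
  have := conj_mem hZ (h _ (conj_mem' hS hs))
  convert this using 1
  simp only [commutatorElement_def]
  group

theorem comm_of_mem_rW {p : G} (hp : p ∈ Wk e 1) : ∀ s ∈ S e, ⁅s, p⁆ ∈ Z e := by
  have := comm_of_mem_rV (e := sy e) (p := p) (by rwa [Vk_sy e (k' := 1) rfl])
  simpa only [S_sy, Z_sy] using this

theorem mem_rW (he : St e) {p : G} (hp : p ∈ W e) (h : ∀ s ∈ S e, ⁅s, p⁆ ∈ Z e) : p ∈ Wk e 1 := by
  have := mem_rV he.symm (p := p) (by rwa [V_sy]) (by simpa only [S_sy, Z_sy] using h)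
  rwa [Vk_sy e (k' := 1) rfl] at this

theorem adm : U.Adm (Pi.single 0 1 : Fin (n + 2) → F) (Pi.single (Fin.last (n + 1)) 1) := by
  refine ⟨by simp, by simp, fun i j hij => ?_⟩
  by_cases hi : i = 0
  · subst hi
    have : j = 0 := le_antisymm hij (Fin.zero_le _)
    subst this
    rw [Pi.single_eq_of_ne (Fin.last_pos.ne), mul_zero]
  · rw [Pi.single_eq_of_ne hi, zero_mul]

theorem mem_of_sq [Finite G] (he : St e) {K : Subgroup G} (hK : S e ≤ K) {g : G} (hg : g ∈ 𝒩(S e))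
    (h2 : g * g ∈ K) : g ∈ K := by
  have h1 : (⟨g, hg⟩ : 𝒩(S e)) ^ ((S e).subgroupOf 𝒩(S e)).index ∈ (S e).subgroupOf 𝒩(S e) :=
    Subgroup.pow_index_mem _ _
  have h3 : ¬ 2 ∣ ((S e).subgroupOf 𝒩(S e)).index := (he.syl.of_le le_normalizer le_top).2.2
  obtain ⟨m, hm⟩ : Odd ((S e).subgroupOf 𝒩(S e)).index := Nat.odd_iff.2 (by omega)
  rw [hm, mem_subgroupOf] at h1
  have h4 : (g * g) ^ m * g ∈ K := by
    have := hK h1
    rw [← pow_two, ← pow_mul, ← pow_succ]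
    simpa using this
  exact (K.mul_mem_cancel_left (K.pow_mem h2 m)).1 h4

theorem cj_smul (g : G) (A : Subgroup G) : MulAut.conj g • A = cj g A := rfl

theorem base [Finite G] (he : St e) (h0 : SE.{u}) (h1 : NS e) {R : Subgroup G → G → Prop} (hR : FusRel R)
    (hone : ∀ U, R U 1) (hiff : ∀ E, Q e ≤ E → E ≤ S e → ∀ g ∈ 𝒩(E), R E g ↔ g ∈ 𝒩(V e))
    (htriv : ∀ E, ¬ Q e ≤ E → ∀ g ∈ 𝒩(E), R E g)
    (hC : ∀ E : Subgroup G, Q e ≤ E → ¬ Loc' (S e) E (𝒩(E) ⊓ 𝒩(V e))) :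
    ∀ T, T ≤ S e → ∀ g : G, cj g T ≤ S e → R T g := by
  refine hR.alperin_stab hone he.syl fun E hE hsyl ih g hg => ⟨hg, ?_⟩
  by_cases hQ : Q e ≤ E
  swap
  · exact htriv E hQ g hg
  rw [hiff E hQ hE g hg]
  rcases hE.eq_or_lt with rfl | hlt
  · exact (h1 hg).1
  by_contra hn
  refine hC E hQ (h0 ⟨he.isP, hlt, hsyl, inf_le_left, fun h => hn (h hg).2,
    le_inf (cent_le_norm E) ((cent_mono ((V_le_Q e).trans hQ)).trans (cent_le_norm _)),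
    fun T h1 h2 x hx h3 => ⟨hx, (hiff E hQ hE x hx).1 (ih T h1 h2 x hx h3).2⟩⟩)

end NQj

open NQj

theorem ns (h0 : All.{u, v} @PT) (h1 : All.{u, v} @C1) (h2 : All.{u, v} @F1) (h4 : All.{u, v} @F3) :
    All.{u, v} @NS := by
  intro G _ _ n F _ _ _ e he g hg
  have hP := h0 e he
  have gQ : g ∈ 𝒩(Q e) := h1 e he (S e) (Q_le_S e) le_rfl hg
  have gZ : g ∈ 𝒩(Z e) := hP.nz gQ
  have hV : ∀ p ∈ cj g (Vk e (n + 1)), ∀ s ∈ S e, ⁅s, p⁆ ∈ Z e := by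
    rintro _ ⟨p, hp, rfl⟩
    exact conj_prop hg gZ (comm_of_mem_rV hp)
  have hW : ∀ p ∈ cj g (Wk e 1), ∀ s ∈ S e, ⁅s, p⁆ ∈ Z e := by
    rintro _ ⟨p, hp, rfl⟩
    exact conj_prop hg gZ (comm_of_mem_rW hp)
  have h := h4 e he _ _ adm g gQ (cj_le_of_le (map_le_S e _) hg)
  rw [← hP.rV, ← hP.rW] at h
  rcases h with ⟨k1, k2⟩ | ⟨k1, k2⟩
  · have a1 : g ∈ 𝒩(Vk e (n + 1)) := mem_norm_of_cj_le fun p hp => mem_rV he (k1 hp) (hV p hp)
    have a2 : g ∈ 𝒩(Wk e 1) := mem_norm_of_cj_le fun p hp => mem_rW he (k2 hp) (hW p hp)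
    exact ⟨F1.sym h2 he ⟨gQ, a2⟩, h2 e he ⟨gQ, a1⟩⟩
  · exfalso
    have a1 : cj g (Vk e (n + 1)) ≤ Wk e 1 := fun p hp => mem_rW he (k1 hp) (hV p hp)
    have a2 : cj g (Wk e 1) ≤ Vk e (n + 1) := fun p hp => mem_rV he (k2 hp) (hW p hp)
    have a3 : g * g ∈ 𝒩(Vk e (n + 1)) := mem_norm_of_cj_le (by
      rw [cj_mul]; exact (cj_mono g a1).trans a2)
    have a4 := mem_of_sq he (S_le_NVk e (n + 1)) hg a3
    rw [cj_eq a4] at k1
    have a5 : e (U.q (Pi.single (Fin.last (n + 1)) 1) 0 0) ∈ Vk e (n + 1) :=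
      mem_map_of_mem e ⟨rfl, rfl, fun i hi => Pi.single_eq_of_ne (by rintro rfl; simp at hi) _⟩
    have a6 := k1 a5
    rw [W, he.mem_map] at a6
    simpa using congrFun a6.2 (Fin.last (n + 1))

theorem f2 (h0 : SE.{u}) (h1 : All.{u, v} @NS) (h2 : All.{u, v} @C4W) : All.{u, v} @F2 := by
  have key : ∀ {G : Type u} [Group G] [Finite G] {n : ℕ} {F : Type v} [Field F] [Finite F] [CharP F 2]
      (e : U (n + 2) F →* G), St e → (∀ g, g ∈ 𝒩(W e)) → (∀ g, g ∈ 𝒩(Q e)) → ∀ g, g ∈ 𝒩(V e) := by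
    intro G _ _ n F _ _ _ e he hW hQ g
    have hR : FusRel fun (A : Subgroup G) g => Q e ≤ A → g ∈ 𝒩(V e) := by
      refine ⟨fun hAB h k => h (k.trans hAB), fun {A g h} k1 k2 k => mul_mem (k2 ?_) (k1 k),
        fun {A g} k1 k => inv_mem (k1 ?_)⟩
      · rw [cj_smul, ← cj_eq (hQ g)]; exact cj_mono g k
      · rw [cj_smul, ← cj_eq (hQ g)] at k; exact cj_le_cj.1 k
    exact base he h0 (h1 e he) hR (fun _ _ => one_mem _) (fun E hE _ g _ => ⟨fun h => h hE, fun h _ => h⟩)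
      (fun E hE g _ h => absurd h hE) (h2 e he hW hQ) (Q e) (Q_le_S e) g
      (by rw [cj_eq (hQ g)]; exact Q_le_S e) le_rfl
  intro G _ _ n F _ _ _ e he g hg
  have hS : S e ≤ 𝒩(Q e) ⊓ 𝒩(W e) := le_inf (S_le_NQ e) (S_le_NW e)
  have := key (rs e _ hS) (he.res hS) (fun x => by
      rw [W_rs, ← subgroupOf_normalizer_eq ((W_le_S e).trans hS), mem_subgroupOf]; exact x.2.2)
    (fun x => by
      rw [Q_rs, ← subgroupOf_normalizer_eq ((Q_le_S e).trans hS), mem_subgroupOf]; exact x.2.1) ⟨g, hg⟩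
  rwa [V_rs, ← subgroupOf_normalizer_eq ((V_le_S e).trans hS), mem_subgroupOf] at this

theorem nq (h0 : SE.{u}) (h1 : All.{u, v} @NS) (h2 : All.{u, v} @C1) (h3 : All.{u, v} @F2)
    (h4 : All.{u, v} @C4) : All.{u, v} @NQ := by
  intro G _ _ n F _ _ _ e he g hg
  have hK : 𝒩(V e) ⊓ 𝒩(W e) ≤ 𝒩(Q e) := by
    rw [← V_sup_W]; exact le_norm_sup inf_le_left inf_le_right
  have hR : FusRel fun (A : Subgroup G) g => Q e ≤ A ∨ Q e ≤ cj g A → g ∈ 𝒩(V e) ⊓ 𝒩(W e) := by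
    refine ⟨fun {A B g} hAB h k => h (k.imp (fun k => k.trans hAB) fun k => k.trans (cj_mono g hAB)),
      fun {A g h} k1 k2 k => ?_, fun {A g} k1 k => inv_mem (k1 ?_)⟩
    · rw [cj_smul] at k2
      rcases k with k | k
      · have a := k1 (Or.inl k)
        exact mul_mem (k2 (Or.inl (by rw [← cj_eq (hK a)]; exact cj_mono g k))) a
      · rw [cj_mul] at k
        have a := k2 (Or.inr k)
        rw [← cj_eq (hK a)] at k
        exact mul_mem a (k1 (Or.inr (cj_le_cj.1 k)))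
    · rw [cj_smul, cj_inv_cj] at k
      exact k.symm
  have hF : 𝒩(Q e) ⊓ 𝒩(V e) ≤ 𝒩(W e) := by
    have := h3 (sy e) he.symm
    rwa [F2, Q_sy, W_sy, V_sy] at this
  exact base he h0 (h1 e he) hR (fun _ _ => one_mem _)
    (fun E hE hS g hg => ⟨fun h => (h (Or.inl hE)).1, fun h _ => ⟨h, hF ⟨h2 e he E hE hS hg, h⟩⟩⟩)
    (fun E hE g hg h => absurd (by rwa [cj_eq hg, or_self] at h) hE) (h4 e he) (Q e) (Q_le_S e) g hg
    (Or.inl le_rfl)

end CL.LQ
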