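/-
Project LQ (S1769): points of `Q / Z`, invariant subspaces of `W`, the second centre.
-/
import Cfsg.Agent.LQ.Defs

set_option autoImplicit false
open Cfsg Matrix Subgroup CL.Grp CL.Even CL.Loc
open scoped commutatorElement

namespace CL.LQ

universe u v

namespace PTj

variable {G : Type u} [Group G] {n : ℕ} {F : Type v} [Field F]

theorem eqq {e : U n F →* G} (he : St e) {u w u' w' : Fin n → F} {c c' : F} :
    e (U.q u w c) * e (U.q u' w' c') = e (U.q u' w' c') * e (U.q u w c) ↔ u ⬝ᵥ w' = u' ⬝ᵥ w := by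
  rw [← map_mul, ← map_mul, he.inj.eq_iff, ← commutatorElement_eq_one_iff_mul_comm, U.comm_qq, U.q_eq_one, sub_eq_zero]
  simp

theorem lin1 {a b u0 w0 : Fin n → F} (h0 : a ≠ 0) (h : ∀ u w, u ⬝ᵥ b = a ⬝ᵥ w → u ⬝ᵥ w0 = u0 ⬝ᵥ w) :
    ∃ t : F, u0 = t • a ∧ w0 = t • b := by
  obtain ⟨i, hi⟩ := Function.ne_iff.1 h0
  replace hi : a i ≠ 0 := hi
  refine ⟨u0 i / a i, funext fun k => ?_, funext fun k => ?_⟩
  · have := h 0 (Pi.single k (a i) - Pi.single i (a k)) (by simp [mul_comm])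
    simp only [zero_dotProduct, dotProduct_sub, dotProduct_single] at this
    rw [Pi.smul_apply, smul_eq_mul]
    field_simp
    linear_combination -this
  · have := h (Pi.single k (a i)) (Pi.single i (b k)) (by simp)
    simp only [single_dotProduct, dotProduct_single] at this
    rw [Pi.smul_apply, smul_eq_mul]
    field_simp
    linear_combination this

theorem lin {a b u0 w0 : Fin n → F} (h0 : a ≠ 0 ∨ b ≠ 0) (h : ∀ u w, u ⬝ᵥ b = a ⬝ᵥ w → u ⬝ᵥ w0 = u0 ⬝ᵥ w) :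
    ∃ t : F, u0 = t • a ∧ w0 = t • b := h0.elim (lin1 · h) fun h0 =>
  (lin1 h0 fun w u k => by
    rw [dotProduct_comm w, dotProduct_comm _ u] at k ⊢
    exact (h u w k.symm).symm).imp fun _ => And.symm

theorem pt {e : U n F →* G} (he : St e) (a b : Fin n → F) (c : F) (h0 : a ≠ 0 ∨ b ≠ 0) :
    Q e ⊓ 𝒞(Q e ⊓ centralizer {e (U.q a b c)}) = Pt e a b := by
  refine le_antisymm (fun x hx => ?_) ?_
  · obtain ⟨u0, w0, c0, rfl⟩ := mem_Q.1 hx.1
    exact mem_map_of_mem e ⟨rfl, lin h0 fun u w k => (eqq he (c := 0) (c' := c0)).1 (comm_of_mem hx.2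
      ⟨mem_Q.2 ⟨_, _, _, rfl⟩, mem_centralizer_singleton_iff.2 ((eqq he).2 k)⟩)⟩
  · rintro _ ⟨x, ⟨h1, t, h2, h3⟩, rfl⟩
    refine ⟨mem_map_of_mem e h1, mem_centralizer_iff.2 fun y hy => ?_⟩
    obtain ⟨u, w, c', rfl⟩ := mem_Q.1 hy.1
    rw [U.eq_q h1, eqq he, h2, h3, dotProduct_smul, smul_dotProduct, (eqq he).1 (mem_centralizer_singleton_iff.1 hy.2)]

theorem nz {e : U n F →* G} (he : St e) : 𝒩(Q e) ≤ 𝒩(Z e) := by
  rw [show Z e = Q e ⊓ 𝒞(Q e) from le_antisymm (le_inf ((Z_le_V e).trans (V_le_Q e))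
    (le_centralizer_iff.1 ((Q_le_S e).trans (S_le_CZ e)))) fun x hx => he.mem_Z_of_cent (Q_le_S e hx.1) hx.2]
  exact le_norm_inf le_rfl (le_norm_cent le_rfl)

theorem cj_c (g x : G) : cj g (centralizer {x}) = centralizer {g * x * g⁻¹} := Subgroup.ext fun y => by
  rw [mem_cj, mem_centralizer_singleton_iff, mem_centralizer_singleton_iff]
  refine ⟨fun h => ?_, fun h => ?_⟩
  · calc _ = g * (g⁻¹ * y * g * x) * g⁻¹ := by group
      _ = _ := by rw [h]; group
  · calc _ = g⁻¹ * (y * (g * x * g⁻¹)) * g := by group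
      _ = _ := by rw [h]; group

theorem cVk {e : U n F →* G} (he : St e) (k : ℕ) : W e ⊓ 𝒞(Vk e k) = Wk e k := by
  refine le_antisymm (fun x hx => ?_) ?_
  · obtain ⟨w, c, rfl⟩ := mem_W.1 hx.1
    refine mem_map_of_mem e ⟨rfl, rfl, fun i hi => ?_⟩
    have := (eqq he).1 (comm_of_mem hx.2 (mem_map_of_mem e (x := U.q (Pi.single i 1) 0 0)
      ⟨rfl, rfl, fun j hj => Pi.single_eq_of_ne (by rintro rfl; omega) _⟩))
    simpa using this
  · rintro _ ⟨x, ⟨h1, h2, h3⟩, rfl⟩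
    refine ⟨mem_map_of_mem e ⟨h1, h2⟩, mem_centralizer_iff.2 ?_⟩
    rintro _ ⟨y, ⟨k1, k2, k3⟩, rfl⟩
    rw [U.eq_q h1, U.eq_q k1, eqq he, h2, zero_dotProduct]
    exact Finset.sum_eq_zero fun i _ => (lt_or_ge (i : ℕ) k).elim (fun h => by rw [k3 i h, zero_mul])
      fun h => by rw [h3 i h, mul_zero]

theorem mem_of_coord {A : Submodule F (Fin n → F)} {x : Fin n → F} (h : ∀ l, x l ≠ 0 → Pi.single l 1 ∈ A) : x ∈ A := by
  rw [← Finset.univ_sum_single x]
  refine A.sum_mem fun l _ => ?_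
  by_cases hl : x l = 0
  · rw [hl, Pi.single_zero]; exact A.zero_mem
  · simpa [← Pi.single_smul] using A.smul_mem (x l) (h l hl)

theorem of_single {A : Submodule F (Fin n → F)} {l : Fin n} {t : F} (ht : t ≠ 0) (h : Pi.single l t ∈ A) :
    Pi.single l 1 ∈ A := by simpa [← Pi.single_smul, ht] using A.smul_mem t⁻¹ h

theorem ut_single {i j : Fin n} (h : i < j) : IsUT (1 + single i j (1 : F)) :=
  .one_add fun _ _ k => single_apply_of_ne _ _ _ _ _ (by rintro ⟨rfl, rfl⟩; exact h.not_ge k)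

theorem uni {e : U n F →* G} (Y : Subgroup G) (hZ : Z e ≤ Y) (hW : Y ≤ W e) (hS : S e ≤ 𝒩(Y))
    (hP : ∀ b c, e (U.q 0 b c) ∈ Y → Pt e 0 b ≤ Y) : ∃ k ≤ n, Y = Wk e k := by
  classical
  have zc : ∀ b c, e (U.q 0 b c) ∈ Y ↔ e (U.q 0 b 0) ∈ Y := fun b c => by
    rw [show U.q 0 b c = U.q 0 b 0 * U.q 0 0 c by simp [U.q_mul], map_mul,
      mul_mem_cancel_right (hZ (mem_Z.2 ⟨c, rfl⟩))]
  let B : Submodule F (Fin n → F) :=
    { carrier := {b | e (U.q 0 b 0) ∈ Y}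
      zero_mem' := hZ (mem_Z.2 ⟨0, rfl⟩)
      add_mem' := fun {a b} ha hb => by
        have := Y.mul_mem ha hb
        rw [← map_mul, U.q_mul] at this
        simpa using this
      smul_mem' := fun t b hb => hP b 0 hb (mem_map_of_mem e ⟨rfl, t, by simp, rfl⟩) }
  have cm : ∀ b ∈ B, ∀ i j : Fin n, j < i → Pi.single j (b i) ∈ B := fun b hb i j h => by
    have := mul_mem (conj_mem (hS (apply_mem_S e (U.l _ (ut_single h)))) hb) (inv_mem hb)
    rw [← commutatorElement_def, ← map_commutatorElement, U.comm_q] at this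
    simp only [zero_vecMul, sub_zero, U.l_g, add_mulVec, one_mulVec, add_sub_cancel_left, single_mulVec, one_mul] at this
    exact (zc _ _).1 this
  have ex : ∃ k : ℕ, ∀ b ∈ B, ∀ i : Fin n, k ≤ (i : ℕ) → b i = 0 := ⟨n, fun _ _ i h => absurd i.2 h.not_gt⟩
  refine ⟨Nat.find ex, Nat.find_min' ex fun _ _ i h => absurd i.2 h.not_gt, le_antisymm (fun y hy => ?_) ?_⟩
  · obtain ⟨b, c, rfl⟩ := mem_W.1 (hW hy)
    exact mem_map_of_mem e ⟨rfl, rfl, Nat.find_spec ex b ((zc b c).1 hy)⟩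
  · rintro _ ⟨x, ⟨h1, h2, h3⟩, rfl⟩
    rw [U.eq_q h1, h2, zc]
    refine mem_of_coord (A := B) fun i hi => ?_
    have lt : (i : ℕ) < Nat.find ex := not_le.1 fun h => hi (h3 i h)
    have := Nat.find_min ex (m := Nat.find ex - 1) (by omega)
    push Not at this
    obtain ⟨b, hb, m, m1, m2⟩ := this
    have low : ∀ j, j < m → Pi.single j 1 ∈ B := fun j hj => of_single m2 (cm b hb m j hj)
    have top : ∀ j, b j ≠ 0 → j ≤ m := fun j hj => by
      have : (j : ℕ) < Nat.find ex := not_le.1 fun h => hj (Nat.find_spec ex b hb j h)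
      exact Fin.le_def.2 (by omega)
    rcases (show i ≤ m from Fin.le_def.2 (by omega)).lt_or_eq with h | rfl
    · exact low i h
    refine of_single m2 ((B.sub_mem_iff_right hb).1 (mem_of_coord fun j hj => ?_))
    have ne : j ≠ i := by rintro rfl; simp at hj
    exact low j (lt_of_le_of_ne (top j (by simpa [ne] using hj)) ne)

theorem comm_g {x s : U n F} : ⁅x, s⁆ ∈ U.Q n F ↔ x.g * s.g = s.g * x.g := by
  rw [show ⁅x, s⁆ = x * s * (s * x)⁻¹ by rw [commutatorElement_def]; group, U.mem_Q, U.mul_g, U.inv_g, ← U.mul_g s x,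
    ← U.mul_g x s]
  exact ⟨fun h => by rw [← mul_one (x * s).g, ← (s * x).g_inv_mul, ← mul_assoc, h, one_mul],
    fun h => by rw [h, U.g_mul_inv]⟩

theorem cen {x : U (n + 2) F} :
    x ∈ U.XX (Pi.single 0 1) (Pi.single (Fin.last (n + 1)) 1) ↔ ∀ s : U (n + 2) F, x.g * s.g = s.g * x.g := by
  constructor
  · rintro ⟨t, h⟩ s
    have h1 : Pi.single (Fin.last (n + 1)) 1 ᵥ* s.g = Pi.single (Fin.last (n + 1)) 1 := funext fun j =>
      s.ut.vecMul_apply fun i hi => Pi.single_eq_of_ne (hi.trans_le (Fin.le_last j)).ne _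
    have h2 : s.g *ᵥ Pi.single 0 1 = Pi.single 0 1 := funext fun j =>
      s.ut.mulVec_apply fun i hi => Pi.single_eq_of_ne ((Fin.zero_le j).trans_lt hi).ne' _
    rw [h, add_mul, mul_add, smul_mul_assoc, mul_smul_comm, vecMulVec_mul, mul_vecMulVec, h1, h2, one_mul, mul_one]
  · intro h
    have k : ∀ i j, i < j → x.g * single i j 1 = single i j 1 * x.g := fun i j hij => by
      simpa [mul_add, add_mul] using h (U.l _ (ut_single hij))
    refine ⟨x.g 0 (Fin.last _), Matrix.ext fun i j => ?_⟩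
    rw [Matrix.add_apply, Matrix.smul_apply, vecMulVec_apply, smul_eq_mul]
    by_cases hij : i = j
    · subst hij
      rw [x.ut.diag, one_apply_eq]
      by_cases h0 : i = 0
      · simp [h0, Pi.single_eq_of_ne (Fin.last_pos (n := n)).ne]
      · simp [h0]
    rw [one_apply_ne hij, zero_add]
    by_cases h0 : i = 0
    · by_cases h1 : j = Fin.last _
      · simp [h0, h1]
      · have := congrFun (congrFun (k j _ (Fin.lt_last_iff_ne_last.2 h1)) i) (Fin.last _)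
        rw [mul_single_apply_same, single_mul_apply_of_ne _ _ _ _ _ hij, mul_one] at this
        simp [this, h1]
    · have := congrFun (congrFun (k 0 i (Fin.pos_iff_ne_zero.2 h0)) 0) j
      rw [single_mul_apply_same, mul_single_apply_of_ne _ _ _ _ _ (Ne.symm hij), one_mul] at this
      simp [← this, h0]

end PTj

theorem pt : All.{u, v} @PT := by
  intro G _ _ n F _ _ _ e he
  refine ⟨PTj.nz he, PTj.pt he, fun g hg a b c a' b' c' h0 k => ?_, ?_, ?_, PTj.cVk he, PTj.uni, ?_⟩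
  · have h1 : a' ≠ 0 ∨ b' ≠ 0 := by
      by_contra! h
      have := conj_mem' (PTj.nz he hg) (mem_Z.2 ⟨c', rfl⟩)
      rw [← show _ = e (U.q 0 0 c') from h.1 ▸ h.2 ▸ k, show ∀ x : G, g⁻¹ * (g * x * g⁻¹) * g = x from fun x => by group,
        Z, he.mem_map] at this
      exact h0.elim (· this.2.1) (· this.2.2)
    exact ⟨h1, by rw [← PTj.pt he a b c h0, ← PTj.pt he a' b' c' h1, cj_inf, cj_cent, cj_inf, cj_eq hg, PTj.cj_c, k]⟩
  · refine congrArg (Subgroup.map e) (Subgroup.ext fun x => ⟨fun ⟨h1, h2, h3⟩ => ⟨h1, x.u (Fin.last _), ?_, by simp [h2]⟩,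
      fun ⟨h1, t, h2, h3⟩ => ⟨h1, by simp [h3], fun i hi => ?_⟩⟩)
    · funext i
      by_cases h : i = Fin.last _
      · simp [h]
      · simp [h, h3 i (Fin.lt_last_iff_ne_last.2 h)]
    · simp [h2, Fin.lt_last_iff_ne_last.1 hi]
  · refine congrArg (Subgroup.map e) (Subgroup.ext fun x => ⟨fun ⟨h1, h2, h3⟩ => ⟨h1, x.w 0, by simp [h2], ?_⟩,
      fun ⟨h1, t, h2, h3⟩ => ⟨h1, by simp [h2], fun i hi => ?_⟩⟩)
    · funext i
      by_cases h : i = 0
      · simp [h]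
      · simp [h, h3 i (Fin.pos_iff_ne_zero.2 h)]
    · simp [h3, Fin.pos_iff_ne_zero.1 (show 0 < i from hi)]
  · rintro _ ⟨x, rfl⟩
    rw [XX, he.mem_map, PTj.cen]
    refine ⟨?_, fun h s => PTj.comm_g.1 (he.mem_map.1 (map_commutatorElement e x s ▸ h _ ⟨s, rfl⟩))⟩
    rintro h _ ⟨s, rfl⟩
    exact ⟨_, PTj.comm_g.2 (h s), map_commutatorElement e x s⟩

end CL.LQ
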