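/-
Project LQ (S1769): the conjugates of `Z` under `N(W)`.
-/
import Cfsg.Agent.LQ.Defs

set_option autoImplicit false
open Cfsg Matrix Subgroup CL.Grp CL.Even CL.Loc
open scoped commutatorElement

namespace CL.LQ

universe u v

namespace PTSx

variable {G : Type u} [Group G] {n : ℕ} {F : Type v} [Field F] {e : U n F →* G}

/-- a Sylow subgroup which centralises `d` and `w` -/
theorem ti0 [Finite G] {T : Subgroup G} (hT : IsSylowIn 2 T ⊤) {d w v : G} (dd : d * d = 1) (dw : d * w = w * d)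
    (h1 : T ≤ centralizer {d}) (h2 : T ≤ centralizer {w}) (vd : v * d = d * v) (vw : v * w * v⁻¹ = d * w) : d = 1 := by
  have k : ∀ a, a * d = d * a → a * (d * w) * a⁻¹ = d * (a * w * a⁻¹) := fun a h => by
    rw [← mul_assoc, h]; group
  have k2 : d * (d * w) = w := by rw [← mul_assoc, dd, one_mul]
  let H : Subgroup G :=
    { carrier := {h | h * d = d * h ∧ (h * w * h⁻¹ = w ∨ h * w * h⁻¹ = d * w)}
      one_mem' := ⟨by group, .inl (by group)⟩
      mul_mem' := fun {a b} ha hb => ⟨by rw [mul_assoc, hb.1, ← mul_assoc, ha.1, mul_assoc], by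
        rw [show a * b * w * (a * b)⁻¹ = a * (b * w * b⁻¹) * a⁻¹ by group]
        rcases hb.2 with e | e <;> rw [e]
        · exact ha.2
        · rw [k a ha.1]
          exact ha.2.symm.imp (fun e => by rw [e, k2]) fun e => by rw [e]⟩
      inv_mem' := fun {a} ha => by
        have h0 : a⁻¹ * d = d * a⁻¹ := (Commute.inv_left ha.1).eq
        refine ⟨h0, ha.2.imp (fun e => ?_) fun e => ?_⟩
        · conv_lhs => rw [← e]
          group
        · have := k _ h0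
          rw [← e, show a⁻¹ * (a * w * a⁻¹) * a⁻¹⁻¹ = w by group] at this
          have h5 := congrArg (d * ·) this
          simp only [← mul_assoc d d, dd, one_mul] at h5
          exact h5.symm }
  have h3 : H ≤ centralizer {w} := le_of_syl_of_res (hT.of_le (K := H) (fun x hx =>
    ⟨mem_centralizer_singleton_iff.1 (h1 hx), .inl (mul_inv_eq_iff_eq_mul.2 (mem_centralizer_singleton_iff.1 (h2 hx)))⟩)
    le_top) h2 (res_le_of_pow fun a ha => ⟨1, by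
      rw [pow_one, pow_two, mem_centralizer_singleton_iff, ← mul_inv_eq_iff_eq_mul,
        show a * a * w * (a * a)⁻¹ = a * (a * w * a⁻¹) * a⁻¹ by group]
      rcases ha.2 with e | e
      · rw [e, e]
      · rw [e, k a ha.1, e, k2]⟩)
  have h4 := mem_centralizer_singleton_iff.1 (h3 (show v ∈ H from ⟨vd, .inr vw⟩))
  rw [h4, mul_inv_cancel_right] at vw
  exact mul_eq_right.1 vw.symm

theorem ex_v {w z : G} (hw : w ∈ W e) (hn : w ∉ Z e) (hz : z ∈ Z e) : ∃ v ∈ V e, v * w * v⁻¹ = z * w := by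
  obtain ⟨b, c, rfl⟩ := mem_W.1 hw
  obtain ⟨t, rfl⟩ := mem_Z.1 hz
  obtain ⟨a, ha⟩ := exists_dot (b := b) (fun h => hn (mem_Z.2 ⟨c, by rw [h]⟩)) t
  refine ⟨_, mem_V.2 ⟨a, 0, rfl⟩, ?_⟩
  rw [← mul_inv_eq_iff_eq_mul, ← commutatorElement_def, ← map_commutatorElement, U.comm_qq, ha, zero_dotProduct,
    sub_zero]

theorem cj_le {g : G} (hg : g ∈ 𝒩(W e)) : cj g (Z e) ≤ W e := cj_le_of_le (Z_le_W e) hg

theorem Z_le_Pt (a b : Fin n → F) : Z e ≤ Pt e a b :=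
  map_mono fun _ h => ⟨h.1, 0, by rw [h.2.1, zero_smul], by rw [h.2.2, zero_smul]⟩

variable [Finite G] [Finite F] [CharP F 2] (he : St e)
include he

omit [Finite F] in
theorem ti {g : G} (hg : g ∈ 𝒩(W e)) : cj g (Z e) = Z e ∨ cj g (Z e) ⊓ Z e = ⊥ := by
  refine or_iff_not_imp_left.2 fun hne => (eq_bot_iff_forall _).2 fun d hd => ?_
  obtain ⟨w, hw, hn⟩ := SetLike.not_le_iff_exists.1 fun h => hne (eq_of_le_of_card_ge h (card_cj g _).ge)
  obtain ⟨v, hv, e1⟩ := ex_v (cj_le hg hw) hn hd.2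
  have hT := syl_cj he.syl g
  have hC : cj g (S e) ≤ 𝒞(cj g (Z e)) := cj_cent g (Z e) ▸ cj_mono g (S_le_CZ e)
  rw [cj_top] at hT
  exact ti0 hT (W_sq (Z_le_W e hd.2)) (W_comm (Z_le_W e hd.2) (cj_le hg hw))
    (hC.trans (centralizer_le (Set.singleton_subset_iff.2 hd.1)))
    (hC.trans (centralizer_le (Set.singleton_subset_iff.2 hw))) (Z_comm hd.2 (V_le_S e hv)).symm e1

omit [Finite G] [CharP F 2] he in
theorem card_Pt (b : Fin n → F) : Nat.card (Pt e 0 b) ≤ Nat.card F * Nat.card F := by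
  rw [← Nat.card_prod]
  refine Nat.card_le_card_of_surjective (fun x : F × F => (⟨e (U.q 0 (x.1 • b) x.2),
    mem_map_of_mem e ⟨rfl, x.1, (smul_zero _).symm, rfl⟩⟩ : Pt e 0 b)) ?_
  rintro ⟨_, x, ⟨h1, t, h2, h3⟩, rfl⟩
  exact ⟨(t, x.c), Subtype.ext (congrArg e (U.ext (by rw [h2, smul_zero]; rfl) h1.symm h3.symm rfl))⟩

theorem line {g : G} (hg : g ∈ 𝒩(W e)) {b : Fin n → F} {c : F} (hb : b ≠ 0) (hw : e (U.q 0 b c) ∈ cj g (Z e))
    (pt : Q e ⊓ 𝒞(Q e ⊓ centralizer {e (U.q 0 b c)}) = Pt e 0 b) : Z e ⊔ cj g (Z e) = Pt e 0 b := by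
  have hn : e (U.q 0 b c) ∉ Z e := fun h => hb (he.mem_map.1 h).2.2
  generalize e (U.q 0 b c) = w at *
  have h0 := (ti he hg).resolve_left fun h => hn (h ▸ hw)
  have h1 : ∀ x ∈ V e, x * w = w * x → ∀ y ∈ cj g (Z e), x * y = y * x := fun x hx xw y hy => by
    have hg' : g⁻¹ * x * g ∈ 𝒩(W e) := mul_mem (mul_mem (inv_mem hg) (S_le_NW e (V_le_S e hx))) hg
    have h2 := (ti he hg').resolve_right fun h => by
      have h3 : g⁻¹ * w * g ∈ cj (g⁻¹ * x * g) (Z e) ⊓ Z e := mem_inf.2 ⟨by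
        rw [mem_cj, show (g⁻¹ * x * g)⁻¹ * (g⁻¹ * w * g) * (g⁻¹ * x * g) = g⁻¹ * x⁻¹ * (w * x) * g by group,
          ← xw, show g⁻¹ * x⁻¹ * (x * w) * g = g⁻¹ * w * g by group]
        exact mem_cj.1 hw, mem_cj.1 hw⟩
      rw [h, mem_bot, mul_assoc, inv_mul_eq_one, eq_comm, mul_eq_right] at h3
      exact hn (h3 ▸ one_mem _)
    have h3 : x * y * x⁻¹ ∈ cj g (Z e) := by
      have := conj_mem (cj_eq_iff_mem.1 h2) (mem_cj.1 hy)
      rw [mem_cj]
      convert this using 1; group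
    rw [← commutatorElement_eq_one_iff_mul_comm, ← mem_bot, ← h0]
    exact mem_inf.2 ⟨mul_mem h3 (inv_mem hy), comm_Q (V_le_Q e hx) (W_le_Q e (cj_le hg hy))⟩
  have h2 : cj g (Z e) ≤ Pt e 0 b := fun y hy => pt.le ⟨W_le_Q e (cj_le hg hy), fun a ha => by
    obtain ⟨v, hv, w', hw', rfl⟩ := exists_VW ha.1
    have h3 := mem_centralizer_singleton_iff.1 ha.2
    rw [mul_assoc, W_comm hw' (cj_le hg hw), ← mul_assoc, ← mul_assoc, mul_left_inj] at h3
    rw [mul_assoc, W_comm hw' (cj_le hg hy), ← mul_assoc, h1 v hv h3 y hy, mul_assoc]⟩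
  refine eq_of_le_of_card_ge (sup_le (Z_le_Pt 0 b) h2) ((card_Pt b).trans_eq ?_)
  rw [sup_comm, card_sup_of_inf_eq_bot (((cj_le hg).trans (W_le_S e)).trans ((S_le_CZ e).trans (cent_le_norm _))) h0,
    card_cj, he.card_Z]

/-- the union of the conjugates of `Z` under `N(W)` -/
def Y (e : U n F →* G) : Subgroup G where
  carrier := {x | ∃ g ∈ 𝒩(W e), x ∈ cj g (Z e)}
  one_mem' := ⟨1, one_mem _, one_mem _⟩
  inv_mem' := fun ⟨g, hg, h⟩ => ⟨g, hg, inv_mem h⟩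
  mul_mem' := fun {x y} ⟨g, hg, hx⟩ ⟨k, hk, hy⟩ => by
    by_cases h : y ∈ cj g (Z e)
    · exact ⟨g, hg, mul_mem hx h⟩
    obtain ⟨v, hv, e1⟩ := ex_v (conj_mem' hg (cj_le hk hy)) (fun h' => h (mem_cj.2 h')) (mem_cj.1 hx)
    refine ⟨g * v * g⁻¹ * k, mul_mem (mul_mem (mul_mem hg (S_le_NW e (V_le_S e hv))) (inv_mem hg)) hk, ?_⟩
    rw [show x * y = g * (g⁻¹ * x * g * (g⁻¹ * y * g)) * g⁻¹ by group, ← e1, mem_cj]
    convert mem_cj.1 hy using 1; group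

end PTSx

open PTSx in
theorem pts (h0 : All.{u,v} @PT) : All.{u,v} @PTS := by
  intro G _ _ n F _ _ _ e he
  have h := h0 e he
  have hl : ∀ g ∈ 𝒩(W e), ∀ b c, b ≠ 0 → e (U.q 0 b c) ∈ cj g (Z e) → Z e ⊔ cj g (Z e) = Pt e 0 b :=
    fun g hg b c hb hw => line he hg hb hw (h.pt 0 b c (.inr hb))
  have hZ : Z e ≤ Y e := fun x hx => ⟨1, one_mem _, by rwa [cj_one]⟩
  obtain ⟨k, hk, e1⟩ := h.uni (Y e) hZ (fun x ⟨g, hg, hx⟩ => cj_le hg hx)
    (le_norm_of_cj_le fun s hs _ ⟨x, ⟨g, hg, hx⟩, e1⟩ =>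
      ⟨s * g, mul_mem (S_le_NW e hs) hg, by rw [cj_mul]; exact ⟨x, hx, e1⟩⟩)
    fun b c ⟨g, hg, hx⟩ => by
      by_cases hb : b = 0
      · refine le_trans (map_mono fun x ⟨h1, t, h2, h3⟩ => ?_) hZ
        exact ⟨h1, by rw [h2, smul_zero], by rw [h3, hb, smul_zero]⟩
      · exact (hl g hg b c hb hx).ge.trans (sup_le hZ fun y hy => ⟨g, hg, hy⟩)
  exact ⟨fun g hg => ti he hg, hl, k, hk, fun x => e1 ▸ Iff.rfl⟩

end CL.LQ
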