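/-
Project LQ (S1769): `N(W)` normalises the subspaces `Wk` dual to the `N(V)`-invariant subspaces `Vk`.
-/
import Cfsg.Agent.LQ.Defs

set_option autoImplicit false
open Cfsg Matrix Subgroup CL.Grp CL.Even CL.Loc
open scoped commutatorElement

namespace CL.LQ

universe u v

namespace PTS2x

variable {G : Type u} [Group G] [Finite G] {n : ℕ} {F : Type v} [Field F] {e : U (n + 2) F →* G}

theorem out (he : St e) {h : G} (hh : h ∈ 𝒩(W e)) (hz : h ∉ 𝒩(Z e)) :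
    ∃ b c, b ≠ 0 ∧ e (U.q 0 b c) ∈ cj h (Z e) := by
  by_contra k
  push Not at k
  refine hz (mem_norm_of_cj_le fun x hx => ?_)
  obtain ⟨b, c, rfl⟩ := mem_W.1 (cj_le_of_le (Z_le_W e) hh hx)
  obtain rfl : b = 0 := by_contra fun hb => k b c hb hx
  exact he.mem_map.2 ⟨rfl, rfl, rfl⟩

omit [Finite G] in
theorem cl (he : St e) {b0 : Fin (n + 2) → F} (hb : b0 ≠ 0) {x : G} (hx : x ∈ W e)
    (h : ∀ v ∈ V e, v ∈ 𝒞(Pt e 0 b0) → v * x = x * v) : x ∈ Pt e 0 b0 := by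
  obtain ⟨b, c, rfl⟩ := mem_W.1 hx
  have k : ∀ a, a ⬝ᵥ b0 = 0 → a ⬝ᵥ b = 0 := fun a ha => by
    have := h (e (U.q a 0 0)) (mem_V.2 ⟨_, _, rfl⟩) (mem_centralizer_iff.2 (by
      rintro _ ⟨s, ⟨h1, t, h2, h3⟩, rfl⟩
      rw [← commutatorElement_eq_one_iff_mul_comm, ← map_commutatorElement, U.eq_q h1, U.comm_qq, h3]
      simp [ha, U.q_zero]))
    rw [← commutatorElement_eq_one_iff_mul_comm, ← map_commutatorElement, he.eq_one, U.comm_qq, U.q_eq_one] at this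
    simpa using this.2.2
  obtain ⟨a0, h0⟩ := exists_dot hb 1
  refine he.mem_map.2 ⟨rfl, a0 ⬝ᵥ b, by simp, sub_eq_zero.1 (eq_zero_of_dot fun a => ?_)⟩
  have := k (a - (a ⬝ᵥ b0) • a0) (by simp [h0])
  simp only [sub_dotProduct, smul_dotProduct, smul_eq_mul] at this
  simp only [U.q_w, dotProduct_sub, dotProduct_smul, smul_eq_mul]
  linear_combination this

omit [Finite G] in
theorem comm_cj {h x w : G} (hh : h ∈ 𝒩(W e)) (hx : x ∈ cj h (V e)) (hw : w ∈ W e) : ⁅x, w⁆ ∈ cj h (Z e) := by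
  have := comm_Q (V_le_Q e (mem_cj.1 hx)) (W_le_Q e (conj_mem' hh hw))
  rw [mem_cj]
  convert this using 1
  simp only [commutatorElement_def]
  group

omit [Finite G] in
theorem comm_W1 {x w : G} (hx : x ∈ S e) (hw : w ∈ Wk e 1) : ⁅x, w⁆ ∈ Z e := by
  obtain ⟨s, rfl⟩ := hx
  obtain ⟨y, ⟨h1, h2, h3⟩, rfl⟩ := hw
  rw [← map_commutatorElement, U.eq_q h1, U.comm_q, h2]
  refine mem_map_of_mem e ⟨rfl, by simp, sub_eq_zero.2 (funext fun i => s.ut.mulVec_apply fun j hj => h3 j ?_)⟩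
  have : (i : ℕ) < j := hj
  omega

theorem step (he : St e) (pts : PTS e) {g : G} (hg : g ∈ 𝒩(W e)) :
    ∃ m ∈ 𝒩(W e) ⊓ 𝒩(Z e), cj (m * g) (Z e) ≤ Wk e 1 := by
  by_cases hz : g ∈ 𝒩(Z e)
  · exact ⟨1, one_mem _, by rw [one_mul, cj_eq hz]; exact Z_le_Wk e 1⟩
  obtain ⟨b0, c0, hb0, h0⟩ := out he (inv_mem hg) fun k => hz (inv_mem_iff.1 k)
  have l0 := pts.line _ (inv_mem hg) b0 c0 hb0 h0
  have SN : S e ≤ 𝒩(W e) ⊓ 𝒩(Z e) := le_inf (S_le_NW e) ((S_le_CZ e).trans (cent_le_norm _))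
  obtain ⟨m, hm, hX⟩ := syl_conj_le (U := cj g (V e ⊓ 𝒞(Pt e 0 b0))) (he.syl.of_le SN le_top)
    (isPGroup_cj (he.isP.to_le (inf_le_left.trans (V_le_S e))) g) (le_inf
      (cj_le_of_mem (inf_le_left.trans ((V_le_S e).trans (S_le_NW e))) hg) (by
        refine (cj_mono g inf_le_right).trans ?_
        rw [cj_cent, ← l0, cj_sup, cj_cj_inv]
        exact (cent_mono le_sup_right).trans (cent_le_norm _)))
  rw [← cj_mul] at hX
  have hh : m * g ∈ 𝒩(W e) := mul_mem hm.1 hg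
  have hz' : m * g ∉ 𝒩(Z e) := fun k => hz ((Subgroup.mul_mem_cancel_left _ (mem_inf.1 hm).2).1 k)
  have ti := (pts.ti _ hh).resolve_left fun k => hz' (cj_eq_iff_mem.1 k)
  obtain ⟨b, c, hb, h1⟩ := out he hh hz'
  have l1 := pts.line _ hh b c hb h1
  have w2 : e (U.q 0 (Pi.single 0 1) 0) ∈ Wk e 1 := he.mem_map.2 ⟨rfl, rfl, fun i hi => by
    rw [U.q_w, Pi.single_eq_of_ne]
    rintro rfl
    simp at hi⟩
  have k : e (U.q 0 (Pi.single 0 1) 0) ∈ cj (m * g) (Pt e 0 b0) := by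
    refine mem_cj.2 (cl he hb0 (conj_mem' hh (Wk_le_W e 1 w2)) fun v hv hc => ?_)
    have x1 := conj_mem_cj (m * g) (show v ∈ V e ⊓ 𝒞(Pt e 0 b0) from ⟨hv, hc⟩)
    have x2 : ⁅m * g * v * (m * g)⁻¹, e (U.q 0 (Pi.single 0 1) 0)⁆ ∈ cj (m * g) (Z e) ⊓ Z e :=
      ⟨comm_cj hh (conj_mem_cj _ hv) (Wk_le_W e 1 w2), comm_W1 (hX x1) w2⟩
    rw [ti, mem_bot, commutatorElement_eq_one_iff_mul_comm] at x2
    generalize e (U.q 0 (Pi.single 0 1) 0) = w at x2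
    generalize m * g = h at x2
    calc v * (h⁻¹ * w * h) = h⁻¹ * (h * v * h⁻¹ * w) * h := by group
      _ = h⁻¹ * w * h * v := by rw [x2]; group
  rw [← l0, cj_sup, cj_mul m g (cj g⁻¹ _), cj_cj_inv, cj_eq hm.2, sup_comm, l1] at k
  obtain ⟨-, t, -, ht⟩ := he.mem_map.1 k
  refine ⟨m, hm, (le_sup_right.trans l1.le).trans (map_mono ?_)⟩
  rintro y ⟨y1, t', y2, y3⟩
  refine ⟨y1, by simpa using y2, fun i hi => ?_⟩
  have t0 : t ≠ 0 := by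
    rintro rfl
    simpa using congrFun ht 0
  have := congrFun ht i
  rw [U.q_w, Pi.single_eq_of_ne (by rintro rfl; simp at hi), Pi.smul_apply, smul_eq_mul, eq_comm, mul_eq_zero] at this
  rw [y3, Pi.smul_apply, this.resolve_left t0, smul_zero]

end PTS2x

open PTS2x in
theorem pts2 (h0 : All.{u, v} @PT) (h1 : All.{u, v} @NQ) (h2 : All.{u, v} @FR) (h3 : All.{u, v} @PTS) :
    All.{u, v} @PTS2 := by
  intro G _ _ n F _ _ _ e he k hk hV g hg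
  have fr := h2 (sy e) he.symm
  simp only [FR, V_sy, S_sy] at fr
  have pts := h3 e he
  have a : ∀ g ∈ 𝒩(W e), g ∈ 𝒩(Z e) → g ∈ 𝒩(Wk e k) := fun g hg hz => by
    obtain ⟨m, hm, k1, -⟩ := fr (Z e) (Q e) (Z_le_W e) ((S_le_CZ e).trans (cent_le_norm _)) (fun x =>
      ⟨fun hx => ⟨Q_le_S e hx, fun w hw => comm_Q hx (W_le_Q e hw), fun z hz =>
        commutatorElement_eq_one_iff_mul_comm.2 (Z_comm hz (Q_le_S e hx)).symm⟩,
        fun hx => he.mem_Q_of_W hx.1 hx.2.1⟩) g ⟨hg, hz⟩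
    have m1 := h1 e he m ((cj_eq hm.2).le.trans (Q_le_S e))
    have m2 : m ∈ 𝒩(Wk e k) := by
      rw [← (h0 e he).cVk k]
      exact le_norm_inf (L := zpowers m) (zpowers_le_of_mem m1.2)
        (zpowers_le_of_mem (norm_le_norm_cent _ (hV m1.1))) (mem_zpowers m)
    exact mem_normalizer_fintype fun x hx => by rw [k1 x (Wk_le_W e k hx)]; exact conj_mem m2 hx
  by_cases hz : g ∈ 𝒩(Z e)
  · exact a g hg hz
  have c : cj g (Z e) ≤ Wk e k := by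
    obtain ⟨m, hm, h⟩ := step he pts hg
    rw [cj_mul, cj_le_iff] at h
    refine h.trans (cj_le_of_le (map_mono fun x hx => ⟨hx.1, hx.2.1, fun i hi => hx.2.2 i (hk.trans hi)⟩) ?_)
    exact inv_mem (a m hm.1 hm.2)
  obtain ⟨x, hx, z, zZ, hxz⟩ : ∃ x ∈ cj g (V e), ∃ z ∈ Z e, ⁅x, z⁆ ≠ 1 := by
    by_contra k
    push Not at k
    refine hz (inv_mem_iff.1 (mem_normalizer_fintype fun z zZ => ?_))
    rw [inv_inv]
    have zW := conj_mem' hg (Z_le_W e zZ)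
    refine he.mem_Z_of (he.mem_V_of_cent (W_le_S e zW) (mem_centralizer_iff.2 fun v hv => ?_)) zW
    have := commutatorElement_eq_one_iff_mul_comm.1 (k _ (conj_mem_cj g hv) z zZ)
    calc v * (g⁻¹ * z * g) = g⁻¹ * (g * v * g⁻¹ * z) * g := by group
      _ = g⁻¹ * z * g * v := by rw [this]; group
  have xW : x ∈ 𝒩(W e) := cj_le_of_mem ((V_le_S e).trans (S_le_NW e)) hg hx
  have xk : x ∈ 𝒩(Wk e k) := mem_normalizer_fintype fun w hw => by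
    simpa [commutatorElement_def] using mul_mem (c (comm_cj hg hx (Wk_le_W e k hw))) hw
  have ti := (pts.ti _ hg).resolve_left fun k => hz (cj_eq_iff_mem.1 k)
  have wp := comm_cj hg hx (Z_le_W e zZ)
  obtain ⟨b, c1, hw⟩ := mem_W.1 (Wk_le_W e k (c wp))
  have hb : b ≠ 0 := by
    rintro rfl
    exact hxz (mem_bot.1 (ti.le ⟨wp, mem_Z.2 ⟨_, hw⟩⟩))
  obtain ⟨c2, rfl⟩ := mem_Z.1 zZ
  obtain ⟨a0, ha⟩ := exists_dot hb c2
  have vS := apply_mem_S e (U.q a0 0 0)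
  have hv : e (U.q a0 0 0) * ⁅x, e (U.q 0 0 c2)⁆ * (e (U.q a0 0 0))⁻¹ = ⁅x, e (U.q 0 0 c2)⁆ * e (U.q 0 0 c2) := by
    rw [← hw, ← map_inv, ← map_mul, ← map_mul, ← map_mul, U.conj_q, U.q_mul]
    simp [ha]
  generalize e (U.q a0 0 0) = v at vS hv
  generalize e (U.q 0 0 c2) = z at hv wp hxz zZ
  have hh : g⁻¹ * (v⁻¹ * x) ∈ 𝒩(W e) := mul_mem (inv_mem hg) (mul_mem (inv_mem (S_le_NW e vS)) xW)
  have e1 : g⁻¹ * (v⁻¹ * x) * z * (g⁻¹ * (v⁻¹ * x))⁻¹ = g⁻¹ * ⁅x, z⁆ * g := by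
    calc _ = g⁻¹ * (v⁻¹ * (⁅x, z⁆ * z) * v) * g := by simp only [commutatorElement_def]; group
      _ = _ := by rw [← hv]; group
  have hN := a _ hh (cj_eq_iff_mem.1 ((pts.ti _ hh).resolve_right fun k => hxz (by
    have : g⁻¹ * ⁅x, z⁆ * g = 1 := mem_bot.1 (k.le ⟨e1 ▸ conj_mem_cj _ zZ, mem_cj.1 wp⟩)
    calc ⁅x, z⁆ = g * (g⁻¹ * ⁅x, z⁆ * g) * g⁻¹ := by group
      _ = 1 := by rw [this]; group)))
  exact inv_mem_iff.1 ((mul_mem_cancel_right (mul_mem (inv_mem (S_le_NWk e k vS)) xk)).1 hN)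

end CL.LQ
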