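/-
Project LQ (S1769): step SE (consequences of strong embedding in `N(E)`).
-/
import Cfsg.Agent.LQ.Defs

set_option autoImplicit false
open Cfsg Matrix Subgroup CL.Grp CL.Even CL.Loc
open scoped commutatorElement

namespace CL.LQ

universe u v

namespace SE

section pure

variable {H : Type*} [Group H]

theorem mem_of_coprime {K : Subgroup H} {x : H} {m n : ℕ} (h : m.Coprime n) (hm : x ^ m ∈ K) (hn : x ^ n ∈ K) :
    x ∈ K := by
  have e : x = (x ^ m) ^ (Nat.gcdA m n) * (x ^ n) ^ (Nat.gcdB m n) := by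
    rw [← _root_.zpow_natCast, ← _root_.zpow_natCast, ← _root_.zpow_mul, ← _root_.zpow_mul, ← _root_.zpow_add,
      ← Nat.gcd_eq_gcd_ab, h]
    simp
  rw [e]
  exact mul_mem (zpow_mem hm _) (zpow_mem hn _)

theorem semi {x b : H} (hx : x * x = 1) (hb : b * b = 1) : SemiconjBy x (x * b)⁻¹ (x * b) := by
  rw [SemiconjBy, _root_.mul_inv_rev, inv_eq_of_mul_eq_one_right hx, inv_eq_of_mul_eq_one_right hb, mul_assoc]

theorem semi' {x b : H} (hx : x * x = 1) (hb : b * b = 1) : SemiconjBy b (x * b)⁻¹ (x * b) := by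
  rw [SemiconjBy, _root_.mul_inv_rev, inv_eq_of_mul_eq_one_right hx, inv_eq_of_mul_eq_one_right hb,
    ← mul_assoc, hb, mul_assoc, hb, one_mul, mul_one]

theorem eq_conj {x b : H} (hx : x * x = 1) (hb : b * b = 1) {j : ℕ} (h : (x * b) ^ (2 * j + 1) = 1) :
    (x * b) ^ j * x * ((x * b) ^ j)⁻¹ = b := by
  have h1 : x * ((x * b) ^ j)⁻¹ = (x * b) ^ j * x := by
    rw [← inv_pow]; exact ((semi hx hb).pow_right j).eq
  have h2 : (x * b) ^ j * (x * b) ^ j = b * x := by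
    rw [← pow_add, ← two_mul]
    rw [pow_succ] at h
    rw [eq_inv_of_mul_eq_one_left h, _root_.mul_inv_rev, inv_eq_of_mul_eq_one_right hx,
      inv_eq_of_mul_eq_one_right hb]
  rw [mul_assoc, h1, ← mul_assoc, h2, mul_assoc, hx, mul_one]

variable [Finite H] {P K : Subgroup H} (hP : IsSylowIn 2 P ⊤) (hPK : P ≤ K)
  (se : ∀ x ∈ P, x ≠ 1 → ∀ g, g * x * g⁻¹ ∈ K → g ∈ K)
include hP hPK se

theorem conj_into {x τ : H} (hx : x ∈ P) (hx1 : x ≠ 1) (hτ : τ * τ = 1) (hc : Commute x τ) :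
    ∃ l ∈ K, l * τ * l⁻¹ ∈ P := by
  have h1 : IsPGroup 2 (zpowers x ⊔ zpowers τ : Subgroup H) := by
    refine isPGroup_sup (hP.isPGroup.to_le (zpowers_le.2 hx)) (isPGroup_zpowers (k := 1) (by rw [pow_one, pow_two, hτ]))
      (le_trans ?_ (cent_le_norm _))
    refine zpowers_le.2 (le_centralizer_iff.1 (zpowers_le.2 ?_) (mem_zpowers x))
    refine mem_centralizer_iff.2 fun y hy => ?_
    obtain ⟨n, rfl⟩ := mem_zpowers_iff.1 hy
    exact (hc.zpow_left n).eq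
  obtain ⟨l, -, hl⟩ := syl_conj_le hP h1 le_top
  exact ⟨l, se x hx hx1 l (hPK (hl (conj_mem_cj l (mem_sup_left (mem_zpowers x))))),
    hl (conj_mem_cj l (mem_sup_right (mem_zpowers τ)))⟩

theorem odd_order {x x' g : H} (hx : x ∈ P) (hx1 : x ≠ 1) (hx2 : x * x = 1) (hx' : x' ∈ P) (hx1' : x' ≠ 1)
    (hx2' : x' * x' = 1) (hg : g ∉ K) : Odd (orderOf (x * (g * x' * g⁻¹))) := by
  set b := g * x' * g⁻¹ with hb
  have hb2 : b * b = 1 := by
    rw [hb]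
    calc g * x' * g⁻¹ * (g * x' * g⁻¹) = g * (x' * x') * g⁻¹ := by group
      _ = 1 := by rw [hx2']; group
  rw [← Nat.not_even_iff_odd]
  rintro ⟨i, hi⟩
  have hpos := orderOf_pos (x * b)
  have hτ : (x * b) ^ i * (x * b) ^ i = 1 := by rw [← pow_add, ← hi, pow_orderOf_eq_one]
  have hτ1 : (x * b) ^ i ≠ 1 := pow_ne_one_of_lt_orderOf (by omega) (by omega)
  have hinv : ((x * b) ^ i)⁻¹ = (x * b) ^ i := inv_eq_of_mul_eq_one_right hτ
  have c1 : Commute x ((x * b) ^ i) := by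
    have := ((semi hx2 hb2).pow_right i).eq
    rwa [inv_pow, hinv] at this
  have c2 : Commute b ((x * b) ^ i) := by
    have := ((semi' hx2 hb2).pow_right i).eq
    rwa [inv_pow, hinv] at this
  generalize (x * b) ^ i = τ at *
  obtain ⟨l, hl, h1⟩ := conj_into hP hPK se hx hx1 hτ c1
  obtain ⟨l', hl', h2⟩ := conj_into hP hPK se (τ := g⁻¹ * τ * g) hx' hx1' (by
      calc g⁻¹ * τ * g * (g⁻¹ * τ * g) = g⁻¹ * (τ * τ) * g := by group
        _ = 1 := by rw [hτ]; group) (by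
      have e := c2.eq
      calc x' * (g⁻¹ * τ * g) = g⁻¹ * (b * τ) * g := by rw [hb]; group
        _ = g⁻¹ * (τ * b) * g := by rw [e]
        _ = _ := by rw [hb]; group)
  have h3 : l' * g⁻¹ * l⁻¹ ∈ K := by
    refine se _ h1 (fun h => hτ1 (by simpa using h)) _ (hPK ?_)
    convert h2 using 1
    group
  rw [mul_mem_cancel_right (inv_mem hl), mul_mem_cancel_left hl', inv_mem_iff] at h3
  exact hg h3

end pure

variable {G : Type u} [Group G] [Finite G] {S E K : Subgroup G} (h : Loc S E K)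
include h

theorem lt_P : E < S ⊓ 𝒩(E) := lt_inf_normalizer_of_isPGroup h.isP h.lt

theorem P_le : S ⊓ 𝒩(E) ≤ K := fun g hg =>
  h.ext _ (lt_P h) inf_le_left g hg.2 ((cj_le_of_mem le_rfl hg).trans inf_le_left)

theorem centric : S ⊓ 𝒞(E) ≤ E := by
  by_contra hc
  have hS : IsSylowIn 2 (S ⊓ 𝒩(E) ⊓ 𝒞(E)) 𝒞(E) := h.syl.inf_of_normalized (cent_le_norm E) (norm_le_norm_cent E)
  refine h.ne fun g hg => ?_
  obtain ⟨a, ha, c, hc', rfl⟩ := frattini_mul hS (cent_le_norm E) (norm_le_norm_cent E) hg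
  refine mul_mem (h.ext (E ⊔ S ⊓ 𝒩(E) ⊓ 𝒞(E)) (lt_of_le_of_ne le_sup_left fun e => hc ?_)
    (sup_le h.lt.le (inf_le_left.trans inf_le_left)) a ha.1 ?_) (h.cent hc')
  · exact fun x hx => e ▸ mem_sup_right ⟨⟨hx.1, cent_le_norm E hx.2⟩, hx.2⟩
  · rw [cj_sup, cj_eq ha.1, cj_eq ha.2]
    exact sup_le h.lt.le (inf_le_left.trans inf_le_left)

theorem se1 : ∀ x ∈ S, x ∈ 𝒩(E) → x ∉ E → ∀ g ∈ 𝒩(E), g * x * g⁻¹ ∈ K → g ∈ K := by
  intro x hx hxn hxE g hg hK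
  have hT : E ⊔ zpowers x ≤ S ⊓ 𝒩(E) := sup_le (lt_P h).le (zpowers_le.2 ⟨hx, hxn⟩)
  have hTK : cj g (E ⊔ zpowers x) ≤ K := by
    rw [cj_sup, cj_eq hg]
    refine sup_le ((lt_P h).le.trans (P_le h)) ?_
    rintro _ ⟨_, ⟨n, rfl⟩, rfl⟩
    change g * x ^ n * g⁻¹ ∈ K
    rw [← conj_zpow]
    exact zpow_mem hK n
  obtain ⟨k, hk, hle⟩ := syl_conj_le (h.syl.of_le (P_le h) h.le)
    (isPGroup_cj (h.isP.to_le (hT.trans inf_le_left)) g) hTK
  rw [← cj_mul] at hle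
  have := h.ext _ (lt_of_le_of_ne le_sup_left fun e => hxE (e ▸ mem_sup_right (mem_zpowers x)))
    (hT.trans inf_le_left) _ (mul_mem (h.le hk) hg) (hle.trans inf_le_left)
  exact (mul_mem_cancel_left hk).1 this

theorem R_le : E ⊔ 𝒞(E) ≤ K := sup_le ((lt_P h).le.trans (P_le h)) h.cent

theorem mem_E {x : G} (hx : x ∈ S) (hR : x ∈ E ⊔ 𝒞(E)) : x ∈ E := by
  obtain ⟨a, ha, c, hc, rfl⟩ := (mem_sup_nl (cent_le_norm E)).1 hR
  exact mul_mem ha (centric h ⟨(mul_mem_cancel_left (h.lt.le ha)).1 hx, hc⟩)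

theorem key {x x' g : G} (hx : Out S E x) (hx' : Out S E x') (hg : g ∈ 𝒩(E)) (hgK : g ∉ K) :
    ∃ j : ℕ, (x * (g * x' * g⁻¹)) ^ (2 * j + 1) ∈ E ⊔ 𝒞(E) ∧
      ((x * (g * x' * g⁻¹)) ^ j * x * ((x * (g * x' * g⁻¹)) ^ j)⁻¹)⁻¹ * (g * x' * g⁻¹) ∈ E ⊔ 𝒞(E) := by
  have hRL : E ⊔ 𝒞(E) ≤ 𝒩(E) := sup_le le_normalizer (cent_le_norm E)
  have hN : ((E ⊔ 𝒞(E)).subgroupOf 𝒩(E)).Normal :=
    (normal_subgroupOf_iff_le_normalizer hRL).2 (le_norm_sup le_rfl (norm_le_norm_cent E))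
  set π := QuotientGroup.mk' ((E ⊔ 𝒞(E)).subgroupOf 𝒩(E)) with hπ
  have hsurj : Function.Surjective π := QuotientGroup.mk'_surjective _
  have hone : ∀ y : 𝒩(E), π y = 1 ↔ (y : G) ∈ E ⊔ 𝒞(E) := fun y => QuotientGroup.eq_one_iff y
  have hK : ∀ y : 𝒩(E), π y ∈ (K.subgroupOf 𝒩(E)).map π ↔ (y : G) ∈ K := by
    intro y
    rw [← mem_comap, comap_map_eq_self]
    · rfl
    · exact fun z hz => R_le h ((hone z).1 hz)
  have hP : IsSylowIn 2 (((S ⊓ 𝒩(E)).subgroupOf 𝒩(E)).map π) ⊤ := by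
    have := syl_map π (isSylowIn_top h.syl.toSylow)
    rwa [map_top_of_surjective π hsurj] at this
  have hsq : ∀ {y : G} (hy : Out S E y), π ⟨y, hy.mN⟩ * π ⟨y, hy.mN⟩ = 1 := fun hy => by
    rw [← map_mul, hone]; exact mem_sup_left hy.sq
  have hne : ∀ {y : G} (hy : Out S E y), π ⟨y, hy.mN⟩ ≠ 1 := fun hy e => hy.nE (mem_E h hy.mS ((hone _).1 e))
  obtain ⟨j, hj⟩ := odd_order (K := (K.subgroupOf 𝒩(E)).map π) hP (map_mono (comap_mono (P_le h))) (by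
      rintro _ ⟨y, hy, rfl⟩ hy1 g' hg'
      obtain ⟨g', rfl⟩ := hsurj g'
      rw [← map_inv, ← map_mul, ← map_mul, hK] at hg'
      exact (hK _).2 (se1 h y hy.1 y.2 (fun e => hy1 ((hone y).2 (mem_sup_left e))) g' g'.2 hg'))
    (x := π ⟨x, hx.mN⟩) (x' := π ⟨x', hx'.mN⟩) (g := π ⟨g, hg⟩) (mem_map_of_mem π ⟨hx.mS, hx.mN⟩) (hne hx) (hsq hx)
    (mem_map_of_mem π ⟨hx'.mS, hx'.mN⟩) (hne hx') (hsq hx') (fun e => hgK ((hK _).1 e))
  have h1 := pow_orderOf_eq_one (π ⟨x, hx.mN⟩ * (π ⟨g, hg⟩ * π ⟨x', hx'.mN⟩ * (π ⟨g, hg⟩)⁻¹))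
  rw [hj] at h1
  have h2 := eq_conj (hsq hx) (by
    calc π ⟨g, hg⟩ * π ⟨x', hx'.mN⟩ * (π ⟨g, hg⟩)⁻¹ * (π ⟨g, hg⟩ * π ⟨x', hx'.mN⟩ * (π ⟨g, hg⟩)⁻¹)
        = π ⟨g, hg⟩ * (π ⟨x', hx'.mN⟩ * π ⟨x', hx'.mN⟩) * (π ⟨g, hg⟩)⁻¹ := by group
      _ = 1 := by rw [hsq hx']; group) h1
  rw [← inv_mul_eq_one] at h2
  simp only [← map_inv, ← map_mul, ← map_pow, hone] at h1 h2
  exact ⟨j, h1, h2⟩

end SE

theorem se : SE.{u} := by
  intro G _ _ S E K h
  refine ⟨h, SE.P_le h, SE.centric h, SE.se1 h, ?_, ?_, ?_⟩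
  · intro x x' hx hx' g hg hgK
    obtain ⟨j, -, h2⟩ := SE.key h hx hx' hg hgK
    exact ⟨_, pow_mem (mem_zpowers _) j, _, h2, (mul_inv_cancel_left _ _).symm⟩
  · intro v hv hv2 H hvH g hg hgH hgK
    obtain ⟨j, h1, -⟩ := SE.key h hv hv hg hgK
    obtain ⟨a, ha⟩ := exists_pow_coprime (p := 2) (v * (g * v * g⁻¹))
    have hb2 : g * v * g⁻¹ * (g * v * g⁻¹) = 1 := by
      calc g * v * g⁻¹ * (g * v * g⁻¹) = g * (v * v) * g⁻¹ := by group
        _ = 1 := by rw [hv2]; group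
    refine ⟨_, pow_mem (mul_mem hv.mN (mul_mem (mul_mem hg hv.mN) (inv_mem hg))) _,
      pow_mem (mul_mem hvH (mul_mem (mul_mem hgH hvH) (inv_mem hgH))) _, fun hy => hgK ?_,
      Nat.coprime_two_right.1 ha, ?_⟩
    · have h3 := SE.mem_of_coprime (Nat.Coprime.pow_left a (Nat.coprime_two_left.2 (odd_two_mul_add_one j))) hy
        (SE.R_le h h1)
      exact SE.se1 h v hv.mS hv.mN hv.nE g hg ((mul_mem_cancel_left (SE.P_le h ⟨hv.mS, hv.mN⟩)).1 h3)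
    · have := ((SE.semi hv2 hb2).inv_right.pow_right (2 ^ a)).eq
      rw [inv_inv, inv_pow] at this
      rw [this, mul_inv_cancel_right]
  · intro x x' hx hx' g hg hgK m hm _ c1 c2
    obtain ⟨j, h1, -⟩ := SE.key h hx hx' hg hgK
    generalize g * x' * g⁻¹ = b at *
    have hR : E ⊔ 𝒞(E) ≤ centralizer {m} := sup_le
      (fun e he => mem_centralizer_singleton_iff.2 (comm_of_mem hm.2 he))
      (fun e he => mem_centralizer_singleton_iff.2 (comm_of_mem he hm.1).symm)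
    have c3 : Commute b (x * m * x⁻¹) := by
      have := c2.mul_right c1
      rwa [commutatorElement_def, inv_mul_cancel_right] at this
    have e1 : x * x * m = m * (x * x) := comm_of_mem hm.2 hx.sq
    have h2 : (x * b) ^ 2 ∈ centralizer {m} := by
      rw [mem_centralizer_singleton_iff, pow_two]
      calc x * b * (x * b) * m = x * b * x * (b * m) := by group
        _ = x * (b * (x * m * x⁻¹)) * x * b := by rw [c1.eq]; group
        _ = (x * x * m) * x⁻¹ * b * x * b := by rw [c3.eq]; group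
        _ = _ := by rw [e1]; group
    have h3 := mem_centralizer_singleton_iff.1
      (SE.mem_of_coprime (Nat.coprime_two_left.2 (odd_two_mul_add_one j)) h2 (hR h1))
    rw [commutatorElement_eq_one_iff_mul_comm]
    apply mul_right_cancel (b := b)
    calc x * m * b = x * b * m := by rw [mul_assoc, ← c1.eq, mul_assoc]
      _ = _ := by rw [h3, mul_assoc]

end CL.LQ
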