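/-
Project LQ (S1769): order of the model, its embedding as a Sylow 2-subgroup of `PSL (n + 2) F`,
and the identification of the parameters.
-/
import Cfsg.Agent.LQ.Defs
import Cfsg.Agent.Cls.SLnCard

set_option autoImplicit false
open Cfsg Matrix Subgroup CL.Grp CL.Even CL.Loc
open scoped commutatorElement

namespace CL.LQ

universe u v

namespace SylJ

variable {n : ℕ} {F : Type v} [Field F]

/-- unitriangular matrices are given by their entries above the diagonal -/
def utEquiv (n : ℕ) (F : Type v) [Field F] :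
    {g : Matrix (Fin n) (Fin n) F // IsUT g} ≃ ({p : Fin n × Fin n // p.1 < p.2} → F) where
  toFun g p := g.1 p.1.1 p.1.2
  invFun f := ⟨1 + Matrix.of fun i j => if h : i < j then f ⟨(i, j), h⟩ else 0,
    IsUT.one_add fun i j h => by simp [not_lt.2 h]⟩
  left_inv g := Subtype.ext (by
    ext i j
    rcases lt_trichotomy i j with h | rfl | h
    · simp [h, one_apply_ne h.ne]
    · simp [g.2.diag]
    · simp [not_lt.2 h.le, one_apply_ne h.ne', g.2.low i j h])
  right_inv f := funext fun p => by simp [p.2, one_apply_ne p.2.ne]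

theorem card_pairs (n : ℕ) : Nat.card {p : Fin n × Fin n // p.1 < p.2} = n * (n - 1) / 2 := by
  rw [Nat.card_eq_fintype_card, Fintype.card_subtype, ← Finset.univ_product_univ,
    Finset.card_product_filter_lt, Finset.card_univ, Fintype.card_fin, Nat.choose_two_right]

/-- the four coordinates -/
def uEquiv (n : ℕ) (F : Type v) [Field F] :
    U n F ≃ (Fin n → F) × {g : Matrix (Fin n) (Fin n) F // IsUT g} × (Fin n → F) × F where
  toFun x := (x.u, ⟨x.g, x.ut⟩, x.w, x.c)
  invFun y := ⟨y.1, y.2.1.1, y.2.2.1, y.2.2.2, y.2.1.2⟩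
  left_inv _ := rfl
  right_inv _ := rfl

theorem tri (n : ℕ) : n + (n * (n - 1) / 2 + (n + 1)) = (n + 2) * (n + 1) / 2 := by
  have : (n + 2) * (n + 1) = n * (n - 1) + 2 * (2 * n + 1) := by
    cases n with
    | zero => rfl
    | succ m => simp only [Nat.add_sub_cancel]; ring
  rw [this, Nat.add_mul_div_left _ _ two_pos]; omega

theorem tri_inj {n m : ℕ} (h : (n + 2) * (n + 1) / 2 = (m + 2) * (m + 1) / 2) : n = m := by
  have e : ∀ k : ℕ, 2 * ((k + 2) * (k + 1) / 2) = (k + 2) * (k + 1) := fun k =>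
    Nat.mul_div_cancel' (by rw [mul_comm]; exact (Nat.even_mul_succ_self (k + 1)).two_dvd)
  have h2 : (n + 2) * (n + 1) = (m + 2) * (m + 1) := by rw [← e, h, e]
  rcases lt_trichotomy n m with k | k | k
  · nlinarith
  · exact k
  · nlinarith

/-- the block matrix of an element -/
def mat (x : U n F) : Matrix (Unit ⊕ (Fin n ⊕ Unit)) (Unit ⊕ (Fin n ⊕ Unit)) F :=
  fromBlocks 1 (Matrix.of fun _ => Sum.elim x.u fun _ => x.c) 0 (fromBlocks x.g (Matrix.of fun i _ => x.w i) 0 1)

theorem mat_det (x : U n F) : (mat x).det = 1 := by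
  rw [mat, det_fromBlocks_zero₂₁, det_fromBlocks_zero₂₁, x.ut.det]; simp

theorem mat_mul (x y : U n F) : mat (x * y) = mat x * mat y := by
  rw [mat, mat, mat, fromBlocks_multiply, fromBlocks_multiply, fromBlocks_inj]
  refine ⟨by simp, ?_, by simp, ?_⟩
  · ext i (j | j)
    · simp [mul_apply, vecMul, dotProduct]
    · simp [mul_apply, dotProduct]; ring
  · rw [Matrix.zero_mul, zero_add, fromBlocks_inj]
    refine ⟨by simp, ?_, by simp, by simp⟩
    ext i j
    simp [mul_apply, mulVec, dotProduct]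

theorem mat_inj {x y : U n F} (h : mat x = mat y) : x = y := by
  rw [mat, mat, fromBlocks_inj, fromBlocks_inj] at h
  obtain ⟨-, h1, -, h2, h3, -⟩ := h
  exact U.ext (funext fun i => congrFun (congrFun h1 ()) (.inl i)) h2 (funext fun i => congrFun (congrFun h3 i) ())
    (congrFun (congrFun h1 ()) (.inr ()))

/-- the embedding in the special linear group -/
noncomputable def emb (n : ℕ) (F : Type v) [Field F] : U n F →* SpecialLinearGroup (Unit ⊕ (Fin n ⊕ Unit)) F :=
  MonoidHom.mk' (fun x => ⟨mat x, mat_det x⟩) fun x y => Subtype.ext (mat_mul x y)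

theorem emb_inj : Function.Injective (emb n F) := fun _ _ h => mat_inj (congrArg Subtype.val h)

theorem center_eq : center (U n F) = U.Z n F := by
  refine le_antisymm (fun x hx => ?_) fun z hz => mem_center_iff.2 fun s => U.z_comm hz s
  have k : ∀ v : U n F, ⁅x, v⁆ = 1 := fun v => commutatorElement_eq_one_iff_mul_comm.2 (mem_center_iff.1 hx v).symm
  exact U.V_inf_W.le ⟨U.mem_V_of_comm fun v _ => k v, U.mem_W_of_comm fun v _ => k v⟩

theorem card_center : Nat.card (center (U n F)) = Nat.card F := by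
  rw [center_eq]
  exact Nat.card_congr ⟨fun x => x.1.c, fun c => ⟨U.q 0 0 c, rfl, rfl, rfl⟩,
    fun x => Subtype.ext (U.ext x.2.2.1.symm x.2.1.symm x.2.2.2.symm rfl), fun _ => rfl⟩

theorem range_equiv {G A B : Type*} [Group G] [Finite G] [Group A] [Group B] {a : A →* G} {b : B →* G}
    (ha : Function.Injective a) (hb : Function.Injective b) (sa : IsSylowIn 2 a.range ⊤)
    (sb : IsSylowIn 2 b.range ⊤) : Nonempty (A ≃* B) := by
  obtain ⟨g, -, hg⟩ := sa.exists_conj_eq sb
  rw [conj_smul_eq_map] at hg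
  exact ⟨(MonoidHom.ofInjective ha).trans ((((MulAut.conj g).subgroupMap a.range).trans
    (MulEquiv.subgroupCongr hg)).trans (MonoidHom.ofInjective hb).symm)⟩

end SylJ

open SylJ

theorem card : CARD.{v} := by
  intro F _ _ n
  rw [Nat.card_congr (uEquiv n F), Nat.card_prod, Nat.card_prod, Nat.card_prod, Nat.card_congr (utEquiv n F),
    Nat.card_fun, Nat.card_fun, card_pairs, Nat.card_eq_fintype_card (α := Fin n), Fintype.card_fin, ← pow_succ,
    ← pow_add, ← pow_add, tri]

theorem syl : SYL.{v} := by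
  intro F _ _ _ n
  have := Fintype.ofFinite F
  have : Fact (Nat.Prime 2) := ⟨Nat.prime_two⟩
  obtain ⟨k, -, hk⟩ := FiniteField.card F 2
  have hq : 2 ∣ Fintype.card F := hk ▸ dvd_pow_self 2 k.ne_zero
  have hq1 : 1 < Fintype.card F := Fintype.one_lt_card
  have hU : IsPGroup 2 (U n F) := IsPGroup.of_card (n := k * ((n + 2) * (n + 1) / 2)) (by
    rw [card n, Nat.card_eq_fintype_card, hk, pow_mul])
  let ε : Unit ⊕ (Fin n ⊕ Unit) ≃ Fin (n + 2) := Fintype.equivFinOfCardEq (by simp; omega)
  let e0 : U n F →* SpecialLinearGroup (Fin (n + 2)) F := (CL.SLn.slReindex ε).toMonoidHom.comp (emb n F)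
  have h0 : Function.Injective e0 := (CL.SLn.slReindex ε).injective.comp emb_inj
  let e : U n F →* ProjectiveSpecialLinearGroup (Fin (n + 2)) F := (QuotientGroup.mk' (center _)).comp e0
  have hc : ¬ 2 ∣ Nat.card (center (SpecialLinearGroup (Fin (n + 2)) F)) := by
    rw [CL.SLn.card_center_SL]
    intro h
    have := h.trans (Nat.gcd_dvd_right _ _)
    omega
  have he : Function.Injective e := by
    rw [injective_iff_map_eq_one]
    intro x hx
    have hx' : e0 x ∈ center _ := (QuotientGroup.eq_one_iff _).1 hx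
    obtain ⟨j, hj⟩ := (IsPGroup.iff_orderOf.1 hU) x
    have h1 : orderOf (e0 x) ∣ Nat.card (center (SpecialLinearGroup (Fin (n + 2)) F)) :=
      orderOf_dvd_natCard _ hx'
    rw [orderOf_injective e0 h0, hj] at h1
    rcases j with _ | j
    · exact orderOf_eq_one_iff.1 hj
    · exact absurd ((dvd_pow_self 2 j.succ_ne_zero).trans h1) hc
  refine ⟨e, he, le_top, hU.of_equiv (MonoidHom.ofInjective he), fun h => ?_⟩
  rw [relIndex_top_right] at h
  have h1 := card_mul_index (S e)
  have h2 := CL.SLn.card_PSL_mul (ι := Fin (n + 2)) (F := F)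
  rw [CL.SLn.card_SL, ← h1, S, ← Nat.card_congr (MonoidHom.ofInjective he).toEquiv, card n,
    Nat.card_eq_fintype_card, Fintype.card_fin, mul_left_comm, show n + 2 - 1 = n + 1 from rfl] at h2
  have h3 := Nat.eq_of_mul_eq_mul_left (pow_pos (by omega) _) h2
  have h4 : 2 ∣ ∏ i ∈ Finset.range (n + 1), (Fintype.card F ^ (i + 2) - 1) := h3 ▸ h.mul_left _
  obtain ⟨i, -, hi⟩ := (Prime.dvd_finsetProd_iff Nat.prime_two.prime _).1 h4
  have h5 : 2 ∣ Fintype.card F ^ (i + 2) := hq.trans (dvd_pow_self _ (by omega))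
  have h6 : 0 < Fintype.card F ^ (i + 2) := pow_pos (by omega) _
  omega

theorem fin2 : FIN2.{u, v} := by
  intro G _ _ F _ _ _ n e he ⟨F', _, _, _, m, hm, ⟨φ⟩⟩
  obtain ⟨n', rfl⟩ : ∃ n', m = n' + 2 := ⟨m - 2, by omega⟩
  obtain ⟨e', hi, hs⟩ := syl.{0} (F := F') n'
  have hi' : Function.Injective (φ.toMonoidHom.comp e) := φ.injective.comp he.inj
  have hs' : IsSylowIn 2 (φ.toMonoidHom.comp e).range ⊤ := by
    refine ⟨le_top, he.isP.of_equiv ((MonoidHom.ofInjective he.inj).symm.trans (MonoidHom.ofInjective hi')), ?_⟩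
    have := he.syl.not_dvd
    rw [relIndex_top_right] at this ⊢
    rwa [MonoidHom.range_comp, index_map_of_bijective φ.bijective]
  obtain ⟨ψ⟩ := range_equiv hi' hi hs' hs
  have c1 : Nat.card F = Nat.card F' := by
    rw [← card_center (n := n) (F := F), ← card_center (n := n') (F := F'), ← CL.SLn.map_center_equiv ψ,
      card_map_of_injective ψ.injective]
  have c2 := Nat.card_congr ψ.toEquiv
  rw [card n, card n', ← c1] at c2
  obtain rfl := tri_inj (Nat.pow_right_injective (by have := he.four; omega : 2 ≤ Nat.card F) c2)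
  have := Fintype.ofFinite F
  obtain ⟨χ⟩ := CL.SLn.nonempty_psl_equiv_of_card_eq (ι := Fin (n + 2)) (K := F') (L := F)
    (by rw [← Nat.card_eq_fintype_card, ← Nat.card_eq_fintype_card, c1])
  exact ⟨φ.trans χ⟩

end CL.LQ
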